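import Cfsg.Agent.H1.Pq2
import Cfsg.Agent.H5.SmallGp

/-! H1.Gr1: the theorem of Gross on fixed-point-free automorphisms of order `2 ^ n`. -/

open Cfsg Module Subgroup H9
open scoped commutatorElement Pointwise

namespace H1

universe u v

theorem eq_one_of_two_pow {q m j : ℕ} (hq : Odd q) (h1 : 1 < q) (hm : m ≠ 0) (e : 2 ^ j = q ^ m + 1) : m = 1 := by
  rcases Nat.even_or_odd' m with ⟨k, rfl | rfl⟩
  · obtain ⟨r, hr⟩ := hq.pow (n := k)
    rw [mul_comm, pow_mul, hr] at e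
    have := Nat.one_lt_pow (show k ≠ 0 by omega) h1
    rcases j with _ | _ | j
    · nlinarith
    · have : 1 ≤ r := by omega
      exfalso; norm_num at e; nlinarith
    · rw [pow_succ, pow_succ, show (2 * r + 1) ^ 2 + 1 = 4 * (r * r + r) + 2 by ring] at e; omega
  have h2 : ∀ n : ℕ, Odd ((∑ i ∈ Finset.range n, (-q : ℤ) ^ i) + n + 1) := fun n => by
    induction n with
    | zero => simp
    | succ n ih =>
      rw [Finset.sum_range_succ]
      obtain ⟨a, ha⟩ := ih
      obtain ⟨b, hb⟩ := ((Int.odd_coe_nat q).2 hq).neg.pow (n := n)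
      exact ⟨a + b + 1, by push_cast; linear_combination ha + hb⟩
  have h3 := geom_sum_mul (-q : ℤ) (2 * k + 1)
  rw [(odd_two_mul_add_one k).neg_pow] at h3
  obtain ⟨a, ha⟩ := h2 (2 * k + 1)
  generalize ∑ i ∈ Finset.range (2 * k + 1), (-q : ℤ) ^ i = S at *
  have h4 : S * (q + 1) = 2 ^ j := by zify at e; linear_combination -h3 - e
  have h5 : IsCoprime S 2 := ⟨1, -(a - k - 1), by push_cast at ha; linear_combination ha⟩
  rcases Int.isUnit_iff.1 (h5.pow_right.isUnit_of_dvd' dvd_rfl ⟨_, h4.symm⟩) with rfl | rfl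
  · refine Nat.pow_right_injective h1 (?_ : q ^ _ = q ^ 1)
    zify at e ⊢; linear_combination -h4 - e
  · have := pow_pos (two_pos (α := ℤ)) j; omega

variable {G : Type u} [Group G] [Finite G]

theorem lines_fixed {E T H : Subgroup G} {q t j : ℕ} [hq : Fact q.Prime] [ht : Fact t.Prime]
    (hE : ∀ x ∈ E, x ^ q = 1) (cE : Nat.card E = q ^ 2) (hT : IsPGroup t T) (t2 : t ≠ 2)
    (TE : T ≤ normalizer (E : Set G)) (HE : H ≤ normalizer (E : Set G)) (HT : H ≤ normalizer (T : Set G))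
    (hf : Fpf H E) (cH : Nat.card H = q + 1) (e : 2 ^ j = q + 1) {x : G} (hx : x ∈ E) :
    T ≤ normalizer (zpowers x : Set G) := by
  classical
  haveI := Fintype.ofFinite (Subgroup G)
  let S := Finset.univ.filter fun X : Subgroup G => (X ≤ E ∧ Nat.card X = q) ∧ ¬ T ≤ normalizer (X : Set G)
  have key : ∀ B ≤ normalizer (E : Set G), B ≤ normalizer (T : Set G) → ∀ d,
      (∀ X ∈ S, d ∣ (normalizer (X : Set G)).relIndex B) → d ∣ S.card := fun B b1 b2 d h =>
    @H5.dvd_card_of_stab B _ _ (MulAction.compHom _ (MulAut.conj.comp B.subtype)) S (fun b X hX => by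
      obtain ⟨⟨x1, x2⟩, x3⟩ := (Finset.mem_filter.1 hX).2
      refine Finset.mem_filter.2 ⟨Finset.mem_univ _, ⟨(cj_mono _ x1).trans (mem_normalizer_iff_cj.1 (b1 b.2)).le,
        (card_cj _ _).trans x2⟩, fun h => x3 ?_⟩
      change T ≤ normalizer (cj (b : G) X : Set G) at h
      rwa [← cj_normalizer, ← mem_normalizer_iff_cj.1 (b2 b.2), cj_le_cj_iff] at h) d fun X hX => by
      convert h X hX using 1
      rw [relIndex]
      congr 1
      ext b
      exact mem_normalizer_iff_cj.symm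
  obtain ⟨i, rfl⟩ : ∃ i, j = i + 1 := Nat.exists_eq_succ_of_ne_zero fun h => by
    rw [h] at e; have := hq.out.pos; omega
  have k1 := key H HE HT (2 ^ i) fun X hX => by
    obtain ⟨⟨x1, x2⟩, -⟩ := (Finset.mem_filter.1 hX).2
    have a1 := (hf.mono inf_le_right x1).card_dvd (inf_le_left : normalizer (X : Set G) ⊓ H ≤ _)
    have a2 := relIndex_mul_card (inf_le_right : normalizer (X : Set G) ⊓ H ≤ _)
    have a3 := Nat.dvd_sub (cH ▸ Dvd.intro_left _ a2) (x2 ▸ a1)
    rw [show q + 1 - (q - 1) = 2 by have := hq.out.pos; omega] at a3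
    rw [cH, ← e, inf_relIndex_right, pow_succ] at a2
    exact Nat.dvd_of_mul_dvd_mul_right two_pos (a2 ▸ Nat.mul_dvd_mul_left _ a3)
  have k2 := key T TE le_normalizer t fun X hX => by
    obtain ⟨k, hk⟩ := L.exists_relIndex_eq_pow (N := normalizer (X : Set G)) hT
    exact hk ▸ dvd_pow_self t fun h => (Finset.mem_filter.1 hX).2.2 (relIndex_eq_one.1 (by rw [hk, h, pow_zero]))
  have k3 : S.card ≤ 2 ^ (i + 1) := by
    rw [e, ← L.card_subgroups_of_exp_sq hE cE, Nat.card_eq_fintype_card, Fintype.card_subtype]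
    exact Finset.card_le_card fun X hX => Finset.mem_filter.2 ⟨Finset.mem_univ _, (Finset.mem_filter.1 hX).2.1⟩
  have k4 := Nat.eq_zero_of_dvd_of_lt ((((Nat.coprime_primes Nat.prime_two ht.out).2 t2.symm).pow_left
    i).mul_dvd_of_dvd_of_dvd k1 k2) (k3.trans_lt (Nat.mul_lt_mul_of_pos_left
      (lt_of_le_of_ne ht.out.two_le t2.symm) (Nat.two_pow_pos i)))
  by_cases x1 : x = 1
  · rw [x1, zpowers_one_eq_bot]; exact le_normalizer_of_normal
  by_contra h
  exact Finset.notMem_empty (zpowers x) (Finset.card_eq_zero.1 k4 ▸ Finset.mem_filter.2 ⟨Finset.mem_univ _,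
    ⟨zpowers_le.2 hx, by rw [Nat.card_zpowers, orderOf_eq_prime (hE x hx) x1]⟩, h⟩)

theorem fpf_of_top {H D K : Subgroup G} (hD' : ∀ a ∈ H, a ≠ 1 → D ≤ zpowers a)
    (h : K ⊓ centralizer (D : Set G) = ⊥) : Fpf H K := fpf_iff.2 fun a ha k hk e => or_iff_not_imp_left.2 fun a1 =>
  mem_bot.1 (h.le ⟨hk, centralizer_le (hD' a ha a1) (by
    rw [centralizer_zpowers]; exact mem_centralizer_singleton_iff.2 e.symm)⟩)

theorem top_im {Γ : Type*} [Group Γ] {X H D : Subgroup G} (f : X →* Γ) (hD' : ∀ a ∈ H, a ≠ 1 → D ≤ zpowers a) :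
    ∀ a ∈ im f H, a ≠ 1 → im f D ≤ zpowers a := by
  rintro _ ⟨a, ha, rfl⟩ a1
  rw [← im_zpowers]
  exact im_mono f (hD' a ha fun e => a1 (by rw [show a = 1 from Subtype.ext e, map_one]))

theorem gr_B {Q T H D : Subgroup G} (aQ : IsMulCommutative Q) (TQ : T ≤ normalizer (Q : Set G))
    (HQ : H ≤ normalizer (Q : Set G)) (HT : H ≤ normalizer (T : Set G)) (hD : D ≤ H)
    (hD' : ∀ a ∈ H, a ≠ 1 → D ≤ zpowers a) (cD : Nat.card D = 2) (hTD : ⁅T, D⁆ = T) (c1 : CopA H Q) (c2 : CopA H T)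
    (c3 : CopA T Q) (hC : Q ⊓ centralizer (T : Set G) = ⊥) (hT' : ⁅T, T⁆ ≤ centralizer (⁅Q, D⁆ : Subgroup G)) :
    Nat.card Q = Nat.card (Q ⊓ centralizer (H : Set G) : Subgroup G) ^ Nat.card H ∧
      Nat.card Q ≤ Nat.card (⁅Q, D⁆ : Subgroup G) ^ 2 := by
  have hle : ⁅T, T⁆ ≤ T := commutator_le_of_le le_rfl le_rfl
  have hW : ⁅Q, ⁅T, T⁆⁆ ≤ Q := commutator_le_left' (hle.trans TQ)
  have w1 : ⁅⁅Q, ⁅T, T⁆⁆, D⁆ = ⊥ := eq_bot_iff.2 (le_trans (le_inf (le_inf ((commutator_mono hW le_rfl).trans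
    (commutator_le_left' (hD.trans HQ))) ((commutator_mono hW le_rfl).trans (le_centralizer_iff.1 hT')))
    (commutator_le_left' (hD.trans (normalizer_commutator HQ (normalizer_commutator HT HT)))))
    (cop_abelian_inf aQ (hle.trans TQ) (c3.mono hle le_rfl).cop).le)
  have w2 := three_subgroups (A := T) (B := D) (C := ⁅Q, ⁅T, T⁆⁆) (N := ⊥) le_normalizer_of_normal
    le_normalizer_of_normal le_normalizer_of_normal (by rw [commutator_comm D, w1, commutator_bot_left])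
    ((commutator_mono (commutator_le_left' (normalizer_commutator TQ (normalizer_commutator le_normalizer
      le_normalizer))) le_rfl).trans w1.le)
  rw [hTD, commutator_comm, le_bot_iff, commutator_eq_bot_iff_le_centralizer] at w2
  have w3 := le_centralizer_iff.1 (commutator_eq_bot_iff_le_centralizer.1 (le_bot_iff.1 ((le_inf hW w2).trans hC.le)))
  have lQ : Q ≤ Q ⊔ (T ⊔ H) := le_sup_left
  have lT : T ≤ Q ⊔ (T ⊔ H) := le_sup_of_le_right le_sup_left
  have lH : H ≤ Q ⊔ (T ⊔ H) := le_sup_of_le_right le_sup_right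
  obtain ⟨Γ, _, _, f, -, hf, -⟩ := exists_quot (X := Q ⊔ (T ⊔ H)) (N := T ⊓ centralizer (Q : Set G))
    (inf_le_left.trans lT) (sup_le ((le_centralizer_iff.1 inf_le_right).trans (centralizer_le_normalizer' _))
      (normalizer_inf (sup_le le_normalizer HT) (normalizer_centralizer (sup_le TQ HQ))))
  have k1 : ∀ X ≤ Q, Nat.card (im f X) = Nat.card X := fun X hX => card_im_of_disjoint f (hX.trans lQ)
    (eq_bot_iff.2 ((inf_le_inf (hf.le.trans inf_le_left) hX).trans c3.inf_eq_bot.le))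
  have k2 : ∀ X ≤ H, Nat.card (im f X) = Nat.card X := fun X hX => card_im_of_disjoint f (hX.trans lH)
    (eq_bot_iff.2 ((inf_le_inf (hf.le.trans inf_le_left) hX).trans c2.symm.inf_eq_bot.le))
  have aT : IsMulCommutative (im f T) := le_centralizer_iff_isMulCommutative.1
    ((im_le_centralizer_iff f lT lT).2 (hf ▸ le_inf hle w3))
  have k3 := fpf_of_top (top_im f hD') (eq_bot_iff.2 (le_trans (le_inf le_rfl (inf_le_left.trans (by
    rw [← im_commutator f lT (hD.trans lH), hTD]))) (cop_abelian_inf aT (im_le_normalizer f (hD.trans HT))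
      ((c2.mono hD le_rfl).im f).cop).le))
  have k4 : ∀ X ≤ H, D ≤ X → Nat.card Q = Nat.card (Q ⊓ centralizer (X : Set G) : Subgroup G) ^ Nat.card X :=
    fun X x1 x2 => by
      have := FT.t3_10b (M := im f Q) (isSolvable_of_comm' (isMulCommutative_im f aQ))
        (im_le_normalizer f (x1.trans HT)) (k3.mono (im_mono f x1) le_rfl) (fun e => by
          have := card_le_of_le (im_mono f x2)
          rw [e, k2 D hD, cD, card_bot] at this; omega) (im_le_normalizer f TQ) (im_le_normalizer f (x1.trans HQ))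
        (c3.im f).cop ((c1.mono x1 le_rfl).im f).cop (by
          rw [← im_centralizer_cop f lT TQ (c3.mono le_rfl inf_le_right), hC, im_bot])
      rwa [← im_centralizer_cop f (x1.trans lH) (x1.trans HQ) (c1.mono x1 inf_le_right), k1 _ le_rfl,
        k1 _ inf_le_left, k2 X x1] at this
  refine ⟨k4 H le_rfl hD, ?_⟩
  have k5 := Nat.le_of_dvd (Nat.mul_pos Nat.card_pos Nat.card_pos) (H9.card_sup_dvd
    (A := Q ⊓ centralizer (D : Set G)) (B := ⁅Q, D⁆) (inf_le_left.trans (le_normalizer_commutator_left _ _)))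
  rw [sup_comm, cop_commutator_sup (hD.trans HQ) (c1.mono hD le_rfl)] at k5
  have k6 := k4 D hD le_rfl
  rw [cD] at k6
  rw [k6] at k5 ⊢
  exact Nat.pow_le_pow_left (Nat.le_of_mul_le_mul_left (sq (Nat.card _) ▸ k5) Nat.card_pos) 2

omit [Finite G] in
theorem comm_cyc_sup {K Y : Subgroup G} (hY : K ≤ normalizer (Y : Set G)) {x : G} (hx : x ∈ K) :
    ⁅zpowers x ⊔ cm hY, zpowers x ⊔ cm hY⁆ ≤ Y :=
  have h1 := zpowers_le.2 hx
  comm_sup_le' (h1.trans hY) ((cm_le hY).trans hY) (H9.commutator_sup_le (h1.trans hY) ((cm_le hY).trans hY)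
    ((commutator_eq_bot_iff_le_centralizer.2 (le_centralizer _)).le.trans bot_le)
    (commutator_comm (zpowers x) _ ▸ (commutator_mono h1 le_rfl).trans ((le_cm hY).1 le_rfl).2))
    ((commutator_mono (sup_le h1 (cm_le hY)) le_rfl).trans ((le_cm hY).1 le_rfl).2)

theorem comm_le_cm_of_alt {K Y T : Subgroup G} (hY : K ≤ normalizer (Y : Set G)) (TK : T ≤ normalizer (K : Set G))
    (TY : T ≤ normalizer (Y : Set G)) (hZ : ⁅K, K⁆ ≤ centralizer ((K ⊔ T : Subgroup G) : Set G))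
    (ho : ∀ τ ∈ T, Odd (orderOf τ)) (h : ∀ τ ∈ T, ∀ x ∈ K, ⁅x, τ * x * τ⁻¹⁆ ∈ Y) : ⁅K, T⁆ ≤ cm hY :=
  commutator_le.2 fun y hy τ hτ => by
  have nR := normalizer_cm hY TK TY
  have cj := fun g (hg : g ∈ T) x hx => (mem_normalizer_iff.1 (TK hg) x).1 hx
  have z := fun a (ha : a ∈ K) b (hb : b ∈ K) c hc => hZ (commutator_mem_commutator ha hb) c hc
  have hr : ∀ w ∈ K, ∀ a ∈ K, ∀ b ∈ K, ⁅w, a * b⁆ = ⁅w, a⁆ * ⁅w, b⁆ := fun w hw a ha b hb => by
    rw [← mul_inv_eq_iff_eq_mul.2 (z w hw b hb a (mem_sup_left ha))]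
    simp only [commutatorElement_def]; group
  have hl : ∀ w ∈ K, ∀ a ∈ K, ∀ b ∈ K, ⁅a * b, w⁆ = ⁅a, w⁆ * ⁅b, w⁆ := fun w hw a ha b hb => by
    rw [z b hb w hw _ (mem_sup_left (commutator_le_of_le le_rfl le_rfl (commutator_mem_commutator ha hw))),
      ← mul_inv_eq_iff_eq_mul.2 (z b hb w hw a (mem_sup_left ha))]
    simp only [commutatorElement_def]; group
  have b2 := cj τ hτ y hy
  have b3 := cj _ (inv_mem hτ) y hy
  have h1 : τ * y * τ⁻¹ * (τ⁻¹ * y * τ⁻¹⁻¹)⁻¹ ∈ cm hY := ⟨mul_mem b2 (inv_mem b3), fun x hx => by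
    have a1 := h τ hτ _ (mul_mem hx hy)
    have b1 := cj τ hτ x hx
    rw [show τ * (x * y) * τ⁻¹ = τ * x * τ⁻¹ * (τ * y * τ⁻¹) by group, hl _ (mul_mem b1 b2) x hx y hy,
      hr x hx _ b1 _ b2, hr y hy _ b1 _ b2, mul_assoc, mul_mem_cancel_left (h τ hτ x hx), ← mul_assoc,
      mul_mem_cancel_right (h τ hτ y hy)] at a1
    have a2 := hr x hx _ b3 _ (inv_mem b3)
    rw [mul_inv_cancel, commutatorElement_one_right, eq_comm, mul_eq_one_iff_inv_eq, commutatorElement_inv,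
      ← mul_inv_eq_iff_eq_mul.2 (z _ b3 x hx τ (mem_sup_right hτ)), conjugate_commutatorElement] at a2
    rw [hr x hx _ b2 _ (inv_mem b3), ← a2]
    convert a1 using 3
    group⟩
  have h2 := (mem_normalizer_iff.1 (nR hτ) _).1 h1
  obtain ⟨k, hk⟩ := ho τ hτ
  have h3 := commutator_pow_mem (x := τ * τ) (g := y) (nR (mul_mem hτ hτ)) (by
    convert h2 using 1; simp only [commutatorElement_def]; group) (k + 1)
  rw [← sq, ← pow_mul, show 2 * (k + 1) = orderOf τ + 1 by omega, pow_succ, pow_orderOf_eq_one, one_mul] at h3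
  rw [← commutatorElement_inv]
  exact inv_mem h3

variable {F : Type*} [Field F] {V : Type*} [AddCommGroup V] [Module F V] {ρ : G →* End F V}

theorem gr_step [IsAlgClosed F] [FiniteDimensional F V] {Q T H D : Subgroup G} {W : Submodule F V} {q t : ℕ}
    [hq : Fact q.Prime] [ht : Fact t.Prime] (qt : q ≠ t) (q2 : q ≠ 2) (t2 : t ≠ 2) (hQ : IsPGroup q Q)
    (hT : IsPGroup t T) (hH : IsPGroup 2 H) (hHc : IsCyclic H) (hD : D ≤ H) (hD' : ∀ a ∈ H, a ≠ 1 → D ≤ zpowers a)
    (cD : Nat.card D = 2) (TQ : T ≤ normalizer (Q : Set G)) (HQ : H ≤ normalizer (Q : Set G))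
    (HT : H ≤ normalizer (T : Set G)) (hW : ∀ g ∈ Q ⊔ (T ⊔ H), ∀ w ∈ W, ρ g w ∈ W)
    (hZ : ∀ z ∈ ⁅Q, Q⁆, ∃ c : F, ∀ w ∈ W, ρ z w = c • w) (hZc : ⁅Q, Q⁆ ≤ centralizer ((Q ⊔ T : Subgroup G) : Set G))
    (hΦ : L.Phi Q ≤ ⁅Q, Q⁆) (hC : Q ⊓ centralizer (T : Set G) ≤ ⁅Q, Q⁆) (h2 : ⁅Q, T⁆ = Q) (hTD : ⁅T, D⁆ = T)
    (hT' : ⁅⁅T, T⁆, D⁆ ≤ centralizer (Q : Set G)) (hQ0 : (Nat.card Q : F) ≠ 0) (hH0 : (Nat.card H : F) ≠ 0)
    (h0 : ∀ w ∈ W, w ∈ fix ρ H → w = 0) (hY : Q ≤ normalizer (ptw ρ W : Set G)) : Q ≤ cm hY := by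
  haveI : Fact (Nat.Prime 2) := ⟨Nat.prime_two⟩
  have lQ : Q ≤ Q ⊔ (T ⊔ H) := le_sup_left
  have lT : T ≤ Q ⊔ (T ⊔ H) := le_sup_of_le_right le_sup_left
  have lH : H ≤ Q ⊔ (T ⊔ H) := le_sup_of_le_right le_sup_right
  have hle : ⁅Q, Q⁆ ≤ Q := commutator_le_of_le le_rfl le_rfl
  have nY := normalizer_ptw hW
  have nQ : Q ⊔ (T ⊔ H) ≤ normalizer (Q : Set G) := sup_le le_normalizer (sup_le TQ HQ)
  have nR := normalizer_cm hY nQ nY
  have c1 : CopA H Q := copA_of_p hH (cop_of_isPGroup_ne q2 hQ)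
  have c2 : CopA H T := copA_of_p hH (cop_of_isPGroup_ne t2 hT)
  have c3 : CopA T Q := copA_of_p hT (cop_of_isPGroup_ne qt hQ)
  have DQ := hD.trans HQ
  have HD : H ≤ normalizer (D : Set G) := le_normalizer_of_le_centralizer ((le_centralizer H).trans (centralizer_le hD))
  have a1 : ⁅⁅Q, Q⁆, Q ⊔ (T ⊔ H)⁆ ≤ ptw ρ W := commutator_comm (Q ⊔ (T ⊔ H)) _ ▸ commutator_le.2 fun g hg z hz => by
    obtain ⟨c, hc⟩ := hZ z hz
    exact comm_mem_ptw (hW _ (inv_mem hg)) hc (hW _ (inv_mem (lQ (hle hz))))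
  have a2 : ⁅Q, Q⁆ ≤ cm hY := (le_cm hY).2 ⟨hle, commutator_comm ⁅Q, Q⁆ _ ▸ (commutator_mono le_rfl lQ).trans a1⟩
  have a3 : ∀ X ≤ Q ⊔ (T ⊔ H), ⁅⁅Q, X⁆, Q ⊓ centralizer (X : Set G)⁆ ≤ ptw ρ W := fun X hX =>
    three_subgroups hY (hX.trans nY) (inf_le_left.trans hY) (by
      rw [commutator_eq_bot_iff_le_centralizer.2 (le_centralizer_iff.1 inf_le_right), commutator_bot_left]
      exact bot_le) ((commutator_mono (commutator_mono inf_le_left le_rfl) hX).trans a1)
  have hK : ⁅Q, D⁆ ⊔ ⁅Q, Q⁆ ≤ Q := sup_le (commutator_le_left' DQ) hle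
  have hY1 := hK.trans hY
  have a4 : cm hY1 ≤ cm hY := (le_cm hY).2 ⟨(cm_le hY1).trans hK, (commutator_mono (cop_commutator_sup DQ
    (c1.mono hD le_rfl)).ge le_rfl).trans (H9.commutator_sup_le (le_sup_left.trans hY1) (inf_le_left.trans hY)
      ((commutator_mono le_sup_left le_rfl).trans ((le_cm hY1).1 le_rfl).2) ((commutator_mono le_rfl (cm_le hY1)).trans
        (comm_sup_le' (le_sup_left.trans hY1) (hle.trans hY) (commutator_comm ⁅Q, D⁆ _ ▸ a3 D (hD.trans lH))
          (commutator_comm ⁅Q, Q⁆ _ ▸ (commutator_mono le_rfl (inf_le_left.trans lQ)).trans a1))))⟩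
  have a5 : cm hY1 = (⁅Q, D⁆ ⊔ ⁅Q, Q⁆) ⊓ cm hY := le_antisymm (le_inf (cm_le hY1) a4)
    ((le_cm hY1).2 ⟨inf_le_left, (commutator_mono hK inf_le_right).trans ((le_cm hY).1 le_rfl).2⟩)
  have nK : ∀ X ≤ T ⊔ H, X ≤ normalizer (D : Set G) → X ≤ normalizer ((⁅Q, D⁆ ⊔ ⁅Q, Q⁆ : Subgroup G) : Set G) :=
    fun X h1 h2 => have := h1.trans (le_sup_right.trans nQ)
      normalizer_sup (normalizer_commutator this h2) (normalizer_commutator this this)
  have a6 := inf_centralizer_le_of_comm DQ (c1.mono hD le_rfl) le_rfl hle (normalizer_commutator DQ DQ)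
  by_contra hne
  have a7 : ¬ ⁅Q, D⁆ ⊔ ⁅Q, Q⁆ ≤ cm hY1 := fun h => hne (by
    have h := le_sup_left.trans (h.trans a4)
    have := three_subgroups (lT.trans nR) (hD.trans (lH.trans nR)) (lQ.trans nR) ((commutator_mono
      (commutator_comm Q D ▸ h) le_rfl).trans (commutator_le_left' (lT.trans nR))) ((commutator_mono h2.le le_rfl).trans h)
    rwa [hTD, commutator_comm, h2] at this)
  have HK := nK H le_sup_right HD
  obtain ⟨N, n1, n2⟩ := rad_index (fun g hg => hW g (sup_le (hK.trans lQ) lH hg)) HK le_sup_right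
    (commutator_mono hK hK) hZ hHc hD hD' a6 (c1.mono le_rfl hK) (natCast_ne_zero_of_dvd hQ0 (card_dvd_of_le hK)) hH0 h0
    (fun h => a7 ((le_cm hY1).2 ⟨le_rfl, h⟩)) hY1
  obtain ⟨k, hk⟩ := L.exists_relIndex_eq_pow (N := cm hY1) (hQ.to_le hK)
  obtain ⟨m, -, rfl⟩ := (Nat.dvd_prime_pow hq.out).1 ((n1.trans hk) ▸ dvd_pow_self _ two_ne_zero : N ∣ q ^ k)
  obtain ⟨j, hj⟩ := hH.exists_card_eq
  obtain rfl := eq_one_of_two_pow (hq.out.odd_of_ne_two q2) hq.out.one_lt
    (fun e => a7 (relIndex_eq_one.1 (by rw [← n1, e, pow_zero, one_pow]))) (hj.symm.trans n2)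
  rw [pow_one] at n1 n2
  obtain ⟨Γ, _, _, f, -, hf, -⟩ := exists_quot ((cm_le hY).trans lQ) nR
  have k1 : ∀ X ≤ Q, Nat.card (im f X) = (cm hY).relIndex X := fun X hX => hf ▸ FT.card_im_eq f (hX.trans lQ)
  have k2 : ∀ X ≤ H, Nat.card (im f X) = Nat.card X := fun X hX => card_im_of_disjoint f (hX.trans lH)
    (eq_bot_iff.2 ((inf_le_inf (hf.le.trans (cm_le hY)) hX).trans c1.symm.inf_eq_bot.le))
  have k3 : Nat.card (im f (⁅Q, D⁆ ⊔ ⁅Q, Q⁆)) = q ^ 2 := by rw [k1 _ hK, n1, a5, inf_relIndex_left]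
  have k4 : ∀ A X, A ≤ Q ⊔ (T ⊔ H) → X ≤ Q → A ≤ normalizer (X : Set G) → CopA A Q →
      X ⊓ centralizer (A : Set G) ≤ ⁅Q, Q⁆ → im f X ⊓ centralizer (im f A : Set Γ) = ⊥ := fun A X x1 x2 x3 x4 x5 => by
    rw [← im_centralizer_cop f x1 x3 (x4.mono le_rfl (inf_le_right.trans x2)), im_eq_bot_iff f
      (inf_le_left.trans (x2.trans lQ)), hf]
    exact x5.trans a2
  have T1 : T ⊓ centralizer (D : Set G) ≤ normalizer ((⁅Q, D⁆ ⊔ ⁅Q, Q⁆ : Subgroup G) : Set G) :=
    nK _ (le_sup_of_le_left inf_le_left) (inf_le_right.trans (centralizer_le_normalizer' D))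
  have b1 := comm_le_cm_of_alt hY1 T1 (inf_le_left.trans (lT.trans nY)) ((commutator_mono hK hK).trans
    (hZc.trans (centralizer_le (sup_le_sup hK inf_le_left)))) (fun τ hτ => by
      obtain ⟨i, hi⟩ := IsPGroup.iff_orderOf.1 hT ⟨τ, hτ.1⟩
      rw [← orderOf_mk τ hτ.1, hi]
      exact (ht.out.odd_of_ne_two t2).pow) fun τ hτ x hx => by
    have := lines_fixed (T := im f (T ⊓ centralizer (D : Set G))) (by
      rintro _ ⟨y, hy, rfl⟩
      rw [← map_pow, ← coe_mem_kr, hf]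
      exact a2 (hΦ (L.pow_mem_Phi hQ (hK hy)))) k3 (isPGroup_im f (hT.to_le inf_le_left)) t2 (im_le_normalizer f T1)
      (im_le_normalizer f HK) (im_le_normalizer f (normalizer_inf HT (normalizer_centralizer HD)))
      (fpf_of_top (top_im f hD') (k4 D _ (hD.trans lH) hK (hD.trans HK) (c1.mono hD le_rfl) a6))
      ((k2 H le_rfl).trans n2) (hj.symm.trans n2) (mem_im_of_mem f (x := ⟨x, lQ (hK hx)⟩) hx)
    rw [← im_zpowers] at this
    have := le_normalizer_sup_kr f (inf_le_left.trans lT) (zpowers_le.2 (lQ (hK hx))) this hτ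
    rw [hf] at this
    exact comm_cyc_sup hY (hK hx) (commutator_mem_commutator (mem_sup_left (mem_zpowers x))
      ((mem_normalizer_iff.1 this x).1 (mem_sup_left (mem_zpowers x))))
  have hT1 : ⁅T, T⁆ ≤ T := commutator_le_of_le le_rfl le_rfl
  obtain ⟨g1, g2⟩ := gr_B (D := im f D) (le_centralizer_iff_isMulCommutative.1 ((im_le_centralizer_iff f lQ lQ).2
    (hf ▸ a2))) (im_le_normalizer f TQ) (im_le_normalizer f HQ) (im_le_normalizer f HT) (im_mono f hD) (top_im f hD')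
    ((k2 D hD).trans cD) (by rw [← im_commutator f lT (hD.trans lH), hTD]) (c1.im f) (c2.im f) (c3.im f)
    (k4 T Q lT le_rfl TQ c3 hC) (by
      rw [← im_commutator f lT lT, ← im_commutator f lQ (hD.trans lH), im_le_centralizer_iff f (hT1.trans lT)
        ((le_sup_left.trans hK).trans lQ), hf]
      have := hD.trans (normalizer_commutator HT HT)
      refine (commutator_mono (cop_commutator_sup this (c2.mono hD hT1)).ge le_rfl).trans (H9.commutator_sup_le
        (((commutator_le_left' this).trans hT1).trans (lT.trans nR)) ((inf_le_left.trans hT1).trans (lT.trans nR)) ?_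
        (commutator_comm ⁅Q, D⁆ _ ▸ (commutator_mono le_sup_left (inf_le_inf_right _ hT1)).trans (b1.trans a4)))
      rw [commutator_eq_bot_iff_le_centralizer.2 (hT'.trans (centralizer_le (commutator_le_left' DQ)))]
      exact bot_le)
  rw [← im_centralizer_cop f lH HQ (c1.mono le_rfl inf_le_right), k2 H le_rfl, n2] at g1
  obtain ⟨e, he⟩ := (isPGroup_im f (hQ.to_le (inf_le_left : Q ⊓ centralizer (H : Set G) ≤ Q))).exists_card_eq
  have g3 := g2.trans (Nat.pow_le_pow_left ((card_le_of_le ((im_commutator f lQ (hD.trans lH)).ge.trans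
    (im_mono f le_sup_left))).trans k3.le) 2)
  rw [g1, he, ← pow_mul, ← pow_mul, Nat.pow_le_pow_iff_right hq.out.one_lt] at g3
  have q3 := lt_of_le_of_ne hq.out.two_le q2.symm
  obtain ⟨_, ⟨x, hx, rfl⟩, hx'⟩ := exists_eq_zpowers_of_isCyclic' (isCyclic_of_card_dvd_prime (p := q)
    (he ▸ (pow_dvd_pow q (show e ≤ 1 by nlinarith)).trans (pow_one q).dvd))
  have g4 := (im_le_im_iff f (inf_le_left.trans lQ) (zpowers_le.2 x.2)).1 (hx'.ge.trans (im_zpowers f x).ge)
  rw [hf] at g4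
  have g5 : Q ⊓ centralizer (H : Set G) ≤ cm hY := (le_cm hY).2 ⟨inf_le_left, (commutator_mono
    (cop_commutator_sup HQ c1).ge le_rfl).trans (H9.commutator_sup_le ((commutator_le_left' HQ).trans hY)
      (inf_le_left.trans hY) (a3 H lH) ((commutator_mono g4 g4).trans (comm_cyc_sup hY hx.1)))⟩
  rw [k1 _ le_rfl, k1 _ inf_le_left, relIndex_eq_one.2 g5, one_pow, relIndex_eq_one] at g1
  exact hne g1

theorem gr_core [IsAlgClosed F] [FiniteDimensional F V] {Q T : Subgroup G} [Q.Normal] {s : G} {q t n : ℕ}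
    [hq : Fact q.Prime] [ht : Fact t.Prime] (qt : q ≠ t) (q2 : q ≠ 2) (t2 : t ≠ 2) (hQ : IsPGroup q Q)
    (hT : IsPGroup t T) (hs : s ^ 2 ^ (n + 1) = 1) (sT : zpowers s ≤ normalizer (T : Set G))
    (hTD : ⁅T, zpowers (s ^ 2 ^ n)⁆ = T) (hT' : ⁅⁅T, T⁆, zpowers (s ^ 2 ^ n)⁆ ≤ centralizer (Q : Set G))
    (mQ : ∀ X < Q, T ⊔ zpowers s ≤ normalizer (X : Set G) → X ≤ centralizer (T : Set G))
    (hQ0 : (Nat.card Q : F) ≠ 0) (hA0 : (Nat.card (zpowers s) : F) ≠ 0) (h0 : fix ρ (zpowers s) = ⊥)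
    (hf : Q ⊓ ρ.ker = ⊥) : Q ≤ centralizer (T : Set G) := by
  haveI : Fact (Nat.Prime 2) := ⟨Nat.prime_two⟩
  by_contra hne
  obtain ⟨k, -, hk⟩ := (Nat.dvd_prime_pow Nat.prime_two).1 (orderOf_dvd_of_pow_eq_one hs)
  have hA : IsPGroup 2 (zpowers s) := isPGroup_zpowers_iff.2 ⟨k, hk⟩
  have hD : zpowers (s ^ 2 ^ n) ≤ zpowers s := zpowers_le.2 (pow_mem (mem_zpowers s) _)
  have hD' : ∀ a ∈ zpowers s, a ≠ 1 → zpowers (s ^ 2 ^ n) ≤ zpowers a := fun a ha a1 =>
    zpowers_le.2 (top_mem_zpowers hs ha a1)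
  have nT : T ⊔ zpowers s ≤ normalizer (T : Set G) := sup_le le_normalizer sT
  obtain ⟨-, h2, h3, h4⟩ := min_action le_sup_left le_normalizer_of_normal nT ⟨sup_comm (zpowers s) T ▸
    coprime_card_sup sT (copA_of_p hA (cop_of_isPGroup_ne q2 hQ)).cop (copA_of_p hT (cop_of_isPGroup_ne qt hQ)).cop,
      Or.inr (isSolvable_of_isPGroup hQ)⟩ mQ hne
  have hle : ⁅Q, Q⁆ ≤ Q := commutator_le_of_le le_rfl le_rfl
  by_cases h6 : ⁅Q, Q⁆ = ⊥
  · have := le_bot_iff.1 ((le_inf (commutator_le_right _ Q) (comm_le_ker_of_min le_normalizer_of_normal hQ0 hA0 h0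
      (h6.le.trans bot_le) hD hD')).trans hf.le)
    have := three_subgroups (A := T) (B := zpowers (s ^ 2 ^ n)) (C := Q) (N := ⊥) le_normalizer_of_normal
      le_normalizer_of_normal le_normalizer_of_normal (by rw [this, commutator_bot_left]) (by
        rw [h2, commutator_comm, this])
    rw [hTD, commutator_comm, le_bot_iff, commutator_eq_bot_iff_le_centralizer] at this
    exact hne this
  have hZ0 := natCast_ne_zero_of_dvd hQ0 (card_dvd_of_le hle)
  obtain ⟨a, ha, ha1⟩ := (bot_or_exists_ne_one _).resolve_left h6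
  have := mt (rho_eq_one_of_wt (ρ := ρ) hZ0 ((commutator_eq_bot_iff_le_centralizer.2
    (h3.trans (centralizer_le (hle.trans le_sup_left)))).le.trans bot_le) ⟨a, ha⟩)
    fun e => ha1 (mem_bot.1 (hf.le ⟨hle ha, e⟩))
  push Not at this
  obtain ⟨χ, w1, w2⟩ := this
  obtain ⟨b, b1, b2, b3⟩ := exists_stab hZ0 hA0 h0 w1
  set H := zpowers s ⊓ MulAction.stabilizer G χ with hH
  have c4 : Q ⊔ (T ⊔ H) ≤ MulAction.stabilizer G χ := by
    rw [← sup_assoc]
    exact sup_le (fun g hg => smul_wt_of_centralizer (le_centralizer_iff.1 h3 hg) χ) inf_le_right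
  have c6 : ∀ g ∈ Q ⊔ (T ⊔ H), ∀ u ∈ wt ρ χ, ρ g u ∈ wt ρ χ := fun g hg u hu => (c4 hg : g • χ = χ) ▸ rho_mem_wt hu g
  have hY := le_sup_left.trans (normalizer_ptw c6)
  have := gr_step (H := H) qt q2 t2 hQ hT (hA.to_le inf_le_left) (isCyc_of_le inferInstance inf_le_left)
    ((hD' b b1 b2).trans (zpowers_le.2 ⟨b1, b3⟩)) (fun a ha => hD' a ha.1) (by
      rw [Nat.card_zpowers, orderOf_eq_prime (by rw [← pow_mul, ← pow_succ, hs]) fun e => hne (by
        rw [← hTD, e, zpowers_one_eq_bot, commutator_bot_right]; exact le_centralizer_iff.1 bot_le)])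
    le_normalizer_of_normal le_normalizer_of_normal (inf_le_left.trans sT) c6 (fun z hz => ⟨_, fun u hu => hu ⟨z, hz⟩⟩)
    h3 (h4 _ (lt_of_le_of_ne (L.Phi_le Q) fun e => hne ((le_of_Phi_sup bot_le (le_sup_of_le_left e.ge)).trans bot_le))
      (L.normalizer_Phi le_normalizer_of_normal)) (h4 _ (lt_of_le_of_ne inf_le_left fun e => hne (inf_eq_left.1 e))
        (normalizer_inf le_normalizer_of_normal (normalizer_centralizer nT))) h2 hTD hT' hQ0
    (natCast_ne_zero_of_dvd hA0 (card_dvd_of_le inf_le_left))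
    (fun u hu h => orb hZ0 hA0 h0 hu fun b hb hb' => h b ⟨hb, hb'⟩) hY
  exact w2 ((mem_ptw_wt w1 ⟨a, ha⟩).1 (((le_cm hY).1 this).2 ha))

theorem comm_le_Op {K D : Subgroup G} [K.Normal] {q : ℕ} [Fact q.Prime] (hs : Group.IsSolvable K)
    (hc : (Nat.card D).Coprime (Nat.card K))
    (h : ∀ (t : ℕ) [Fact t.Prime], t ≠ q → ∃ T, Syl t T K ∧ T ≤ centralizer (D : Set G)) : ⁅K, D⁆ ≤ Op q K := by
  obtain ⟨Γ, _, _, f, -, hf, -⟩ := exists_quot (X := ⊤) (N := Op q K) le_top (normalizer_Op le_normalizer_of_normal)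
  rw [← hf, ← im_le_centralizer_iff f le_top le_top]
  refine FT.t1_4 (isSolvable_im f hs) (im_le_normalizer f le_normalizer_of_normal)
    ((hc.coprime_dvd_left (card_im_dvd f D)).coprime_dvd_right (card_im_dvd f K)) (Fit_le_of_forall_Op fun t _ => ?_)
  by_cases e : t = q
  · subst e
    rw [← im_Op f le_top (hf ▸ (Op_p t K).to_le inf_le_left), ← hf, im_kr]
    exact bot_le
  · obtain ⟨T, h1, h2⟩ := h t e
    exact (h1.im f le_top).Op_le.trans (im_le_centralizer f h2)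

theorem gr_lin [IsAlgClosed F] [FiniteDimensional F V] {K : Subgroup G} {s : G} {n : ℕ} (hs : s ^ 2 ^ (n + 1) = 1)
    (h : Lin ρ (zpowers s) K) : Group.IsNilpotent (⁅K, zpowers (s ^ 2 ^ n)⁆ : Subgroup G) := by
  haveI := h.nrm
  set D := zpowers (s ^ 2 ^ n) with hDd
  have hD : D ≤ zpowers s := zpowers_le.2 (pow_mem (mem_zpowers s) _)
  have sD : zpowers s ≤ normalizer (D : Set G) :=
    le_normalizer_of_le_centralizer ((le_centralizer _).trans (centralizer_le hD))
  by_cases y1 : s ^ 2 ^ n = 1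
  · rw [hDd, y1, zpowers_one_eq_bot, commutator_bot_right]; infer_instance
  have odd : ∀ r : ℕ, r.Prime → r ∣ Nat.card K → r ≠ 2 := by
    rintro _ hr h1 rfl
    haveI := Fact.mk hr
    exact hr.ne_one (Nat.eq_one_of_dvd_coprimes (coprime_of_le_left h.cop hD) (by
      rw [Nat.card_zpowers, orderOf_eq_prime (p := 2) (by rw [← pow_mul, ← pow_succ, hs]) y1]) h1)
  have cop : ∀ X ≤ K, CopA (zpowers s) X := fun X hX =>
    ⟨coprime_of_le_right h.cop hX, Or.inr (isSolvable_of_le hX h.sol)⟩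
  have hX : ⁅K, D⁆ ≤ K := commutator_le_left K D
  refine isNilpotent_of_le (FT.le_Fit_of_Ores h.sol hX (le_normalizer_commutator_left _ _) fun q _ => ?_) (Fit_nil K)
  suffices key : ∀ (t : ℕ) [Fact t.Prime], t ≠ q → ∀ T ≤ K, IsPGroup t T → zpowers s ≤ normalizer (T : Set G) →
      ⁅T, D⁆ ≤ centralizer (Op q K : Set G) by
    obtain ⟨Γ, _, _, f, fs, hf, -⟩ := exists_quot (X := ⊤) (N := K ⊓ centralizer (Op q K : Set G)) le_top
      (normalizer_inf le_normalizer_of_normal (normalizer_centralizer (normalizer_Op le_normalizer_of_normal)))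
    haveI : (im f K).Normal := normalizer_eq_top_iff.1 (top_le_iff.1 (im_self f fs ▸ im_le_normalizer f
      le_normalizer_of_normal))
    have := comm_le_Op (K := im f K) (D := im f D) (q := q) (isSolvable_im f h.sol) (((cop K le_rfl).mono hD
      le_rfl).im f).cop fun t _ e => by
        obtain ⟨T, h1, h2⟩ := cop_exists_syl le_normalizer_of_normal (cop K le_rfl) t
        exact ⟨_, h1.im f le_top, (im_le_centralizer_iff f le_top le_top).2 (hf ▸ le_inf
          ((commutator_le_left' (hD.trans h2)).trans h1.le) (key t e T h1.le h1.isP h2))⟩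
    rw [← im_commutator f le_top le_top] at this
    refine Ores_le_iff.2 fun P p1 p2 => le_trans ?_ (hf.le.trans inf_le_right)
    rw [← im_eq_bot_iff f le_top]
    exact le_bot_iff.1 ((le_inf ((im_mono f p1).trans this) le_rfl).trans (H1.inf_eq_bot_of_coprime
      (isPGroup_coprime (Op_p q _) (cop_im f p2))).le)
  intro t _ tq T
  induction T using WellFoundedLT.induction with | ind T ihT
  intro TK hT sT
  have hTD := commutator_le_left' (hD.trans sT)
  have ih : ∀ X < T, zpowers s ≤ normalizer (X : Set G) → ⁅X, D⁆ ≤ centralizer (Op q K : Set G) :=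
    fun X x1 => ihT X x1 (x1.le.trans TK) (hT.to_le x1.le)
  rcases hTD.lt_or_eq with e | e
  · exact (cop_ccomm (hD.trans sT) ((cop T TK).mono hD le_rfl)).ge.trans (ih _ e (normalizer_commutator sT sD))
  by_cases T0 : T = ⊥
  · exact hTD.trans (T0.le.trans bot_le)
  have hT' := ih _ (commutator_lt_of_p hT hT le_normalizer T0) (normalizer_commutator sT sT)
  rw [e]
  suffices ∀ Q ≤ Op q K, T ⊔ zpowers s ≤ normalizer (Q : Set G) → Q ≤ centralizer (T : Set G) from
    le_centralizer_iff.1 (this _ le_rfl (normalizer_Op le_normalizer_of_normal))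
  intro Q
  induction Q using WellFoundedLT.induction with | ind Q ihQ
  intro QO nQ
  by_cases Q0 : Q = ⊥
  · exact Q0.le.trans bot_le
  have QK := QO.trans (Op_le q K)
  have hQ := (Op_p q K).to_le QO
  let L := Q ⊔ (T ⊔ zpowers s)
  have lQ : Q ≤ L := le_sup_left
  have lT : T ≤ L := le_sup_of_le_right le_sup_left
  have lA : zpowers s ≤ L := le_sup_of_le_right le_sup_right
  haveI := normal_subgroupOf' (sup_le le_normalizer nQ : L ≤ _)
  have e2 : zpowers ((⟨s, lA (mem_zpowers s)⟩ : L) ^ 2 ^ n) = D.subgroupOf L :=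
    zpowers_mk (pow_mem (lA (mem_zpowers s)) _)
  have := gr_core (ρ := ρ.comp L.subtype) (Q := Q.subgroupOf L) (T := T.subgroupOf L) (s := ⟨s, lA (mem_zpowers s)⟩)
    (n := n) tq.symm (odd q Fact.out ((H9.dvd_card_of_isPGroup hQ Q0).trans (card_dvd_of_le QK)))
    (odd t Fact.out ((H9.dvd_card_of_isPGroup hT T0).trans (card_dvd_of_le TK)))
    (hQ.comap_of_injective _ L.subtype_injective) (hT.comap_of_injective _ L.subtype_injective) (Subtype.ext hs)
    (by rw [zpowers_mk]; exact subgroupOf_le_normalizer sT)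
    (by rw [e2, ← H9.subgroupOf_commutator lT (hD.trans lA), e])
    (by
      rw [e2, ← H9.subgroupOf_commutator lT lT, ← H9.subgroupOf_commutator (commutator_le_of_le lT lT) (hD.trans lA),
        ← subgroupOf_centralizer lQ]
      exact comap_mono (hT'.trans (centralizer_le QO)))
    (by
      rw [zpowers_mk, ← subgroupOf_sup lT lA]
      exact min_subgroupOf lQ lT le_sup_right fun X x1 => ihQ X x1 (x1.le.trans QO))
    (by rw [card_subgroupOf lQ]; exact natCast_ne_zero_of_dvd h.hF (card_dvd_of_le (QO.trans (Op_le_Fit K))))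
    (by rw [zpowers_mk, card_subgroupOf lA]; exact h.hA) (by rw [zpowers_mk, fix_subgroupOf lA, h.fixA])
    (eq_bot_iff.2 fun x hx => Subtype.ext (h.ker.le ⟨QK hx.1, hx.2⟩))
  rw [← subgroupOf_centralizer lT] at this
  exact fun x hx => this (show (⟨x, lQ hx⟩ : L) ∈ _ from hx)

omit [Finite G] in
theorem FH.cons' {n k : ℕ} {X K : Subgroup G} (h : FH n X K) [X.Normal] : FH (n + 1) (X.lowerCentralSeries k) K := by
  obtain ⟨F, h1, h2, h3, h4, h5⟩ := h
  refine ⟨Fin.cons (X.lowerCentralSeries k) F, rfl, by rw [← Fin.succ_last, Fin.cons_succ, h2],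
    Fin.monotone_iff_le_succ.2 fun i => ?_, fun i => ?_, fun i => ?_⟩
  · cases i using Fin.cases with
    | zero => exact (Subgroup.lowerCentralSeries_antitone X k.zero_le).trans h1.ge
    | succ i => exact h3 i.castSucc_le_succ
  · cases i using Fin.cases with
    | zero => exact lowerCentralSeries_normal X k
    | succ i => exact h4 i
  · cases i using Fin.cases with
    | zero => exact ⟨k, Subgroup.lowerCentralSeries_mono k h1.le⟩
    | succ i => exact h5 i

theorem gross (n : ℕ) : ∀ (Γ : Type u) [Group Γ] [Finite Γ] (K : Subgroup Γ) (s : Γ), s ^ 2 ^ (n + 2) = 1 →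
    Fpa (zpowers s) K → FH (2 * n + 2) ⊥ K := by
  induction n with
  | zero =>
    intro Γ _ _ K s hs h
    haveI := h.nrm
    refine FH.cons (FH.cons' (n := 0) (k := 1) ⟨fun _ => K, rfl, rfl, monotone_const, fun _ => h.nrm,
      fun i => i.elim0⟩) (fpa_red (fun Δ _ K => IsMulCommutative K) (fun Δ _ _ j K F _ _ W _ _ _ ρ _ h =>
        core_four (s := j ⟨s, mem_zpowers s⟩) (by
          rw [← map_pow, show (⟨s, mem_zpowers s⟩ : zpowers s) ^ 4 = 1 from Subtype.ext hs, map_one])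
          (range_zpowers j ▸ h)) Γ (zpowers s).subtype K (subtype_injective _) (by rwa [range_subtype]) ⁅K, K⁆
      (commutator_le_right _ _) inferInstance fun Δ _ f hf => ?_)
    rw [← Subgroup.map_eq_bot_iff, map_commutator]
    exact commutator_eq_bot_iff_le_centralizer.2 (le_centralizer _)
  | succ n ih =>
    intro Γ _ _ K s hs h
    haveI := h.nrm
    have hD : zpowers (s ^ 2 ^ (n + 2)) ≤ zpowers s := zpowers_le.2 (pow_mem (mem_zpowers s) _)
    haveI : (⁅K, zpowers (s ^ 2 ^ (n + 2))⁆).Normal := normal_of_sup_eq_top h.top (le_normalizer_commutator_left _ _)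
      (normalizer_commutator le_normalizer_of_normal
        (le_normalizer_of_le_centralizer ((le_centralizer _).trans (centralizer_le hD))))
    have hX : ⁅K, zpowers (s ^ 2 ^ (n + 2))⁆ ≤ K := commutator_le_left _ _
    obtain ⟨m, hm⟩ := WellFoundedLT.antitone_chain_condition
      (Subgroup.lowerCentralSeries_antitone ⁅K, zpowers (s ^ 2 ^ (n + 2))⁆)
    have h1 := fpa_red' (fun Δ _ j K => Group.IsNilpotent
      (⁅K, zpowers (j ⟨s, mem_zpowers s⟩ ^ 2 ^ (n + 2))⁆ : Subgroup Δ))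
      (fun Δ _ _ j K F _ _ W _ _ _ ρ _ h => gr_lin (by
        rw [← map_pow, show (⟨s, mem_zpowers s⟩ : zpowers s) ^ 2 ^ (n + 2 + 1) = 1 from Subtype.ext hs, map_one])
        (range_zpowers j ▸ h)) Γ (zpowers s).subtype K (subtype_injective _) (by rwa [range_subtype]) _
      ((Subgroup.lowerCentralSeries_antitone _ m.zero_le).trans hX) (lowerCentralSeries_normal _ m) fun Δ _ f hf => by
        obtain ⟨l, hl⟩ := (isNilpotent_iff_lowerCentralSeries _).1 hf
        refine (hm _ (le_max_left m l)).le.trans ((Subgroup.lowerCentralSeries_antitone _ (le_max_right m l)).trans ?_)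
        rw [← Subgroup.map_eq_bot_iff, map_lowerCentralSeries, map_commutator, MonoidHom.map_zpowers, map_pow]
        exact hl
    have h2 := h.quot hX
    set π := QuotientGroup.mk' ⁅K, zpowers (s ^ 2 ^ (n + 2))⁆ with hπ
    haveI := h2.nrm
    haveI : ((zpowers (s ^ 2 ^ (n + 2))).map π).Normal := normal_of_sup_eq_top h2.top
      (le_normalizer_of_le_centralizer (by
        rw [← commutator_eq_bot_iff_le_centralizer, ← map_commutator, Subgroup.map_eq_bot_iff, QuotientGroup.ker_mk']))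
      ((map_mono (le_normalizer_of_le_centralizer ((le_centralizer _).trans (centralizer_le hD)))).trans
        (Subgroup.le_normalizer_map _))
    have h3 := h2.quotA (map_mono hD)
    rw [MonoidHom.map_zpowers π s, MonoidHom.map_zpowers _ (π s)] at h3
    have h4 := (ih _ _ _ (by
      rw [← map_pow, ← map_pow]; exact (QuotientGroup.eq_one_iff _).2 (mem_map_of_mem _ (mem_zpowers _))) h3).pull
    rw [MonoidHom.comap_bot, QuotientGroup.ker_mk', inf_comm,
      H1.inf_eq_bot_of_coprime (coprime_of_le_left h2.cop (map_mono hD))] at h4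
    have h5 := h4.pull
    rw [MonoidHom.comap_bot, QuotientGroup.ker_mk', inf_eq_right.2 hX] at h5
    exact h5.cons'.cons h1

end H1
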