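import Cfsg.Agent.H1.HB3

/-! H1.HB4: irreducible modules of `q`-groups have `q`-power dimension; the critical case of Theorem B. -/

open Cfsg Module Subgroup H9
open scoped commutatorElement

namespace H1

universe u v

variable {F : Type*} [Field F] {p q n : ℕ}

theorem finrank_pow [IsAlgClosed F] [hq : Fact q.Prime] (h0 : (q : F) ≠ 0) (G : Type u) [Group G] [Finite G] :
    ∀ (V : Type v) [AddCommGroup V] [Module F V] [FiniteDimensional F V] [Nontrivial V] (ρ : G →* End F V),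
      IsPGroup q G → (∀ T : Submodule F V, (∀ g, ∀ u ∈ T, ρ g u ∈ T) → T = ⊥ ∨ T = ⊤) → ∃ b, finrank F V = q ^ b := by
  induction hn : Nat.card G using Nat.strong_induction_on generalizing G with | _ n ih
  subst hn
  intro V _ _ _ _ ρ hG hs
  classical
  by_cases hk : ρ.ker = ⊥
  swap
  · exact ih _ (card_quotient_lt hk) _ rfl V (QuotientGroup.lift ρ.ker ρ fun _ h => h) (hG.to_quotient _)
      fun T hT => hs T fun g => hT g
  haveI := hG.isNilpotent
  obtain ⟨A, hA, -⟩ := FT.exists_scn_ge (P := (⊤ : Subgroup G)) (A := ⊥) inferInstance bot_le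
    le_normalizer_of_normal inferInstance
  haveI : A.Normal := normalizer_eq_top_iff.1 (top_le_iff.1 hA.2.1)
  have hc : (Nat.card A : F) ≠ 0 := by
    obtain ⟨k, hk⟩ := IsPGroup.iff_card.1 (hG.to_subgroup A)
    rw [hk, Nat.cast_pow]; exact pow_ne_zero _ h0
  have hA' : ⁅A, A⁆ ≤ ρ.ker := (comm_iff_commutator.1 (FT.IsSCN.comm hA)).le.trans bot_le
  haveI := finite_wt hc
  haveI := Fintype.ofFinite (Wt F A)
  haveI := Fintype.ofFinite A
  have h1 := finrank_eq_sum_wt hc hA'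
  obtain ⟨χ, -, hχ⟩ := Finset.exists_ne_zero_of_sum_ne_zero (h1 ▸ Module.finrank_pos.ne')
  replace hχ : wt ρ χ ≠ ⊥ := fun e => hχ (by rw [e, finrank_bot])
  have h2 : ∀ W ≤ wt ρ χ, W ≠ ⊥ → (∀ g, g • χ = χ → ∀ u ∈ W, ρ g u ∈ W) → ∀ v, pr ρ χ v ∈ W := fun W hW h3 h4 v => by
    have := ((hs (⨅ g, W.comap (pr ρ χ ∘ₗ ρ g)) fun g u hu => (Submodule.mem_iInf _).2 fun k => by
      have := (Submodule.mem_iInf _).1 hu (k * g)
      rwa [map_mul] at this).resolve_left fun e => h3 (eq_bot_iff.2 (le_trans (le_iInf fun g u hu => ?_) e.le))).ge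
        (Submodule.mem_top (x := v))
    · simpa using (Submodule.mem_iInf _).1 this 1
    change pr ρ χ (ρ g u) ∈ W
    by_cases e : g • χ = χ
    · rw [pr_of_mem hc (hW (h4 g e u hu))]; exact h4 g e u hu
    · rw [pr_of_mem_ne (rho_mem_wt (hW hu) g) (Ne.symm e)]; exact zero_mem _
  have h3 : ∀ ψ, ψ ∉ MulAction.orbit G χ → wt ρ ψ = ⊥ := fun ψ hψ => eq_bot_iff.2 fun v hv => by
    have := ((hs (⨅ g, LinearMap.ker (pr ρ ψ ∘ₗ ρ g)) fun g u hu => (Submodule.mem_iInf _).2 fun k => by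
      have := (Submodule.mem_iInf _).1 hu (k * g)
      rwa [map_mul] at this).resolve_left fun e => hχ (eq_bot_iff.2 (le_trans (le_iInf fun g u hu =>
        pr_of_mem_ne (rho_mem_wt hu g) fun e => hψ ⟨g, e.symm⟩) e.le))).ge (Submodule.mem_top (x := v))
    simpa [pr_of_mem hc hv] using (Submodule.mem_iInf _).1 this 1
  by_cases h4 : MulAction.stabilizer G χ = ⊤
  · have h5 : ∀ ψ, wt ρ ψ ≠ ⊥ → ψ = χ := fun ψ hψ => by
      obtain ⟨g, rfl⟩ := not_not.1 (mt (h3 ψ) hψ)
      exact h4.ge (mem_top g)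
    have h6 := comm_le_ker_of_wt (P := ⊤) hc hA' fun ψ hψ g _ => h5 ψ hψ ▸ h4.ge (mem_top g)
    rw [hk, le_bot_iff, commutator_eq_bot_iff_le_centralizer] at h6
    obtain ⟨v, hv, v0⟩ := (Submodule.ne_bot_iff _).1 hχ
    refine ⟨0, pow_zero q ▸ finrank_eq_one v v0 fun w => Submodule.mem_span_singleton.1
      (((hs (Submodule.span F {v}) fun g u hu => ?_).resolve_left (by simpa using v0)).ge trivial)⟩
    rw [(Submodule.span_singleton_le_iff_mem _ _).2 hv hu ⟨g, hA.2.2.le ⟨trivial, h6 trivial⟩⟩]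
    exact Submodule.smul_mem _ _ hu
  haveI := Submodule.nontrivial_iff_ne_bot.2 hχ
  obtain ⟨b, hb⟩ := ih _ ((card_lt_of_lt (lt_top_iff_ne_top.2 h4)).trans_eq card_top) (MulAction.stabilizer G χ) rfl _
    (sub (ρ.comp (MulAction.stabilizer G χ).subtype) (wt ρ χ) fun g u hu => by
      have := rho_mem_wt hu (g : G)
      rwa [show (g : G) • χ = χ from g.2] at this)
    (hG.to_subgroup _) fun T hT => or_iff_not_imp_left.2 fun h => eq_top_iff.2 fun v _ => by
      obtain ⟨w, hw, e⟩ := h2 (T.map (wt ρ χ).subtype) (Submodule.map_subtype_le _ _)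
        (fun e => h (eq_bot_iff.2 fun u hu => Subtype.ext (e.le ⟨u, hu, rfl⟩))) (by
          rintro g hg _ ⟨u, hu, rfl⟩
          exact ⟨_, hT ⟨g, hg⟩ u hu, rfl⟩) v
      rw [pr_of_mem hc v.2] at e
      exact Subtype.ext e ▸ hw
  obtain ⟨i, hi⟩ := hG.index (MulAction.stabilizer G χ)
  refine ⟨i + b, ?_⟩
  rw [h1, ← Finset.sum_subset (Finset.subset_univ (MulAction.orbit G χ).toFinset) fun ψ _ hψ => by
    rw [h3 ψ (by simpa using hψ), finrank_bot], Finset.sum_congr rfl (g := fun _ => q ^ b) fun ψ hψ => by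
      obtain ⟨g, rfl⟩ := Set.mem_toFinset.1 hψ
      exact (finrank_wt_smul g χ).trans hb, Finset.sum_const, smul_eq_mul, pow_add, ← hi,
    MulAction.index_stabilizer, Set.ncard_eq_toFinset_card']

theorem eq_one_of_pow_char [hp : Fact p.Prime] [CharP F p] {V : Type*} [AddCommGroup V] [Module F V] [Nontrivial V]
    {T : End F V} {c : F} (h : T = c • 1) {k : ℕ} (hk : T ^ p ^ k = 1) : T = 1 := by
  obtain ⟨v, hv⟩ := exists_ne (0 : V)
  have := LinearMap.congr_fun hk v
  rw [h, smul_pow, one_pow] at this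
  have h1 : c ^ p ^ k = 1 := smul_left_injective F hv (this.trans (one_smul F v).symm)
  have h2 : (c - 1) ^ p ^ k = 0 := by rw [sub_pow_char_pow, h1, one_pow, sub_self]
  rw [h, sub_eq_zero.1 (pow_eq_zero_iff (pow_pos hp.out.pos k).ne' |>.1 h2), one_smul]

theorem crit_w [IsAlgClosed F] [hp : Fact p.Prime] [hq : Fact q.Prime] [CharP F p] (hpq : p ≠ q) {G : Type*} [Group G]
    [Finite G] {V : Type*} [AddCommGroup V] [Module F V] [FiniteDimensional F V] [Nontrivial V] {ρ : G →* End F V}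
    (hρ : Function.Injective ρ) {Q : Subgroup G} [Q.Normal] (hQ : IsPGroup q Q) {x : G} (hx : IsPGroup p (zpowers x))
    (h1 : x ≠ 1) (hC : ∀ y ∈ zpowers x, y ≠ 1 → centralizer {y} = zpowers x ⊔ center G)
    (hs : ∀ T : Submodule F V, (∀ g ∈ Q, ∀ u ∈ T, ρ g u ∈ T) → T = ⊥ ∨ T = ⊤) :
    finrank F V ^ 2 + Nat.card (zpowers x) = 1 + Nat.card (zpowers x) * finrank F (cen (ρ x)) := by
  have hZ : ∀ z ∈ center G, ∃ c : F, ρ z = c • 1 := fun z hz => schur hs fun g _ => by
    rw [← map_mul, ← map_mul, mem_center_iff.1 hz]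
  have hZ' : ∀ z ∈ center G, ∀ k, z ^ p ^ k = 1 → z = 1 := fun z hz k h => by
    obtain ⟨c, hc⟩ := hZ z hz
    exact hρ ((eq_one_of_pow_char hc (k := k) (by rw [← map_pow, h, map_one])).trans ρ.map_one.symm)
  have hx' : ∀ y ∈ zpowers x, ∃ k, y ^ p ^ k = 1 := fun y hy => (hx ⟨y, hy⟩).imp fun k h => congrArg Subtype.val h
  let π := QuotientGroup.mk' (center G)
  let σ : G ⧸ center G →* End F (End F V) := QuotientGroup.lift _ (cjr ρ) fun z hz => LinearMap.ext fun f => by
    obtain ⟨c, hc⟩ := hZ z hz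
    exact cjr_eq_iff.2 (by simp [hc])
  have hσ : σ.comp π = cjr ρ := rfl
  haveI := Normal.map ‹Q.Normal› π (QuotientGroup.mk'_surjective _)
  have e2 : Nat.card ((zpowers x).map π) = Nat.card (zpowers x) := by
    rw [← relIndex_ker, QuotientGroup.ker_mk', ← inf_relIndex_right, show center G ⊓ zpowers x = ⊥ from
      eq_bot_iff.2 fun y hy => (hx' y hy.2).elim fun k h => hZ' y hy.1 k h, relIndex_bot_left]
  have hcop : (Nat.card Q).Coprime p := by
    obtain ⟨k, hk⟩ := IsPGroup.iff_card.1 hQ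
    exact hk ▸ Nat.Coprime.pow_left _ ((Nat.coprime_primes hq.out hp.out).2 hpq.symm)
  have hc := (copA_of_p hx hcop).map π
  have w := wielandt (ρ := σ) (K := Q.map π) (R := (zpowers x).map π) le_normalizer_of_normal (fpf_iff.2 (by
    rintro _ ⟨y, hy, rfl⟩ _ ⟨a, ha, rfl⟩ e
    refine or_iff_not_imp_left.2 fun y1 => ?_
    obtain ⟨d, hd, e1⟩ := cop_fixed (A := zpowers y) (D := center G ⊓ Q) le_normalizer_of_normal
      ((copA_of_p hx hcop).mono (zpowers_le.2 hy) inf_le_right) (x := a) fun b hb => ⟨by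
        refine (QuotientGroup.eq_one_iff ⁅b, a⁆).1 ?_
        change π _ = 1
        rw [map_commutatorElement, commutatorElement_eq_one_iff_commute]
        obtain ⟨k, rfl⟩ := hb
        rw [map_zpow]
        exact Commute.zpow_left e k, (commutator_le_right _ _) (commutator_mem_commutator hb ha)⟩
    have h2 : π (d * a) ∈ (zpowers x ⊔ center G).map π := mem_map_of_mem _
      ((hC y hy fun e => y1 (by rw [e, map_one])).le (mem_centralizer_singleton_iff.2 (e1 y (mem_zpowers y)).symm))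
    rw [Subgroup.map_sup, (Subgroup.map_eq_bot_iff (center G)).2 (QuotientGroup.ker_mk' _).ge, sup_bot_eq, map_mul,
      show π d = 1 from (QuotientGroup.eq_one_iff d).2 hd.1, one_mul] at h2
    exact mem_bot.1 (hc.inf_eq_bot.le ⟨h2, mem_map_of_mem π ha⟩)))
    (fun e => h1 (by rw [e, card_bot] at e2; simpa using e2.symm))
    (natCast_ne_zero_of_dvd (fun e => hp.out.coprime_iff_not_dvd.1 hcop.symm ((CharP.cast_eq_zero_iff F p _).1 e))
      (Q.card_map_dvd π))
  rwa [← Subgroup.map_sup, fix_map, fix_map, fix_map, hσ, fix_cjr_eq hs, fix_cjr_eq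
    fun T hT => hs T fun g hg => hT g (mem_sup_left hg), finrank_span_singleton one_ne_zero, e2, mul_one,
    Module.finrank_linearMap, ← sq, fix_cjr_zpowers] at w

end H1
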