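import Cfsg.Agent.H1.HB3
import Cfsg.Agent.H9.Am2
import Cfsg.Agent.H9.Qd

/-! H1.HB5: cyclic normal subgroups of Sylow subgroups of `p`-solvable groups; wreath sections. -/

open Cfsg Module Subgroup H9
open scoped commutatorElement Pointwise

namespace H1

universe u v

variable {p : ℕ} [hp : Fact p.Prime] {Γ : Type u} [Group Γ] [Finite Γ]

theorem Red.compl (h : Red p Γ) : ∃ K : Subgroup Γ, (Nat.card K).Coprime p ∧
    (∀ x, ∃ v ∈ pCore p Γ, v * x ∈ normalizer (K : Set Γ)) ∧
      ∀ c k, c ^ p ^ k = 1 → ⁅K, zpowers c⁆ ≤ pCore p Γ → c ∈ pCore p Γ := by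
  let f := QuotientGroup.mk' (pCore p Γ)
  let N := (pPrimeCore p (Γ ⧸ pCore p Γ)).comap f
  have e0 : N.map f = pPrimeCore p _ := map_comap_eq_self_of_surjective (QuotientGroup.mk'_surjective _) _
  have e1 : ((pCore p Γ).relIndex N).Coprime p := by rw [← card_map_mk2, e0]; exact pPrimeCore_coprime
  obtain ⟨K, k1, k2, k3, k4⟩ := exists_complement_rel (le_comap_mk' _ : pCore p Γ ≤ N) le_normalizer_of_normal
    (isPGroup_coprime pCore_isPGroup e1)
  rw [← k4] at e1
  refine ⟨K, e1, fun x => ?_, fun c k hc h1 => ?_⟩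
  · obtain ⟨v, hv, h1⟩ := exists_conj_le_of_solvable_right (A := K) (N := pCore p Γ) (B := cj x K)
      (by haveI := (pCore_isPGroup (p := p) (G := Γ)).isNilpotent; infer_instance) le_normalizer_of_normal k2
      (k3 ▸ (cj_mono x k1).trans (cj_eq_of_normal x N).le)
      (by rw [card_cj]; exact (isPGroup_coprime pCore_isPGroup e1).symm)
    exact ⟨v, hv, mem_normalizer_of_cj_le (by rw [cj_mul]; exact h1)⟩
  · have e2 : K.map f = pPrimeCore p _ := by
      rw [← e0, ← show K ⊔ pCore p Γ = N from k3, Subgroup.map_sup, (Subgroup.map_eq_bot_iff (pCore p Γ)).2 (QuotientGroup.ker_mk' _).ge, sup_bot_eq]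
    have h2 : ⁅K.map f, zpowers (f c)⁆ = ⊥ := by
      rwa [← MonoidHom.map_zpowers, ← map_commutator, Subgroup.map_eq_bot_iff, QuotientGroup.ker_mk']
    rw [e2, commutator_eq_bot_iff_le_centralizer, le_centralizer_iff] at h2
    exact (QuotientGroup.eq_one_iff c).1 (mem_bot.1 ((copA_of_p (isPGroup_zpowers_of_pow (x := f c) (k := k)
      (by rw [← map_pow, hc, map_one])) pPrimeCore_coprime).inf_eq_bot.le ⟨mem_zpowers _,
        (h.ps.quot _).cc pCore_quotient_pCore (h2 (mem_zpowers _))⟩))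

theorem card_dvd_factorial_of_faith {G : Type*} [Group G] [Finite G] {D W : Subgroup G}
    (hn : D ≤ normalizer (W : Set G)) (hf : D ⊓ centralizer (W : Set G) = ⊥) : Nat.card D ∣ (Nat.card W).factorial := by
  have := relIndex_centralizer_dvd_card_mulAut W hn
  rw [← inf_relIndex_right, inf_comm, hf, relIndex_bot_left] at this
  rw [← Nat.card_perm]
  exact this.trans (card_dvd_of_injective (MulAut.toPerm W) fun a b h => MulEquiv.toEquiv_injective h)

theorem Red.s4 (h : Red 2 Γ) {K : Subgroup Γ} (hK : (Nat.card K).Coprime 2) {c : Γ} (hc : c * c = 1)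
    (hn : c ∈ normalizer (K : Set Γ)) (h1 : ¬ K ≤ centralizer {c})
    (h2 : Nat.card (⁅pCore 2 Γ, zpowers c⁆ : Subgroup Γ) ≤ 2) : Sect (Equiv.Perm (Fin 4)) (⊤ : Subgroup Γ) := by
  obtain ⟨k, hk, h3⟩ := SetLike.not_le_iff_exists.1 h1
  have hi : c⁻¹ = c := inv_eq_of_mul_eq_one_left hc
  set d := c * (k * c * k⁻¹) with hd
  have d1 : d ∈ K := by
    rw [show d = c * k * c⁻¹ * k⁻¹ by rw [hi, hd]; group]
    exact mul_mem ((mem_normalizer_iff.1 hn k).1 hk) (inv_mem hk)
  have d2 : c * d * c⁻¹ = d⁻¹ := by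
    rw [hd, mul_inv_rev, mul_inv_rev, mul_inv_rev, inv_inv, hi, ← mul_assoc, hc]; group
  have d3 : d ≠ 1 := fun e => h3 (mem_centralizer_singleton_iff.2 (by
    rw [← mul_inv_eq_iff_eq_mul, ← inv_eq_of_mul_eq_one_right e, hi]))
  have do1 : (Nat.card (zpowers d)).Coprime 2 := hK.coprime_dvd_left (card_dvd_of_le (zpowers_le.2 d1))
  have d4 : d * d ≠ 1 := fun e => d3 (orderOf_eq_one_iff.1 (Nat.eq_one_of_dvd_coprimes do1
    (by rw [Nat.card_zpowers]) (orderOf_dvd_of_pow_eq_one ((sq d).trans e))))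
  let V := pCore 2 Γ
  let W := ⁅V, zpowers c⁆ ⊔ cj k ⁅V, zpowers c⁆
  have w0 : cj k ⁅V, zpowers c⁆ = ⁅V, zpowers (k * c * k⁻¹)⁆ := by
    rw [← cj_comm_left (le_normalizer_of_normal (K := ⊤) trivial), cj_zpowers]
  have w1 : W ≤ V := sup_le (commutator_le_left _ _) (w0 ▸ commutator_le_left _ _)
  have wc : V ≤ centralizer (W : Set Γ) := (L.le_centralizer_of_comm h.el.1).trans (centralizer_le w1)
  have w2 : ⁅V, zpowers c ⊔ zpowers (k * c * k⁻¹)⁆ ≤ W := comm_sup_le_of_le w1 le_sup_left (w0 ▸ le_sup_right)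
  have w3 : zpowers c ⊔ zpowers d ≤ zpowers c ⊔ zpowers (k * c * k⁻¹) := sup_le le_sup_left
    (zpowers_le.2 (mul_mem (mem_sup_left (mem_zpowers _)) (mem_sup_right (mem_zpowers _))))
  have w4 : zpowers c ⊔ zpowers d ≤ normalizer (W : Set Γ) := fun g hg => mem_norm_of_cm fun a ha => by
    rw [← commutatorElement_inv]
    exact inv_mem (w2 (commutator_mem_commutator (w1 ha) (w3 hg)))
  have w5 : Nat.card W ≤ 4 := by
    have := H1.card_sup_mul_card_inf (H := ⁅V, zpowers c⁆) (K := cj k ⁅V, zpowers c⁆)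
      ((le_sup_left.trans (w1.trans wc)).trans ((centralizer_le (le_sup_right : _ ≤ W)).trans
        (centralizer_le_normalizer' _)))
    rw [card_cj] at this
    exact (Nat.le_mul_of_pos_right _ Nat.card_pos).trans (this.le.trans (Nat.mul_le_mul h2 h2))
  have w6 : zpowers d ⊓ centralizer (W : Set Γ) = ⊥ := cop_faith (p := 2) pCore_isPGroup le_normalizer_of_normal do1
    (eq_bot_iff.2 ((inf_le_inf_left _ h.cc).trans (copA_of_p' pCore_isPGroup do1).inf_eq_bot.le))
    ((commutator_mono le_rfl (le_sup_right.trans w3)).trans w2)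
  have w7 := card_dvd_factorial_of_faith (le_sup_right.trans w4) w6
  have d5 : 1 < Nat.card (zpowers d) := (one_lt_card_iff_ne_bot _).2 (by simpa using d3)
  have d6 : Nat.card (zpowers d) = 3 := by
    have : Nat.card (zpowers d) ∣ 3 := (do1.pow_right 3).dvd_of_dvd_mul_left
      (w7.trans (Nat.factorial_dvd_factorial w5))
    exact ((Nat.dvd_prime Nat.prime_three).1 this).resolve_left d5.ne'
  have w8 : Nat.card W = 4 := by
    obtain ⟨i, hi⟩ := IsPGroup.iff_card.1 ((pCore_isPGroup (p := 2)).to_le w1)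
    rw [d6, hi] at w7
    rw [hi] at w5 ⊢
    have : i < 3 := by_contra fun h => absurd ((Nat.pow_le_pow_right two_pos (not_lt.1 h)).trans w5) (by norm_num)
    interval_cases i <;> simp_all [Nat.factorial]
  have c1 : c ≠ 1 := fun e => h1 fun x _ => mem_centralizer_singleton_iff.2 (by simp [e])
  have c2 : Nat.card (zpowers c) = 2 := by rw [Nat.card_zpowers, orderOf_eq_prime ((sq c).trans hc) c1]
  have c3 : zpowers c ≤ normalizer (zpowers d : Set Γ) := zpowers_le.2 (mem_normalizer_of_cj_le (by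
    rw [cj_zpowers, d2, zpowers_inv]))
  obtain ⟨e⟩ := Am.s4_of w4 w8 (by
    rw [card_sup_of_disjoint c3 (inf_eq_bot_of_coprime (by rw [c2, d6]; norm_num)), c2, d6]) (w1.trans wc)
    (eq_bot_iff.2 fun x hx => by
      obtain ⟨a, ha, b, hb, rfl⟩ := (mem_sup_of_le_normalizer c3).1 hx.1
      rcases (mem_zpowers_two (Nat.card_zpowers c ▸ c2)).1 ha with rfl | rfl
      · exact w6.le ⟨by rwa [one_mul], hx.2⟩
      have e : ⁅a * b, d⁆ = (d * d)⁻¹ := by
        obtain ⟨i, rfl⟩ := hb
        calc _ = a * d * a⁻¹ * d⁻¹ := by simp only [commutatorElement_def]; group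
          _ = _ := by rw [d2, mul_inv_rev d d]
      have e' := commutatorElement_mem_left hx.2 (normalizer_centralizer (le_sup_right.trans w4) (mem_zpowers d))
      rw [e] at e'
      exact absurd (mem_bot.1 (w6.le ⟨mul_mem (mem_zpowers d) (mem_zpowers d), (Subgroup.inv_mem_iff _).1 e'⟩)) d4)
  exact ⟨_, le_top, e.toMonoidHom, e.surjective⟩

theorem Red.cyc (h : Red p Γ) {a : Γ} {k : ℕ} (ha : a ^ p ^ k = 1) (hn : pCore p Γ ≤ normalizer (zpowers a : Set Γ))
    (h4 : p ≠ 2 ∨ ¬ Sect (Equiv.Perm (Fin 4)) (⊤ : Subgroup Γ)) : a ∈ pCore p Γ := by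
  by_contra h0
  obtain ⟨M⟩ := h.mod
  obtain ⟨K, hK, k1, k2⟩ := h.compl
  obtain ⟨_, hv, h1⟩ := k1 a
  obtain ⟨v, rfl⟩ := M.e_surj _ hv
  have hV := L.le_centralizer_of_comm h.el.1
  have a1 : ⁅pCore p Γ, zpowers a⁆ ≤ pCore p Γ ⊓ zpowers a := le_inf (commutator_le_left _ _) (commutator_le_right' hn)
  have a2 : ∀ w, M.e ((M.σ a - 1) w) ∈ zpowers a := fun w => by
    rw [M.e_comm, ← commutatorElement_inv]
    exact inv_mem (a1 (commutator_mem_commutator (M.e_mem w) (mem_zpowers a))).2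
  have a3 : ∀ j, (M.σ a - 1) ^ (j + 2) = 0 := fun j => LinearMap.ext fun w => by
    have : (M.σ a - 1) ((M.σ a - 1) w) = 0 := M.e_eq_one.1 (by
      obtain ⟨i, hi⟩ := a2 w
      rw [M.e_comm, ← hi]
      exact (Commute.self_zpow a i).commutator_eq)
    rw [pow_add, sq, End.mul_apply, End.mul_apply, this, map_zero]
    rfl
  have a4 : a ^ p ∈ pCore p Γ := (QuotientGroup.eq_one_iff _).1 (M.inj (by
    have := sub_one_pow_char (p := p) (M.σ a) 1
    have e := a3 (p - 2)
    rw [Nat.sub_add_cancel hp.out.two_le] at e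
    rw [pow_one, e] at this
    rw [QuotientGroup.mk_pow, map_pow, map_one, sub_eq_zero.1 this.symm]))
  have a5 : pCore p Γ ⊓ zpowers a ≤ zpowers (a ^ p) := by
    rintro _ ⟨h1, i, rfl⟩
    obtain ⟨j, rfl⟩ : (p : ℤ) ∣ i := by
      have := orderOf_dvd_iff_zpow_eq_one.2
        (show (a : Γ ⧸ pCore p Γ) ^ i = 1 from (QuotientGroup.eq_one_iff (a ^ i)).2 h1)
      rwa [orderOf_eq_prime (show (a : Γ ⧸ pCore p Γ) ^ p = 1 from (QuotientGroup.eq_one_iff (a ^ p)).2 a4)
        fun e => h0 ((QuotientGroup.eq_one_iff _).1 e)] at this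
    exact ⟨j, by simp only [zpow_mul, zpow_natCast]⟩
  set c := M.e v * a with hc
  have c1 : c ^ p = M.e (((M.σ a - 1) ^ (p - 1)) v) * a ^ p := by simpa using M.mul_pow_p a v 1
  have c2 : c ^ p ∈ pCore p Γ := c1 ▸ mul_mem (M.e_mem _) a4
  have c3 : c ^ p ∈ centralizer (K : Set Γ) := fun x hx => commutatorElement_eq_one_iff_mul_comm.1 (mem_bot.1
    ((copA_of_p pCore_isPGroup hK).inf_eq_bot.le ⟨commutator_le_right _ _ (commutator_mem_commutator (mem_top x) c2),
      commutatorElement_mem_left hx (pow_mem h1 p)⟩))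
  obtain ⟨j, hj⟩ := pow_of_pow_mem (k := 1) pCore_isPGroup (by rwa [pow_one])
  have c4 : ¬ ⁅K, zpowers c⁆ ≤ pCore p Γ := fun e => h0 ((mul_mem_cancel_left hv).1 (k2 c j hj e))
  have c5 : ⁅pCore p Γ, zpowers c⁆ ≤ zpowers (a ^ p) :=
    commutator_zpowers_le' (((sup_le (hV.trans (centralizer_le (zpowers_le.2 a4))) (zpowers_le.2 fun x hx => by
      obtain ⟨i, rfl⟩ := hx
      exact (((Commute.refl a).pow_left p).zpow_left i).eq)).trans (centralizer_le_normalizer' _))
        (mul_mem (mem_sup_left hv) (mem_sup_right (mem_zpowers a)))) fun x hx => a5 (a1 (by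
      rw [show ⁅x, c⁆ = M.e v * ⁅x, a⁆ * (M.e v)⁻¹ by
        rw [hc, commutatorElement_def, commutatorElement_def, ← mul_assoc, hV hv x hx]; group,
        ← hV hv _ (a1 (commutator_mem_commutator hx (mem_zpowers a))).1, mul_inv_cancel_right]
      exact commutator_mem_commutator hx (mem_zpowers a)))
  have key : a ^ p ∉ centralizer (K : Set Γ) := fun e => c4 (by
    have u1 : ⁅pCore p Γ, K⁆ ≤ pCore p Γ := commutator_le_left _ _
    have u2 : zpowers c ≤ normalizer ((⁅pCore p Γ, K⁆ : Subgroup Γ) : Set Γ) :=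
      normalizer_commutator le_normalizer_of_normal (zpowers_le.2 h1)
    have u3 : ⁅⁅pCore p Γ, K⁆, zpowers c⁆ = ⊥ := eq_bot_iff.2 ((le_inf (le_inf ((commutator_mono u1 le_rfl).trans
      (commutator_le_left _ _)) (((commutator_mono u1 le_rfl).trans c5).trans (zpowers_le.2 e)))
      (commutator_le_left' u2)).trans (cop_abelian_inf h.el.1 le_normalizer_of_normal
        (isPGroup_coprime pCore_isPGroup hK).symm).le)
    refine le_trans ?_ h.cc
    rw [le_centralizer_iff, ← cop_commutator_sup (A := K) le_normalizer_of_normal (copA_of_p' pCore_isPGroup hK)]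
    refine sup_le (le_centralizer_iff.1 ((commutator_mono le_rfl (le_centralizer_iff.1
      (commutator_eq_bot_iff_le_centralizer.1 u3))).trans (commutator_le_right' (normalizer_centralizer
        (normalizer_commutator le_normalizer_of_normal le_normalizer)))))
      (inf_le_right.trans (centralizer_le (commutator_le_left' (zpowers_le.2 h1)))))
  have a6 : (a ^ p) ^ p = 1 := h.el.2 _ a4
  have a7 : Nat.card (zpowers (a ^ p)) = p := by
    rw [Nat.card_zpowers, orderOf_eq_prime a6 fun e => key (e ▸ one_mem _)]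
  by_cases h2 : p = 2
  · subst h2
    by_cases h3 : c ^ 2 = 1
    · exact h4.resolve_left (by simp) (h.s4 hK ((sq c).symm.trans h3) h1 (fun e => c4
        ((commutator_eq_bot_iff_le_centralizer.2 (le_centralizer_iff.1 (zpowers_le_centralizer_iff.2 e))).le.trans
          bot_le)) ((card_le_of_le c5).trans a7.le))
    · refine key ((zpowers_le.2 c3) ((FT.eq_zpowers_of_card_prime (a7.symm ▸ Nat.prime_two) (a5 ⟨c2, ?_⟩) h3).ge
        (mem_zpowers _)))
      rw [c1]
      exact mul_mem (a2 v) (pow_mem (mem_zpowers a) 2)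
  · have := hp.out.two_le
    rw [show p - 1 = p - 3 + 2 by omega, a3, LinearMap.zero_apply, M.e_zero, one_mul] at c1
    exact key (c1 ▸ c3)

end H1
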