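import Cfsg.Agent.H1.HB3
import Cfsg.Agent.H9.Qd

/-! H1.HB6: wreath product sections of Sylow subgroups of `p`-solvable groups. -/

open Cfsg Module Subgroup H9
open scoped commutatorElement Pointwise

namespace H1

universe u v

theorem cyc_nil {F V : Type*} [Field F] [AddCommGroup V] [Module F V] [FiniteDimensional F V] (N : End F V) (k : ℕ) :
    ∀ v : V, (N ^ (k + 1)) v = 0 → (N ^ k) v ≠ 0 → ∃ B : Submodule F V, v ∈ B ∧ (N ^ k) v ∈ B ∧
      finrank F B = k + 1 ∧ (∀ u ∈ B, N u ∈ B) ∧ (∀ u ∈ B, (N ^ (k + 1)) u = 0) ∧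
        ∀ u ∈ B, N u = 0 → u ∈ Submodule.span F {(N ^ k) v} := by
  induction k with
  | zero =>
    intro v h1 h2
    have : ∀ u ∈ Submodule.span F {v}, N u = 0 := fun u hu => by
      obtain ⟨c, rfl⟩ := Submodule.mem_span_singleton.1 hu
      rw [map_smul, show N v = 0 from by simpa using h1, smul_zero]
    exact ⟨Submodule.span F {v}, Submodule.mem_span_singleton_self v, Submodule.mem_span_singleton_self v,
      finrank_span_singleton h2, fun u hu => by rw [this u hu]; exact zero_mem _, by simpa using this, fun u hu _ => hu⟩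
  | succ k ih =>
    intro v h1 h2
    rw [pow_succ, End.mul_apply] at h1 h2
    obtain ⟨B, b1, b2, b3, b4, b5, b6⟩ := ih (N v) h1 h2
    have v1 : v ∉ B := fun h => h2 (by rw [← End.mul_apply, ← pow_succ]; exact b5 v h)
    refine ⟨B ⊔ Submodule.span F {v}, Submodule.mem_sup_right (Submodule.mem_span_singleton_self v),
      Submodule.mem_sup_left (by rwa [pow_succ]), by rw [Submodule.finrank_sup_span_singleton v1, b3], ?_, ?_, ?_⟩ <;>
      intro u hu <;> obtain ⟨b, hb, _, hc, rfl⟩ := Submodule.mem_sup.1 hu <;>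
      obtain ⟨c, rfl⟩ := Submodule.mem_span_singleton.1 hc
    · rw [map_add, map_smul]
      exact Submodule.mem_sup_left (add_mem (b4 b hb) (B.smul_mem c b1))
    · rw [pow_succ, End.mul_apply, map_add, map_smul]
      exact b5 _ (add_mem (b4 b hb) (B.smul_mem c b1))
    · intro h
      have := congrArg (N ^ k) h
      rw [map_add, map_add, ← End.mul_apply, ← pow_succ, b5 b hb, zero_add, map_smul, map_smul, map_zero] at this
      obtain rfl := (smul_eq_zero.1 this).resolve_right h2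
      rw [zero_smul, add_zero] at h ⊢
      rw [pow_succ]
      exact b6 b hb h

theorem exists_type_zero (Δ : Type*) [Group Δ] [Finite Δ] : ∃ (W : Type) (_ : Group W), Nonempty (Δ ≃* W) :=
  by
    obtain ⟨W, ⟨e⟩⟩ : ∃ W : Type, Nonempty (W ≃ Δ) := ⟨_, ⟨(Finite.equivFin Δ).symm⟩⟩
    letI := e.group
    exact ⟨W, inferInstance, ⟨e.mulEquiv.symm⟩⟩

/-- the wreath product of two groups of order `p` -/
def Wr (p : ℕ) (W : Type*) [Group W] : Prop :=
  ∃ (B : Subgroup W) (t : W), B.Normal ∧ IsMulCommutative B ∧ (∀ b ∈ B, b ^ p = 1) ∧ Nat.card B = p ^ p ∧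
    orderOf t = p ∧ t ∉ B ∧ Nat.card W = p ^ (p + 1) ∧ Nat.card ↥(B ⊓ centralizer ({t} : Set W)) = p

variable {p : ℕ} [hp : Fact p.Prime] {Γ : Type u} [Group Γ] [Finite Γ]

theorem exists_wr {B : Subgroup Γ} {t : Γ} (hn : t ∈ normalizer (B : Set Γ)) (hB : IsElementaryAbelian p B)
    (hc : Nat.card B = p ^ p) (h1 : B ≤ centralizer {t ^ p}) (h2 : zpowers (t ^ p) ⊓ B = ⊥)
    (h3 : t ∉ B ⊔ zpowers (t ^ p))
    (h4 : Nat.card ↥(B ⊓ centralizer {t}) = p) :
    ∃ (W : Type) (_ : Group W) (_ : Finite W), Wr p W ∧ Sect W (zpowers t ⊔ B) := by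
  have hn' := zpowers_le.2 hn
  have u1 : zpowers (t ^ p) ≤ zpowers t := zpowers_le.2 (pow_mem (mem_zpowers t) p)
  obtain ⟨Δ, _, _, g, g1, g2, -⟩ := exists_quot (X := zpowers t ⊔ B) (N := zpowers (t ^ p)) (u1.trans le_sup_left)
    ((sup_le (zpowers_le_centralizer_iff.2 (zpowers_le.2 (mem_centralizer_singleton_iff.2
      ((Commute.refl t).pow_left p).eq))) (le_centralizer_iff.1 (zpowers_le_centralizer_iff.2 h1))).trans
        (centralizer_le_normalizer' _))
  obtain ⟨W, _, ⟨φ⟩⟩ := exists_type_zero Δ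
  let f : (zpowers t ⊔ B : Subgroup Γ) →* W := φ.toMonoidHom.comp g
  have f1 : Function.Surjective f := φ.surjective.comp g1
  have f2 : kr f = zpowers (t ^ p) := by
    rw [← g2]
    ext x
    simp [mem_kr, f]
  haveI : Finite W := Finite.of_surjective f f1
  let s : (zpowers t ⊔ B : Subgroup Γ) := ⟨t, mem_sup_left (mem_zpowers t)⟩
  have e0 : kr f ⊓ B = ⊥ := f2 ▸ h2
  have e1 : Nat.card (im f B) = p ^ p := by rw [card_im_of_disjoint f le_sup_right e0, hc]
  have e2 : f s ∉ im f B := fun h => h3 (by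
    have := (coe_mem_pre f).2 h
    rwa [pre_im f le_sup_right, f2] at this)
  have e3 : orderOf (f s) = p := orderOf_eq_prime (by
    rw [← map_pow]; exact (coe_mem_kr f).1 (f2.ge (mem_zpowers _))) fun e => e2 (e ▸ one_mem _)
  have e4 : zpowers (f s) ⊔ im f B = ⊤ := by rw [← im_zpowers, ← im_sup f le_sup_left le_sup_right, im_self f f1]
  have e5 : zpowers (f s) ≤ normalizer (im f B : Set W) := im_zpowers f s ▸ im_le_normalizer f hn'
  refine ⟨_, _, inferInstance, ⟨im f B, f s, normalizer_eq_top_iff.1 (top_le_iff.1 (e4.ge.trans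
    (sup_le e5 le_normalizer))), isMulCommutative_im f hB.1, pow_eq_one_im f hB.2, e1, e3, e2, ?_, ?_⟩,
    _, le_rfl, f, f1⟩
  · rw [← card_top, ← e4, card_sup_of_disjoint e5 ((bot_or_eq_of_prime (by rw [Nat.card_zpowers, e3]; exact hp.out)
      inf_le_left).resolve_right fun e => e2 (e.ge (mem_zpowers _)).2), e1, Nat.card_zpowers, e3, pow_succ']
  · rw [← h4, ← card_im_of_disjoint f (inf_le_left.trans le_sup_right)
      (eq_bot_iff.2 (e0 ▸ inf_le_inf_left _ inf_le_left))]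
    congr 2
    refine le_antisymm ?_ ((im_inf_le f _ _).trans (inf_le_inf_left _ ?_))
    · rintro _ ⟨⟨x, hx, rfl⟩, h⟩
      refine mem_im_of_mem f ⟨hx, mem_centralizer_singleton_iff.2 (commutatorElement_eq_one_iff_mul_comm.1
        (mem_bot.1 (e0.le ⟨(coe_mem_kr f (x := ⁅x, s⁆)).2 ?_, commutatorElement_mem_left hx hn⟩)))⟩
      rw [map_commutatorElement, commutatorElement_eq_one_iff_mul_comm]
      exact mem_centralizer_singleton_iff.1 h
    · rintro _ ⟨x, hx, rfl⟩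
      rw [mem_centralizer_singleton_iff, ← map_mul, ← map_mul]
      exact congrArg f (Subtype.ext (mem_centralizer_singleton_iff.1 hx))

/-- the subgroup of `O_p` given by a submodule -/
def Mod.sg (M : Mod p Γ) (B : Submodule (ZMod p) M.V) : Subgroup Γ where
  carrier := M.e '' B
  mul_mem' := by rintro _ _ ⟨a, ha, rfl⟩ ⟨b, hb, rfl⟩; exact ⟨a + b, B.add_mem ha hb, M.e_add a b⟩
  one_mem' := ⟨0, B.zero_mem, M.e_zero⟩
  inv_mem' := by rintro _ ⟨a, ha, rfl⟩; exact ⟨-a, B.neg_mem ha, M.e_neg a⟩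

theorem Mod.card_sg (M : Mod p Γ) (B : Submodule (ZMod p) M.V) : Nat.card (M.sg B) = p ^ finrank (ZMod p) B := by
  exact (Nat.card_image_of_injective M.e_inj _).trans
    ((Module.natCard_eq_pow_finrank (K := ZMod p) (V := B)).trans (by rw [Nat.card_zmod]))

theorem Mod.sg_le (M : Mod p Γ) (B : Submodule (ZMod p) M.V) : M.sg B ≤ pCore p Γ := by
  rintro _ ⟨a, -, rfl⟩; exact M.e_mem a

theorem Mod.wr (M : Mod p Γ) (h : Red p Γ) {x : Γ} (h0 : x ∉ pCore p Γ) (h1 : x ^ p ∈ pCore p Γ)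
    (h2 : (M.σ x - 1) ^ (p - 1) ≠ 0) :
    ∃ (W : Type) (_ : Group W) (_ : Finite W), Wr p W ∧ Sect W (zpowers x ⊔ pCore p Γ) := by
  obtain ⟨v, hv⟩ := DFunLike.ne_iff.1 h2
  have e0 := Nat.sub_add_cancel hp.out.pos
  have e1 : (M.σ x - 1) ^ (p - 1 + 1) = 0 := by
    have := sub_one_pow_char (p := p) (M.σ x) 1
    rw [pow_one, ← map_pow, show (x : Γ ⧸ pCore p Γ) ^ p = 1 from (QuotientGroup.eq_one_iff (x ^ p)).2 h1, map_one,
      sub_self] at this
    rwa [e0]
  obtain ⟨B, b1, b2, b3, b4, -, b6⟩ := cyc_nil (M.σ x - 1) (p - 1) v (by rw [e1]; rfl) hv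
  rw [e0] at b3
  have hV := L.le_centralizer_of_comm h.el.1
  have k1 : ∀ u, (M.σ x - 1) u = 0 ↔ M.e u ∈ centralizer {x} := fun u => by
    rw [← M.e_eq_one, M.e_comm, commutatorElement_eq_one_iff_mul_comm, mem_centralizer_singleton_iff, eq_comm]
  obtain ⟨w, hw⟩ : ∃ w, (M.e w * x) ^ p ∈ M.sg B → (M.e w * x) ^ p = 1 := by
    by_cases h3 : x ^ p ∈ M.sg B
    · obtain ⟨u, hu, h3⟩ := h3
      obtain ⟨c, hc⟩ := Submodule.mem_span_singleton.1 (b6 u hu ((k1 u).2 (h3 ▸ mem_centralizer_singleton_iff.2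
        ((Commute.refl x).pow_left p).eq)))
      refine ⟨-(c • v), fun _ => ?_⟩
      have := M.mul_pow_p x (-(c • v)) 1
      rwa [pow_one, map_neg, map_smul, hc, M.e_neg u, h3, inv_mul_cancel] at this
    · exact ⟨0, fun h => absurd (by simpa [M.e_zero] using h) h3⟩
  set t := M.e w * x with ht
  have t1 : (t : Γ ⧸ pCore p Γ) = x := by
    rw [ht, QuotientGroup.mk_mul, (QuotientGroup.eq_one_iff _).2 (M.e_mem w), one_mul]
  have t2 : t ^ p ∈ pCore p Γ := (QuotientGroup.eq_one_iff _).1 (by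
    rw [QuotientGroup.mk_pow, t1]; exact (QuotientGroup.eq_one_iff (x ^ p)).2 h1)
  have t3 : t ∉ pCore p Γ := fun h => h0 ((mul_mem_cancel_left (M.e_mem w)).1 h)
  have k2 : ∀ u, (M.σ x - 1) u = 0 ↔ M.e u ∈ centralizer {t} := fun u => by
    rw [← t1, ← M.e_eq_one, M.e_comm, commutatorElement_eq_one_iff_mul_comm, mem_centralizer_singleton_iff, eq_comm]
  obtain ⟨W, _, _, w1, w2⟩ := exists_wr (B := M.sg B) (t := t) (mem_norm_of_cm (by
      rintro _ ⟨u, hu, rfl⟩
      exact ⟨_, b4 u hu, t1 ▸ M.e_comm t u⟩)) ⟨comm_of_le h.el.1 (M.sg_le B), fun y hy => h.el.2 y (M.sg_le B hy)⟩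
    (by rw [M.card_sg, b3]) (((M.sg_le B).trans hV).trans (centralizer_le (Set.singleton_subset_iff.2 t2)))
    (by
      by_cases e : t ^ p = 1
      · rw [e, zpowers_one_eq_bot, bot_inf_eq]
      · exact (bot_or_eq_of_prime (by rw [Nat.card_zpowers, orderOf_eq_prime (h.el.2 _ t2) e]; exact hp.out)
          inf_le_left).resolve_right fun e' => e (hw (e'.ge (mem_zpowers _)).2))
    (fun e => t3 (sup_le (M.sg_le B) (zpowers_le.2 t2) e)) (by
      rw [show M.sg B ⊓ centralizer {t} = M.sg (Submodule.span _ {((M.σ x - 1) ^ (p - 1)) v}) from le_antisymm (by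
          rintro _ ⟨⟨u, hu, rfl⟩, h⟩
          exact ⟨u, b6 u hu ((k2 u).2 h), rfl⟩) (by
          rintro _ ⟨u, hu, rfl⟩
          obtain ⟨c, rfl⟩ := Submodule.mem_span_singleton.1 hu
          refine ⟨⟨_, B.smul_mem c b2, rfl⟩, (k2 _).1 ?_⟩
          rw [map_smul, ← End.mul_apply, ← pow_succ', e1, LinearMap.zero_apply, smul_zero]),
        M.card_sg, finrank_span_singleton hv, pow_one])
  exact ⟨W, _, inferInstance, w1, w2.mono (sup_le (zpowers_le.2 (mul_mem (mem_sup_right (M.e_mem w))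
    (mem_sup_left (mem_zpowers x)))) ((M.sg_le B).trans le_sup_right))⟩

theorem ne_of_not_fermat (hp2 : p ≠ 2) {G : Type*} [Group G] [Finite G]
    (h : (¬ ∃ k : ℕ, p = 2 ^ k + 1) ∨ AbQ 2 G) : NE p G := fun q j m hq _ hj hm e => by
  obtain rfl : q = 2 := by
    have : Even (p ^ j - 1) := Nat.Odd.sub_odd (hp.out.odd_of_ne_two hp2).pow odd_one
    rw [e] at this
    exact ((Nat.prime_dvd_prime_iff_eq Nat.prime_two hq).1 (Nat.prime_two.dvd_of_dvd_pow this.two_dvd)).symm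
  refine h.resolve_left fun h => h ?_
  obtain ⟨k, -, hk⟩ := (Nat.dvd_prime_pow Nat.prime_two).1 (e ▸ Nat.sub_one_dvd_pow_sub_one p j)
  exact ⟨k, by have := hp.out.pos; omega⟩

end H1
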