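import Cfsg.Agent.H1.HB5

/-! H1.HB7: `p`-length and derived length of Sylow subgroups (Hall-Higman, Theorem A). -/

open Cfsg Module Subgroup H9
open scoped commutatorElement Pointwise

namespace H1

universe u v

variable {F : Type*} [Field F] {G : Type*} [Group G]

section

variable {V : Type*} [AddCommGroup V] [Module F V] {ρ : G →* End F V}

/-- pointwise stabilizer of a subspace -/
def ptw (ρ : G →* End F V) (W : Submodule F V) : Subgroup G where
  carrier := {g | ∀ w ∈ W, ρ g w = w}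
  mul_mem' := fun ha hb w hw => by rw [rho_mul, hb w hw, ha w hw]
  one_mem' := fun w _ => by rw [map_one]; rfl
  inv_mem' := fun {a} ha w hw => by conv_lhs => rw [← ha w hw, rho_inv_rho]

theorem comm_le_ptw {W : Submodule F V} {K A : Subgroup G} (h1 : A ≤ ptw ρ W) (h2 : ∀ k ∈ K, ∀ w ∈ W, ρ k w ∈ W) :
    ⁅K, A⁆ ≤ ptw ρ W := commutator_le.2 fun k hk a ha w hw => by
  rw [commutatorElement_def, rho_mul, rho_mul, rho_mul, h1 (inv_mem ha) w hw, h1 ha _ (h2 _ (inv_mem hk) w hw),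
    rho_rho_inv]

theorem mem_ptw_range {g : G} {T : End F V} : g ∈ ptw ρ (LinearMap.range T) ↔ (ρ g - 1) * T = 0 :=
  ⟨fun h => LinearMap.ext fun v => sub_eq_zero.2 (h _ ⟨v, rfl⟩), fun h => by
    rintro _ ⟨v, rfl⟩; exact sub_eq_zero.1 (LinearMap.congr_fun h v)⟩

theorem range_inv {g a : G} (h : g * a = a * g) : ∀ w ∈ LinearMap.range (ρ a - 1), ρ g w ∈ LinearMap.range (ρ a - 1) := by
  rintro _ ⟨v, rfl⟩
  exact ⟨ρ g v, by simp only [LinearMap.sub_apply, End.one_apply, map_sub, ← rho_mul, h]⟩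

theorem ptw_symm {g a : G} (h : g * a = a * g) (h1 : g ∈ ptw ρ (LinearMap.range (ρ a - 1))) :
    a ∈ ptw ρ (LinearMap.range (ρ g - 1)) := by
  rw [mem_ptw_range] at h1 ⊢
  rw [← h1]
  simp only [sub_mul, mul_sub, ← map_mul, h, one_mul, mul_one]
  abel

theorem pr_sq {N : Subgroup G} [Fintype N] [N.Normal] (hN : (Nat.card N : F) ≠ 0) {χ : Wt F N} {b : G}
    (ho : Odd (orderOf b)) (h : b • χ ≠ χ) {w : V} (hw : w ∈ wt ρ χ) : pr ρ χ (((ρ b - 1) * (ρ b - 1)) w) = w := by
  have h2 : (b * b) • χ ≠ χ := fun e => h (by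
    obtain ⟨k, hk⟩ := ho
    have := (MulAction.stabilizer G χ).pow_mem (show b * b ∈ _ from e) (k + 1)
    rwa [← sq, ← pow_mul, show 2 * (k + 1) = orderOf b + 1 by omega, pow_succ, pow_orderOf_eq_one, one_mul] at this)
  simp only [End.mul_apply, LinearMap.sub_apply, End.one_apply, map_sub, ← rho_mul]
  rw [pr_of_mem_ne (rho_mem_wt hw _) h2.symm, pr_of_mem_ne (rho_mem_wt hw _) h.symm, pr_of_mem hN hw]
  abel

end

theorem extra_w_amb [IsAlgClosed F] [Finite G] {V : Type v} [AddCommGroup V] [Module F V] [FiniteDimensional F V]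
    (ρ : G →* End F V) {P Z : Subgroup G} {x : G} (hn : x ∈ normalizer (P : Set G)) (hZP : Z ≤ P)
    (hZ : Z ≤ centralizer ((P ⊔ zpowers x : Subgroup G) : Set G)) (hP' : ⁅P, P⁆ ≤ Z) {a : G} (ha : a ∈ ⁅P, P⁆)
    (ha1 : ρ a ≠ 1) (hnd : ∀ Y ≤ Z, ¬ ⁅P, P⁆ ≤ Y → ∀ x ∈ P, (∀ y ∈ P, ⁅y, x⁆ ∈ Y) → x ∈ Z)
    (hf : ∀ h ∈ zpowers x, h ≠ 1 → ∀ x ∈ P, ⁅x, h⁆ ∈ Z → x ∈ Z) (hP : (Nat.card P : F) ≠ 0) :
    ∃ (U : Type v) (_ : AddCommGroup U) (_ : Module F U) (_ : FiniteDimensional F U) (S : End F U),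
      Blk (ρ x) 1 S ∧ finrank F U ^ 2 = Z.relIndex P ∧
        finrank F U ^ 2 + orderOf x = 1 + orderOf x * finrank F (cen S) := by
  let L := P ⊔ zpowers x
  let τ := ρ.comp L.subtype
  haveI := normal_subgroupOf' (V := P) (sup_le le_normalizer (zpowers_le.2 hn))
  have e := H9.subgroupOf_commutator (X := P) (Y := P) (M := L) le_sup_left le_sup_left
  have hZ' : Z.subgroupOf L ≤ center L := fun z hz => mem_center_iff.2 fun g => Subtype.ext (hZ hz g g.2)
  haveI : (Z.subgroupOf L).Normal := ⟨fun z hz g => by rwa [mem_center_iff.1 (hZ' hz) g, mul_inv_cancel_right]⟩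
  have hZc : ⁅Z.subgroupOf L, Z.subgroupOf L⁆ = ⊥ :=
    commutator_eq_bot_iff_le_centralizer.2 (hZ'.trans (center_le_centralizer _))
  let a' : L := ⟨a, mem_sup_left (hZP (hP' ha))⟩
  have hP1 : (Nat.card (P.subgroupOf L) : F) ≠ 0 := by rwa [H9.card_subgroupOf le_sup_left]
  obtain ⟨χ, v, hv, h1⟩ := exists_wt_ne_bot (ρ := τ) (A := Z.subgroupOf L) (g := a')
    (natCast_ne_zero_of_dvd hP1 (card_dvd_of_le (comap_mono hZP)))
    (fun a ha => by rw [mem_bot.1 (hZc.le ha), map_one]) ha1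
  replace h1 := h1.resolve_right fun ⟨b, _, h⟩ => h (by
    rw [← map_mul, ← map_mul, mem_center_iff.1 (hZ' (hP' ha : a' ∈ Z.subgroupOf L))])
  have h2 : ∀ g : L, g • χ = χ := fun g => smul_wt_of_centralizer
    (fun z hz => (mem_center_iff.1 (hZ' hz) g).symm) χ
  obtain ⟨U, hU, h3, h4, h5⟩ := exists_simple (ρ := τ) (W := wt τ χ)
    ((Submodule.ne_bot_iff _).2 ⟨v, hv, fun e => h1 (by rw [e, map_zero])⟩) fun g u hu => h2 g ▸ rho_mem_wt hu g
  haveI := Submodule.nontrivial_iff_ne_bot.2 h4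
  let x' : L := ⟨x, mem_sup_right (mem_zpowers x)⟩
  have ex : zpowers x' = (zpowers x).subgroupOf L := by
    rw [← subgroupOf_map_subtype' _ (zpowers _), MonoidHom.map_zpowers]; rfl
  have := extra_w (ρ := sub τ U hU) (P := P.subgroupOf L) (Z := Z.subgroupOf L) (H := zpowers x')
    (by rw [ex, ← subgroupOf_sup le_sup_left le_sup_right, subgroupOf_self]) (comap_mono hZP) hZ'
    (e ▸ comap_mono hP') h5 (fun y hy hyZ => by
      by_contra h; push Not at h
      refine hyZ (hnd ((Z.subgroupOf L ⊓ (sub τ U hU).ker).map L.subtype) (map_le_iff_le_comap.2 inf_le_left)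
        (fun h => ?_) y hy fun z hz => ⟨⁅(⟨z, mem_sup_left hz⟩ : L), y⁆,
          ⟨hP' (commutator_mem_commutator hz hy), h _ hz⟩, rfl⟩)
      obtain ⟨u, hu, hu0⟩ := (Submodule.ne_bot_iff _).1 h4
      obtain ⟨b, hb, e⟩ := h ha
      obtain rfl : b = a' := Subtype.ext e
      have h6 : τ a' u = u := congrArg Subtype.val (LinearMap.congr_fun hb.2 ⟨u, hu⟩)
      have h7 := (h3 hu ⟨a', hb.1⟩).symm.trans (h6.trans (one_smul F u).symm)
      exact h1 ((hv ⟨a', hb.1⟩).trans (by rw [smul_left_injective F hu0 h7, one_smul]))) inferInstance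
    (fun h hh h1 y hy => hf h (ex.le hh) (fun e => h1 (Subtype.ext e)) y hy)
    (fun h => ha1 (by
      rw [mem_bot.1 ((commutator_eq_bot_iff_le_centralizer.2 ((show P ≤ Z from fun y hy =>
        h (x := ⟨y, mem_sup_left hy⟩) hy).trans (hZ.trans (centralizer_le (le_sup_left : P ≤ L))))).le ha), map_one])) hP1
  rw [relIndex_subgroupOf le_sup_left, fix_cjr_zpowers, Nat.card_zpowers, ← orderOf_coe] at this
  exact ⟨U, _, _, inferInstance, _, blk_one U.subtype (Submodule.injective_subtype _) fun _ => rfl, this⟩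

theorem Blk.eq_zero {V U : Type*} [AddCommGroup V] [Module F V] [AddCommGroup U] [Module F U] {T : End F V}
    {S : End F U} (h : Blk T 1 S) {k : ℕ} (hk : (T - 1) ^ k = 0) : (S - 1) ^ k = 0 := by
  obtain ⟨ι, π, h1, h2, -⟩ := h
  refine LinearMap.ext fun u => ?_
  rw [← h1 (((S - 1) ^ k) u), pow_intw (T := T - 1) (fun u => by simp [h2]), hk]
  simp

theorem quad_core [IsAlgClosed F] [Finite G] {p q : ℕ} [hp : Fact p.Prime] [hq : Fact q.Prime] [CharP F p]
    (hp2 : p ≠ 2) (hpq : p ≠ q) {V : Type v} [AddCommGroup V] [Module F V] [FiniteDimensional F V]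
    {ρ : G →* End F V} (hρ : Function.Injective ρ) {K A B : Subgroup G} [K.Normal] (hK : IsPGroup q K)
    (hB : IsPGroup p B) (hA : A ≤ ⁅B, B⁆) (hn : B ≤ normalizer (A : Set G)) (hc : IsMulCommutative A)
    (q1 : ∀ a ∈ A, ∀ b ∈ A, (ρ a - 1) * (ρ b - 1) = 0)
    (q2 : ∀ a ∈ A, ∀ b ∈ B, (ρ a - 1) * ((ρ b - 1) * (ρ b - 1)) = 0)
    (hm : ∀ X < K, B ≤ normalizer (X : Set G) → X ≤ centralizer (A : Set G)) : K ≤ centralizer (A : Set G) := by
  by_contra hne
  have hAB : A ≤ B := hA.trans (commutator_le_of_le le_rfl le_rfl)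
  have hcop : (Nat.card K).Coprime p := by
    obtain ⟨k, hk⟩ := IsPGroup.iff_card.1 hK
    exact hk ▸ Nat.Coprime.pow_left _ ((Nat.coprime_primes hq.out hp.out).2 hpq.symm)
  have hc0 : ∀ X ≤ K, (Nat.card X : F) ≠ 0 := fun X hX => natCast_ne_zero_of_dvd
    (fun e => hp.out.coprime_iff_not_dvd.1 hcop.symm ((CharP.cast_eq_zero_iff F p _).1 e)) (card_dvd_of_le hX)
  have hk : ρ.ker = ⊥ := (MonoidHom.ker_eq_bot_iff ρ).2 hρ
  have cp := copA_of_p hB hcop
  obtain ⟨-, h2, h3, h4⟩ := min_action hAB le_normalizer_of_normal hn cp hm hne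
  have ho : ∀ b ∈ B, Odd (orderOf b) := fun b hb => by
    obtain ⟨k, hk⟩ := exists_orderOf_eq_pow hB hb
    exact hk ▸ (hp.out.odd_of_ne_two hp2).pow
  have hle : ⁅K, K⁆ ≤ K := commutator_le_of_le le_rfl le_rfl
  have hK0 : K ≠ ⊥ := fun e => hne (e ▸ bot_le)
  have hlt := commutator_lt_of_p hK hK le_normalizer hK0
  by_cases h6 : ⁅K, K⁆ = ⊥
  · haveI := Fintype.ofFinite K
    have := comm_le_ker_of_wt (ρ := ρ) (B := K) (P := A) (hc0 K le_rfl) (h6.le.trans bot_le) fun χ hχ a ha =>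
      by_contra fun h => hχ (eq_bot_iff.2 fun w hw => by
        rw [← pr_sq (hc0 K le_rfl) (ho a (hAB ha)) h hw, q1 a ha a ha]; simp)
    rw [commutator_comm, h2, hk] at this
    exact hK0 (le_bot_iff.1 this)
  haveI := Fintype.ofFinite (⁅K, K⁆ : Subgroup G)
  rw [H9.centralizer_sup, le_inf_iff] at h3
  have h7 : ⁅K, K⁆ ≤ centralizer (B : Set G) := by
    have := comm_le_ker_of_wt (ρ := ρ) (B := ⁅K, K⁆) (P := B) (hc0 _ hle) ((commutator_eq_bot_iff_le_centralizer.2
      (h3.1.trans (centralizer_le hle))).le.trans bot_le) fun χ hχ b hb => by_contra fun h => h (by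
        have h5 : ⁅K, A⁆ ≤ ptw ρ (wt ρ χ) := comm_le_ptw (fun a ha w hw => by
          have := congrArg (pr ρ χ) (LinearMap.congr_fun (q2 a ha b hb) w)
          rw [End.mul_apply, LinearMap.sub_apply, map_sub, ← smul_wt_of_centralizer (le_centralizer_iff.1 h3.2 ha) χ,
            ← rho_pr, smul_wt_of_centralizer (le_centralizer_iff.1 h3.2 ha) χ, End.one_apply,
            pr_sq (hc0 _ hle) (ho b hb) h hw] at this
          exact sub_eq_zero.1 (by simpa using this))
          fun k hk w hw => smul_wt_of_centralizer (le_centralizer_iff.1 h3.1 hk) χ ▸ rho_mem_wt hw k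
        obtain ⟨w, hw, w0⟩ := (Submodule.ne_bot_iff _).1 hχ
        rw [show χ = 1 from Wt.ext fun z => Units.ext (smul_left_injective F w0 ((hw z).symm.trans
          ((h5 (h2.ge (hle z.2)) w hw).trans (one_smul F w).symm))), Wt.smul_one])
    rwa [hk, le_bot_iff, commutator_comm, commutator_eq_bot_iff_le_centralizer] at this
  obtain ⟨a, ha, ha'⟩ : ∃ a ∈ A, ¬ K ≤ centralizer {a} := by
    by_contra h; push Not at h
    exact hne fun k hk a ha => (mem_centralizer_singleton_iff.1 (h a ha hk)).symm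
  have hap : ∀ g, (ρ g - 1) * (ρ g - 1) = 0 → g ^ p = 1 := fun g h => hρ (by
    have := sub_one_pow_char (p := p) (ρ g) 1
    rw [pow_one, show (ρ g - 1) ^ p = (ρ g - 1) ^ (p - 2) * ((ρ g - 1) * (ρ g - 1)) by
      rw [← sq, ← pow_add, Nat.sub_add_cancel hp.out.two_le], h, mul_zero] at this
    rw [map_pow, map_one, sub_eq_zero.1 this.symm])
  have hza := zpowers_le.2 ha
  have h8 : K ⊓ centralizer {a} ≤ ⁅K, K⁆ := by
    have n1 : A ≤ normalizer ((K ⊓ centralizer {a} : Subgroup G) : Set G) := normalizer_inf le_normalizer_of_normal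
      ((((L.le_centralizer_of_comm hc).trans (centralizer_le (Set.singleton_subset_iff.2 ha)))).trans le_normalizer)
    rw [← cop_commutator_sup n1 (cp.mono hAB inf_le_left)]
    refine sup_le ?_ ((inf_le_inf_right _ inf_le_left).trans (h4 _ (lt_of_le_of_ne inf_le_left
      fun e => hne (inf_eq_left.1 e)) (normalizer_inf le_normalizer_of_normal (normalizer_centralizer hn))))
    have e1 : ⁅K ⊓ centralizer {a}, A⁆ ≤ ptw ρ (LinearMap.range (ρ a - 1)) := comm_le_ptw
      (fun b hb => mem_ptw_range.2 (q1 b hb a ha)) fun k hk => range_inv (mem_centralizer_singleton_iff.1 hk.2)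
    have e2 : ⁅K, zpowers a⁆ ≤ centralizer ((K ⊓ centralizer {a} : Subgroup G) : Set G) :=
      commutator_eq_bot_iff_le_centralizer.1 (commutator_commutator_eq_bot_of_rotate (by
        rw [(commutator_eq_bot_iff_le_centralizer (H₁ := zpowers a)).2 (zpowers_le_centralizer_iff.2 inf_le_right),
          commutator_bot_left]) (commutator_eq_bot_iff_le_centralizer.2 ((commutator_mono inf_le_left le_rfl).trans
            (h3.2.trans (centralizer_le hza)))))
    have e3 : ∀ e ∈ ⁅K ⊓ centralizer {a}, A⁆, ⁅K, zpowers a⁆ ≤ ptw ρ (LinearMap.range (ρ e - 1)) := fun e he => by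
      have he' := commutator_le_left' n1 he
      rw [← cop_ccomm le_normalizer_of_normal (cp.mono (hza.trans hAB) le_rfl)]
      exact comm_le_ptw (zpowers_le.2 (ptw_symm (mem_centralizer_singleton_iff.1 he'.2) (e1 he)))
        fun k hk => range_inv (e2 hk e he').symm
    obtain ⟨z, hz, z1⟩ := (bot_or_exists_ne_one (⁅K, zpowers a⁆ ⊓ ⁅K, K⁆)).resolve_left fun e => ha' (by
      have e4 : ⁅K, zpowers a⁆ ≤ K ⊓ centralizer (K : Set G) := le_inf (commutator_le_left _ _)
        (commutator_eq_bot_iff_le_centralizer.1 (eq_bot_iff.2 (e ▸ le_inf (commutator_le_left'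
          (le_normalizer_commutator_left _ _)) (commutator_mono (commutator_le_left _ _) le_rfl))))
      have e5 := h4 (K ⊓ centralizer K) (lt_of_le_of_ne inf_le_left fun e => h6
        (commutator_eq_bot_iff_le_centralizer.2 (inf_eq_left.1 e))) le_normalizer_of_normal
      exact zpowers_le_centralizer_iff.1 (le_centralizer_iff.1 (commutator_eq_bot_iff_le_centralizer.1
        (eq_bot_iff.2 (e ▸ le_inf le_rfl (e4.trans e5))))))
    refine le_trans (fun e he => (⟨(commutator_le_left' n1 he).1, ptw_symm (h3.1 hz.2 e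
      (commutator_le_left' n1 he).1).symm (e3 e he hz.1)⟩ : e ∈ K ⊓ ptw ρ (LinearMap.range (ρ z - 1))))
      (h4 _ (lt_of_le_of_ne inf_le_left fun e => z1 ?_) (normalizer_inf le_normalizer_of_normal fun b hb =>
        mem_normalizer_of_cj_le (H := ptw ρ _) fun g hg w hw => ?_))
    · exact mem_bot.1 ((copA_of_p (isPGroup_zpowers_of_pow (k := 1) (by
        rw [pow_one]; exact hap z (mem_ptw_range.1 (inf_eq_left.1 e (hle hz.2))))) hcop).inf_eq_bot.le
          ⟨mem_zpowers z, hle hz.2⟩)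
    · have := mem_cj.1 hg _ (range_inv (h7 hz.2 _ (inv_mem hb)) w hw)
      rw [rho_mul, rho_mul, rho_rho_inv] at this
      rw [← rho_rho_inv (ρ := ρ) b (ρ g w), this, rho_rho_inv]
  have a1 : orderOf a = p := orderOf_eq_prime (hap a (q1 a ha a ha))
    fun e => ha' fun x _ => mem_centralizer_singleton_iff.2 (by simp [e])
  have a2 : (Nat.card (zpowers a)).Prime := by rw [Nat.card_zpowers, a1]; exact hp.out
  obtain ⟨z, hz, z1⟩ := (bot_or_exists_ne_one _).resolve_left h6
  obtain ⟨U, _, _, _, S, s1, s2, s3⟩ := extra_w_amb ρ (x := a) (le_normalizer_of_normal (K := ⊤) trivial) hle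
    (by rw [H9.centralizer_sup]; exact le_inf h3.1 (h3.2.trans (centralizer_le hza))) le_rfl hz
    (fun e => z1 (hρ (e.trans ρ.map_one.symm))) (nondeg_of_min le_normalizer_of_normal
      (by rw [H9.centralizer_sup]; exact le_inf h3.1 h7) h4)
    (fun h hh h1 x hx => mem_of_commutator_mem a2 le_normalizer_of_normal le_normalizer_of_normal
      (cp.mono (hza.trans hAB) hle).cop hle (fun y hy => h8 ⟨hy.1, mem_centralizer_singleton_iff.2
        (hy.2 a (mem_zpowers a)).symm⟩) hh h1 hx) (hc0 K le_rfl)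
  have s4 : ∀ j, (S - 1) ^ (j + 2) = 0 := fun j => by
    rw [pow_add, s1.eq_zero ((sq _).trans (q1 a ha a ha)), mul_zero]
  have s5 : 1 < finrank F U := by
    have : ⁅K, K⁆.relIndex K ≠ 0 := index_ne_zero_of_finite
    have : ⁅K, K⁆.relIndex K ≠ 1 := fun e => hlt.not_ge (relIndex_eq_one.1 e)
    by_contra h
    rcases Nat.le_one_iff_eq_zero_or_eq_one.1 (not_lt.1 h) with e | e <;> rw [e] at s2 <;> omega
  have p3 := hp.out.two_le
  rw [a1] at s3
  obtain ⟨s6, s7⟩ := crit (T := S - 1) (by rwa [cen_sub_one]) s5 (by rw [show p - 1 = p - 3 + 2 by omega, s4])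
  obtain rfl : p = 3 := by_contra fun e => s7 (by rw [show p - 2 = p - 4 + 2 by omega, s4])
  rw [show finrank F U = 2 by omega, ← card_map_mk2] at s2
  haveI := Normal.map ‹K.Normal› _ (QuotientGroup.mk'_surjective ⁅K, K⁆)
  let φ := (MulAut.conjNormal (H := K.map (QuotientGroup.mk' ⁅K, K⁆))).comp (QuotientGroup.mk' ⁅K, K⁆)
  haveI : IsCyclic (B.map φ) := by
    obtain ⟨i, hi⟩ := IsPGroup.iff_card.1 (hB.map φ)
    have := (card_subgroup_dvd_card (B.map φ)).trans (card_dvd_of_injective (MulAut.toPerm _)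
      fun a b h => MulEquiv.toEquiv_injective h)
    rw [Nat.card_perm, ← s2, hi] at this
    exact isCyclic_of_card_dvd_prime (p := 3) (hi ▸ (Nat.Coprime.pow_left i (by norm_num : Nat.Coprime 3 8)).dvd_of_dvd_mul_left
      this)
  have e1 : ⁅B, B⁆ ≤ φ.ker := by
    rw [← Subgroup.map_eq_bot_iff, map_commutator]; exact comm_iff_commutator.1 inferInstance
  refine hlt.not_ge (h2.ge.trans (commutator_le.2 fun k hk b hb => (QuotientGroup.eq_one_iff _).1 ?_))
  have := congrArg Subtype.val (DFunLike.congr_fun (e1 (hA hb)) ⟨_, mem_map_of_mem _ hk⟩)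
  change QuotientGroup.mk' _ _ = 1
  rw [map_commutatorElement, commutatorElement_eq_one_iff_mul_comm]
  exact (mul_inv_eq_iff_eq_mul.1 this).symm

theorem quad_lin {F : Type*} [Field F] [Finite G] {p : ℕ} [hp : Fact p.Prime] [CharP F p] (hp2 : p ≠ 2)
    {V : Type*} [AddCommGroup V] [Module F V] [FiniteDimensional F V] (h : PS p G) (hO : pCore p G = ⊥)
    {ρ : G →* End F V} (hρ : Function.Injective ρ) {A B : Subgroup G}
    (hB : IsPGroup p B) (hA : A ≤ ⁅B, B⁆) (hn : B ≤ normalizer (A : Set G)) (hc : IsMulCommutative A)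
    (q1 : ∀ a ∈ A, ∀ b ∈ A, (ρ a - 1) * (ρ b - 1) = 0)
    (q2 : ∀ a ∈ A, ∀ b ∈ B, (ρ a - 1) * ((ρ b - 1) * (ρ b - 1)) = 0) : A = ⊥ := by
  by_contra h0
  have hAB : A ≤ B := hA.trans (commutator_le_of_le le_rfl le_rfl)
  obtain ⟨q, hq, hpq, K, -, k⟩ := h.exists_q hO hB hAB h0
  haveI := Fact.mk hq
  obtain ⟨K, ⟨k1, k2, k3⟩, k4⟩ := WellFounded.has_min (wellFounded_lt (α := Subgroup G))
    {K | IsPGroup q K ∧ B ≤ normalizer (K : Set G) ∧ ¬ K ≤ centralizer (A : Set G)} ⟨K, k⟩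
  let E := AlgebraicClosure F
  let β := Module.End.baseChangeHom F E V
  have hβ : ∀ f, β f = 0 → f = 0 := fun f h => by
    have := finrank_range_baseChange (F := E) f
    rw [show f.baseChange E = 0 from h, LinearMap.range_zero, finrank_bot] at this
    exact LinearMap.range_eq_bot.1 (Submodule.finrank_eq_zero.1 this.symm)
  haveI := normal_subgroupOf' (V := K) (sup_le le_normalizer k2)
  have hA' : A ≤ K ⊔ B := hAB.trans le_sup_right
  have := quad_core hp2 hpq (ρ := (β.toMonoidHom.comp ρ).comp (K ⊔ B).subtype) (K := K.subgroupOf _)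
    (A := A.subgroupOf _) (B := B.subgroupOf _)
    (fun a b e => Subtype.ext (hρ (sub_eq_zero.1 (hβ _ (by rw [map_sub]; exact sub_eq_zero.2 e)))))
    (k1.of_equiv (subgroupOfEquivOfLe le_sup_left).symm) (hB.of_equiv (subgroupOfEquivOfLe le_sup_right).symm)
    (H9.subgroupOf_commutator (M := K ⊔ B) le_sup_right le_sup_right ▸ comap_mono hA) (subgroupOf_le_normalizer hn)
    inferInstance (fun a ha b hb => by simpa using congrArg β (q1 a ha b hb))
    (fun a ha b hb => by simpa using congrArg β (q2 a ha b hb)) fun X hX hn => by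
      rw [← subgroupOf_centralizer hA']
      refine map_le_iff_le_comap.1 ?_
      have h1 : X.map (K ⊔ B).subtype < K := lt_of_le_of_ne (map_le_iff_le_comap.2 hX.le) fun e => hX.ne (by
        rw [← subgroupOf_map_subtype' _ X, e])
      by_contra h2
      refine k4 _ ⟨k1.to_le h1.le, ?_, h2⟩ h1
      exact (map_subgroupOf_eq_of_le (le_sup_right : B ≤ K ⊔ B)).ge.trans
        ((map_mono hn).trans (Subgroup.le_normalizer_map _))
  rw [← subgroupOf_centralizer hA'] at this
  exact k3 fun x hx => this (x := ⟨x, mem_sup_left hx⟩) hx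

theorem Red.derived {p : ℕ} [hp : Fact p.Prime] (hp2 : p ≠ 2) {Γ : Type u} [Group Γ] [Finite Γ] (h : Red p Γ)
    {B : Subgroup Γ} (hB : IsPGroup p B) (hn : pCore p Γ ≤ normalizer (B : Set Γ)) (hc : ⁅⁅B, B⁆, ⁅B, B⁆⁆ = ⊥) :
    ⁅B, B⁆ ≤ pCore p Γ := by
  obtain ⟨M⟩ := h.mod
  have k1 : ∀ {X : Subgroup Γ}, pCore p Γ ≤ normalizer (X : Set Γ) → ∀ b ∈ X, ∀ v, M.e ((M.σ b - 1) v) ∈ X :=
    fun h b hb v => M.e_comm b v ▸ commutatorElement_mem_left hb (h (M.e_mem v))
  have k2 : ∀ a ∈ ⁅B, B⁆, ∀ v, M.e v ∈ ⁅B, B⁆ → (M.σ a - 1) v = 0 := fun a ha v hv =>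
    M.e_eq_one.1 (M.e_comm a v ▸ mem_bot.1 (hc.le (commutator_mem_commutator ha hv)))
  rw [← QuotientGroup.ker_mk' (pCore p Γ), ← Subgroup.map_eq_bot_iff]
  refine quad_lin hp2 (h.ps.quot _) pCore_quotient_pCore M.inj (hB.map (QuotientGroup.mk' _)) (map_commutator _ _ _).le
    ((map_mono (normalizer_commutator le_normalizer le_normalizer)).trans (Subgroup.le_normalizer_map _))
    (comm_iff_commutator.2 (by rw [← map_commutator, hc, Subgroup.map_bot])) ?_ ?_
  · rintro _ ⟨a, ha, rfl⟩ _ ⟨b, hb, rfl⟩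
    exact LinearMap.ext fun v => k2 a ha _ (k1 (normalizer_commutator hn hn) b hb v)
  · rintro _ ⟨a, ha, rfl⟩ _ ⟨b, hb, rfl⟩
    exact LinearMap.ext fun v => k2 a ha _ (by
      have := commutator_mem_commutator hb (k1 hn b hb v)
      rwa [← M.e_comm] at this)

theorem dser_le (H : Subgroup G) : ∀ n, dser H n ≤ H
  | 0 => le_rfl
  | n + 1 => commutator_le_of_le (dser_le H n) (dser_le H n)

theorem le_normalizer_dser (H : Subgroup G) : ∀ n, H ≤ normalizer (dser H n : Set G)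
  | 0 => le_normalizer
  | n + 1 => normalizer_commutator (le_normalizer_dser H n) (le_normalizer_dser H n)

theorem pl_of_dser {p : ℕ} [hp : Fact p.Prime] (hp2 : p ≠ 2) (d : ℕ) : ∀ (G : Type u) [Group G] [Finite G], PS p G →
    ∀ S : Sylow p G, dser (S : Subgroup G) d = ⊥ → PLengthLE p d G := by
  induction d with
  | zero => exact fun G _ _ h S h1 => pl_of_lcs 0 G h S (isSylowIn_top S) h1
  | succ d ih =>
    intro G _ _ h S h1
    refine pl_succ.2 (ih _ (h.quot _) (S.mapSurjective (QuotientGroup.mk'_surjective _)) ?_)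
    rw [Sylow.coe_mapSurjective, ← map_dser, Subgroup.map_eq_bot_iff, QuotientGroup.ker_mk']
    rcases d with _ | d
    · exact h.le_Opp (isSylowIn_top S) ((commutator_eq_bot_iff_le_centralizer.1 h1).trans (centralizer_le inf_le_left))
    obtain ⟨Γ, _, _, f, hf, hR, e⟩ := h.exists_red
    rw [← e, ← map_le_iff_le_comap, map_dser]
    exact hR.derived hp2 ((S.isPGroup'.map f).to_le (dser_le _ d))
      ((pCore_le_sylow (S.mapSurjective hf)).trans (le_normalizer_dser _ d))
      (by have := congrArg (map f) h1; rwa [map_dser, Subgroup.map_bot] at this)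

end H1
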