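import Mathlib

/-! H1.Kr1: `ZMod n`-graded Lie rings with trivial zero component (Kreknin, Kreknin-Kostrikin, Higman). -/

namespace H1.Kr

open scoped Pointwise

variable {M : Type*} [AddCommGroup M] {n : ℕ} (b : M →+ M →+ M)

/-- graded bracket of two families -/
def br (A B : ZMod n → AddSubgroup M) (k : ZMod n) : AddSubgroup M :=
  AddSubgroup.closure {m | ∃ i j, i + j = k ∧ ∃ x ∈ A i, ∃ y ∈ B j, m = b x y}

/-- graded derived series -/
def der (A : ZMod n → AddSubgroup M) : ℕ → ZMod n → AddSubgroup M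
  | 0 => A
  | m + 1 => br b (der A m) (der A m)

/-- graded lower central series -/
def lcs (A : ZMod n → AddSubgroup M) : ℕ → ZMod n → AddSubgroup M
  | 0 => A
  | m + 1 => br b (lcs A m) A

/-- iterated bracket -/
def fd : List (ZMod n × M) → M →+ M
  | [] => AddMonoidHom.id M
  | x :: xs => (fd xs).comp (b.flip x.2)

variable {b} {A B C D E : ZMod n → AddSubgroup M}

theorem br_le : br b A B ≤ C ↔ ∀ i j, ∀ x ∈ A i, ∀ y ∈ B j, b x y ∈ C (i + j) :=
  ⟨fun h i j x hx y hy => h _ (AddSubgroup.subset_closure ⟨i, j, rfl, x, hx, y, hy, rfl⟩),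
    fun h _ => (AddSubgroup.closure_le _).2 (by rintro _ ⟨i, j, rfl, x, hx, y, hy, rfl⟩; exact h i j x hx y hy)⟩

theorem mem_br {i j : ZMod n} {x y : M} (hx : x ∈ A i) (hy : y ∈ B j) : b x y ∈ br b A B (i + j) :=
  br_le.1 le_rfl i j x hx y hy

theorem br_mono (h : A ≤ C) (h' : B ≤ D) : br b A B ≤ br b C D :=
  br_le.2 fun i j _ hx _ hy => mem_br (h i hx) (h' j hy)

theorem br_br_le (h : ∀ i j k, ∀ x ∈ A i, ∀ y ∈ B j, ∀ z ∈ C k, b (b x y) z ∈ E (i + j + k)) :
    br b (br b A B) C ≤ E := br_le.2 fun _ k _ hu z hz => (AddSubgroup.closure_le ((E _).comap (b.flip z))).2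
  (by rintro _ ⟨i, j, rfl, x, hx, y, hy, rfl⟩; exact h i j k x hx y hy z hz) hu

theorem der_le (h : br b A A ≤ A) : ∀ m, der b A m ≤ A
  | 0 => le_rfl
  | m + 1 => (br_mono (der_le h m) (der_le h m)).trans h

theorem der_closed (h : br b A A ≤ A) : ∀ m, br b (der b A m) (der b A m) ≤ der b A m
  | 0 => h
  | m + 1 => br_mono (der_closed h m) (der_closed h m)

theorem der_der (m : ℕ) : ∀ l, der b (der b A m) l = der b A (m + l)
  | 0 => rfl
  | l + 1 => by rw [der, der_der m l]; rfl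

theorem lcs_le (h : br b A A ≤ A) : ∀ m, lcs b A m ≤ A
  | 0 => le_rfl
  | m + 1 => (br_mono (lcs_le h m) le_rfl).trans h

theorem sup_br (h : br b A B ≤ C) {v x : M} (hv : v ∈ ⨆ i, A i) (hx : x ∈ ⨆ j, B j) : b v x ∈ ⨆ k, C k :=
  (iSup_le fun i u hu => (iSup_le fun j y hy => AddSubgroup.mem_iSup_of_mem _ (br_le.1 h i j u hu y hy) :
    ⨆ j, B j ≤ (⨆ k, C k).comap (b u)) hx : ⨆ i, A i ≤ (⨆ k, C k).comap (b.flip x)) hv

theorem fd_append (xs ys : List (ZMod n × M)) (v : M) : fd b (xs ++ ys) v = fd b ys (fd b xs v) := by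
  induction xs generalizing v with
  | nil => rfl
  | cons x xs ih => exact ih _

theorem fd_mem (h : br b C A ≤ C) {xs : List (ZMod n × M)} (hx : ∀ x ∈ xs, x.2 ∈ A x.1) :
    ∀ v ∈ ⨆ i, C i, fd b xs v ∈ ⨆ i, C i := by
  induction xs with
  | nil => exact fun _ h => h
  | cons x xs ih =>
    exact fun v hv => ih (fun y hy => hx y (List.mem_cons_of_mem _ hy)) _
      (sup_br h hv (AddSubgroup.mem_iSup_of_mem _ (hx x List.mem_cons_self)))

theorem fd_deg (h : br b A A ≤ A) {xs : List (ZMod n × M)} (hx : ∀ x ∈ xs, x.2 ∈ A x.1) :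
    ∀ i, ∀ v ∈ A i, fd b xs v ∈ A (i + (xs.map Prod.fst).sum) := by
  induction xs with
  | nil => exact fun i v h => by simpa [fd] using h
  | cons x xs ih =>
    intro i v hv
    rw [List.map_cons, List.sum_cons, ← add_assoc]
    exact ih (fun y hy => hx y (List.mem_cons_of_mem _ hy)) _ _ (br_le.1 h _ _ v hv _ (hx x List.mem_cons_self))

theorem exists_split {p : ℕ} (hp : p.Prime) (xs : List (ZMod p × M)) (h : ∀ x ∈ xs, x.1 ≠ 0) :
    ∃ S : Finset (ZMod p), min p (xs.length + 1) ≤ S.card ∧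
      ∀ t ∈ S, ∃ l₁ l₂, xs.Perm (l₁ ++ l₂) ∧ (l₁.map Prod.fst).sum = t := by
  induction xs with
  | nil => exact ⟨{0}, by simp, fun t ht => ⟨[], [], .refl _, (Finset.mem_singleton.1 ht).symm⟩⟩
  | cons x xs ih =>
    obtain ⟨S, h1, h2⟩ := ih fun y hy => h y (List.mem_cons_of_mem _ hy)
    have := hp.pos
    refine ⟨S + {0, x.1}, le_trans ?_ (ZMod.cauchy_davenport hp (Finset.card_pos.1 (by omega))
      (Finset.insert_nonempty _ _)), fun t ht => ?_⟩
    · rw [Finset.card_pair (h x List.mem_cons_self).symm, List.length_cons]; omega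
    · obtain ⟨s, hs, d, hd, rfl⟩ := Finset.mem_add.1 ht
      obtain ⟨l₁, l₂, h3, rfl⟩ := h2 s hs
      rcases Finset.mem_insert.1 hd with rfl | hd
      · exact ⟨l₁, x :: l₂, (h3.cons x).trans List.perm_middle.symm, (add_zero _).symm⟩
      · exact ⟨x :: l₁, l₂, h3.cons x, by rw [Finset.mem_singleton.1 hd, List.map_cons, List.sum_cons, add_comm]⟩

theorem down {P : AddSubgroup M} (r : ℕ) : ∀ a, (∀ v ∈ ⨆ i, lcs b A a i, ∀ xs : List (ZMod n × M), xs.length = r →
    (∀ x ∈ xs, x.2 ∈ A x.1) → fd b xs v ∈ P) → ⨆ i, lcs b A (a + r) i ≤ P := by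
  induction r with
  | zero => exact fun a h v hv => h v hv [] rfl (by simp)
  | succ r ih =>
    intro a h
    rw [← add_assoc, add_right_comm]
    refine ih (a + 1) fun v hv xs h1 h2 => ?_
    have : br b (lcs b A a) A ≤ fun _ => P.comap (fd b xs) := br_le.2 fun i j u hu y hy =>
      h u (AddSubgroup.mem_iSup_of_mem _ hu) ((j, y) :: xs) (by simp [h1])
        (by simpa using ⟨hy, fun a b h => h2 (a, b) h⟩)
    exact iSup_le this hv

variable (hL : ∀ a y z, b (b a y) z = b (b a z) y + b a (b y z))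
include hL

theorem kreknin_aux [NeZero n] (k : ℕ) : ∀ A : ZMod n → AddSubgroup M, br b A A ≤ A → A 0 = ⊥ →
    ∀ S, br b S S ≤ S → (∀ j, k < j.val → A j ≤ S j) → der b A (2 ^ k - 1) ≤ S := by
  induction k with
  | zero =>
    intro A _ h0 S _ h j
    by_cases e : j = 0
    · rw [e]; exact h0.le.trans bot_le
    · exact h j (Nat.pos_of_ne_zero fun h => e ((ZMod.val_eq_zero j).1 h))
  | succ k ih =>
    intro A hA h0 S hS h
    rw [show 2 ^ (k + 1) - 1 = 2 ^ k - 1 + 1 + (2 ^ k - 1) by have := Nat.two_pow_pos k; omega, ← der_der]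
    refine ih _ (der_closed hA _) (le_bot_iff.1 (h0 ▸ der_le hA _ 0)) S hS fun j hj => ?_
    rcases (Nat.succ_le_of_lt hj).lt_or_eq with e | e
    · exact (der_le hA _ j).trans (h j e)
    let X : ZMod n → AddSubgroup M := fun l => if k < l.val then A l else ⊥
    have h1 := ih A hA h0 (fun l => A l ⊓ ⨅ i, ⨅ a ∈ A i, (br b A X (i + l)).comap (b a)) (br_le.2 fun l m y hy z hz =>
      by
        simp only [AddSubgroup.mem_inf, AddSubgroup.mem_iInf, AddSubgroup.mem_comap] at hy hz ⊢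
        refine ⟨br_le.1 hA _ _ y hy.1 z hz.1, fun i a ha => ?_⟩
        rw [← sub_eq_iff_eq_add'.2 (hL a y z)]
        exact sub_mem (add_assoc i l m ▸ hz.2 _ _ (br_le.1 hA _ _ a ha y hy.1))
          (add_assoc i l m ▸ add_right_comm i m l ▸ hy.2 _ _ (br_le.1 hA _ _ a ha z hz.1))) fun l hl =>
      le_inf le_rfl (le_iInf fun i => le_iInf₂ fun a ha y hy => mem_br ha (by simpa [X, hl] using hy))
    refine ((br_le (C := br b A X)).2 (fun i l a ha y hy => ?_) j).trans ((AddSubgroup.closure_le _).2 ?_)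
    · have := h1 l hy
      simp only [AddSubgroup.mem_inf, AddSubgroup.mem_iInf, AddSubgroup.mem_comap] at this
      exact this.2 i a (h1 i ha).1
    rintro _ ⟨i, l, rfl, a, ha, y, hy, rfl⟩
    by_cases hl : k < l.val
    swap
    · rw [show y = 0 by simpa [X, hl] using hy, map_zero]; exact zero_mem _
    by_cases e' : i = 0
    · rw [show a = 0 by simpa [e', h0] using ha, map_zero]; exact zero_mem _
    have i0 : i.val ≠ 0 := fun h => e' ((ZMod.val_eq_zero i).1 h)
    have h2 : n ≤ i.val + l.val := not_lt.1 fun h => by rw [ZMod.val_add_of_lt h] at e; omega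
    have h3 := ZMod.val_add_val_of_le h2
    have := i.val_lt
    have := l.val_lt
    exact br_le.1 hS _ _ a (h i (by omega) ha) y (h l (by omega) (by simpa [X, hl] using hy))

theorem kreknin [NeZero n] (hA : br b A A ≤ A) (h0 : A 0 = ⊥) : der b A (2 ^ (n - 1) - 1) = ⊥ :=
  le_bot_iff.1 (kreknin_aux hL _ A hA h0 ⊥ (br_le.2 fun _ _ x hx y _ => by
    rw [show x = 0 from hx, map_zero]; exact zero_mem _) fun j hj => by have := j.val_lt; omega)

theorem fd_perm (h1 : br b C A ≤ C) (h2 : br b D A ≤ D) (h3 : br b C (br b A A) ≤ D) {xs ys : List (ZMod n × M)}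
    (h : xs.Perm ys) : (∀ x ∈ xs, x.2 ∈ A x.1) → ∀ v ∈ ⨆ i, C i, fd b xs v - fd b ys v ∈ ⨆ i, D i := by
  induction h with
  | nil => exact fun _ v _ => by simp
  | cons x _ ih =>
    exact fun hx v hv => ih (fun y hy => hx y (List.mem_cons_of_mem _ hy)) _
      (sup_br h1 hv (AddSubgroup.mem_iSup_of_mem _ (hx x List.mem_cons_self)))
  | swap x y l =>
    intro hx v hv
    change fd b l (b (b v y.2) x.2) - fd b l (b (b v x.2) y.2) ∈ _
    rw [← map_sub, hL, add_sub_cancel_left]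
    exact fd_mem h2 (fun z hz => hx z (by simp [hz])) _ (sup_br h3 hv (AddSubgroup.mem_iSup_of_mem _
      (mem_br (hx y (by simp)) (hx x (by simp)))))
  | trans h _ ih1 ih2 =>
    intro hx v hv
    simpa using add_mem (ih1 hx v hv) (ih2 (fun y hy => hx y (h.mem_iff.2 hy)) v hv)

theorem lcs_closed (h : br b B A ≤ B) : ∀ m, br b (lcs b B m) A ≤ lcs b B m
  | 0 => h
  | m + 1 => br_br_le fun i j k x hx y hy z hz => by
    rw [hL]
    exact add_mem (add_right_comm i k j ▸ mem_br (br_le.1 (lcs_closed h m) _ _ x hx z hz) hy)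
      ((add_assoc i j k).symm ▸ mem_br hx (br_le.1 h _ _ y hy z hz))

theorem kostrikin {p : ℕ} (hp : p.Prime) (s : ℕ) : ∀ A : ZMod p → AddSubgroup M, br b A A ≤ A → A 0 = ⊥ →
    der b A s = ⊥ → ⨆ i, lcs b A (∑ i ∈ Finset.range s, (p - 1) ^ i) i ≤ ⊥ := by
  haveI := Fact.mk hp
  induction s with
  | zero => exact fun A _ _ h => iSup_le h.le
  | succ s ih =>
    intro A hA h0 h
    have h1 : br b (br b A A) A ≤ br b A A := br_mono hA le_rfl
    have h2 := ih (br b A A) (br_mono hA hA) (le_bot_iff.1 (h0 ▸ hA 0)) ((der_der 1 s).trans (add_comm 1 s ▸ h))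
    suffices ∀ m, ⨆ i, lcs b A (1 + (p - 1) * m) i ≤ ⨆ i, lcs b (br b A A) m i by
      rw [Finset.sum_range_succ', pow_zero, add_comm]
      simp only [pow_succ', ← Finset.mul_sum]
      exact (this _).trans h2
    intro m
    induction m with
    | zero => exact le_rfl
    | succ m ihm =>
      rw [mul_add_one, ← add_assoc]
      refine down _ _ fun v hv xs x1 x2 => ?_
      suffices ⨆ i, lcs b (br b A A) m i ≤ (⨆ i, lcs b (br b A A) (m + 1) i).comap (fd b xs) from this (ihm hv)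
      refine iSup_le fun i u hu => AddSubgroup.mem_comap.2 ?_
      by_cases hz : ∀ x ∈ xs, x.1 ≠ 0
      · obtain ⟨S, s1, s2⟩ := exists_split hp xs hz
        obtain ⟨l₁, l₂, s3, s4⟩ := s2 (-i) (Finset.eq_univ_of_card S (le_antisymm (Finset.card_le_univ S) (by
          rw [ZMod.card]; have := hp.pos; omega)) ▸ Finset.mem_univ _)
        have := fd_perm hL (lcs_closed hL h1 m) (lcs_closed hL h1 (m + 1)) le_rfl s3 x2 u
          (AddSubgroup.mem_iSup_of_mem _ hu)
        have e := fd_deg hA (fun x hx => x2 x (s3.mem_iff.2 (List.mem_append_left l₂ hx))) i u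
          (hA i (lcs_le (br_mono hA hA) m i hu))
        rw [s4, add_neg_cancel, h0, AddSubgroup.mem_bot] at e
        rwa [fd_append, e, map_zero, sub_zero] at this
      · push Not at hz
        obtain ⟨x, hx, e⟩ := hz
        obtain ⟨l₁, l₂, rfl⟩ := List.append_of_mem hx
        have := x2 x hx
        rw [e, h0, AddSubgroup.mem_bot] at this
        rw [fd_append]
        change fd b l₂ (b _ x.2) ∈ _
        rw [this, map_zero, map_zero]
        exact zero_mem _

theorem neumann {A : ZMod 3 → AddSubgroup M} (hA : br b A A ≤ A) (h0 : A 0 = ⊥) : ⨆ i, lcs b A 2 i ≤ ⊥ :=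
  iSup_le (br_br_le (E := ⊥) fun i j k x hx y hy z hz => by
    have h : ∀ {i u}, u ∈ A i → i = 0 → u = 0 := fun hu e => by rwa [e, h0] at hu
    have m := br_le.1 hA
    change _ = 0
    rcases (by decide : ∀ i j k : ZMod 3, i = 0 ∨ j = 0 ∨ k = 0 ∨ i + j = 0 ∨ i + j + k = 0 ∨ (i + k = 0 ∧ j + k = 0))
      i j k with e | e | e | e | e | e
    · simp [h hx e]
    · simp [h hy e]
    · simp [h hz e]
    · simp [h (m _ _ x hx y hy) e]
    · exact h (m _ _ _ (m _ _ x hx y hy) z hz) e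
    · rw [hL, h (m _ _ x hx z hz) e.1, h (m _ _ y hy z hz) e.2]; simp)

end H1.Kr
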