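import Cfsg.Agent.H1.Kr1
import Cfsg.Agent.H1.HP

/-! H1.Kr2: the Lie ring of the lower central series with extended scalars; Higman's theorem with the
Kreknin-Kostrikin bound. -/

namespace H1.Kr

open Finsupp Subgroup
open scoped commutatorElement

variable (R : Type) [CommRing R] (G : Type*) [Group G]

/-- lower central series -/
abbrev γ (i : ℕ) : Subgroup G := (⊤ : Subgroup G).lowerCentralSeries i

/-- generators -/
abbrev Gen := {x : ℕ × G // x.2 ∈ γ G x.1}

/-- relations -/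
def rel : Set (Gen G →₀ R) := {f | (∃ i g h, ∃ (hg : g ∈ γ G i) (hh : h ∈ γ G i),
  f = single ⟨(i, g * h), mul_mem hg hh⟩ 1 - single ⟨(i, g), hg⟩ 1 - single ⟨(i, h), hh⟩ 1) ∨
    ∃ x : Gen G, x.1.2 ∈ γ G (x.1.1 + 1) ∧ f = single x 1}

/-- the associated Lie ring, as a module -/
abbrev Lie := (Gen G →₀ R) ⧸ Submodule.span R (rel R G)

variable {G}

open Classical in
/-- the class of a group element -/
noncomputable def E (i : ℕ) (g : G) : Lie R G :=
  if h : g ∈ γ G i then Submodule.Quotient.mk (single ⟨(i, g), h⟩ 1) else 0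

/-- additive on `γ i`, zero on `γ (i + 1)` -/
def Good {N : Type*} [AddCommGroup N] (f : ℕ → G → N) : Prop :=
  (∀ i, ∀ g ∈ γ G i, ∀ h ∈ γ G i, f i (g * h) = f i g + f i h) ∧ ∀ i, ∀ g ∈ γ G (i + 1), f i g = 0

variable {R} {N : Type*} [AddCommGroup N] {i j : ℕ} {g h : G}

theorem γ_succ : γ G (i + 1) ≤ γ G i := Subgroup.lowerCentralSeries_antitone _ i.le_succ

theorem γ_comm (hg : g ∈ γ G i) (hh : h ∈ γ G j) : ⁅g, h⁆ ∈ γ G (i + j + 1) :=
  lcs_comm ⊤ j i (commutator_mem_commutator hg hh)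

theorem E_of (hg : g ∈ γ G i) : E R i g = Submodule.Quotient.mk (single ⟨(i, g), hg⟩ 1) := dif_pos hg

theorem good_E : Good (E R (G := G)) :=
  ⟨fun i g hg h hh => by
    rw [E_of hg, E_of hh, E_of (mul_mem hg hh), ← Submodule.Quotient.mk_add, Submodule.Quotient.eq, ← sub_sub]
    exact Submodule.subset_span (Or.inl ⟨i, g, h, hg, hh, rfl⟩),
  fun i g hg => by
    rw [E_of (γ_succ hg), Submodule.Quotient.mk_eq_zero]
    exact Submodule.subset_span (Or.inr ⟨⟨(i, g), γ_succ hg⟩, hg, rfl⟩)⟩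

theorem Good.conj {f : ℕ → G → N} (hf : Good f) (hg : g ∈ γ G i) (x : G) : f i (x * g * x⁻¹) = f i g := by
  have : ⁅x, g⁆ ∈ γ G (i + 1) := by simpa using γ_comm (i := 0) (mem_top x) hg
  rw [show x * g * x⁻¹ = ⁅x, g⁆ * g by simp [commutatorElement_def], hf.1 i _ (γ_succ this) g hg, hf.2 i _ this,
    zero_add]

theorem Good.pow {f : ℕ → G → N} (hf : Good f) (hg : g ∈ γ G i) : ∀ n : ℕ, f i (g ^ n) = n • f i g
  | 0 => by rw [pow_zero, zero_smul, hf.2 i 1 (one_mem _)]
  | n + 1 => by rw [pow_succ, hf.1 i _ (pow_mem hg n) g hg, hf.pow hg n, succ_nsmul]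

theorem Good.inv {f : ℕ → G → N} (hf : Good f) (hg : g ∈ γ G i) : f i g⁻¹ = -f i g := by
  rw [eq_neg_iff_add_eq_zero, ← hf.1 i _ (inv_mem hg) g hg, inv_mul_cancel, hf.2 i 1 (one_mem _)]

variable [Module R N]

/-- universal property -/
noncomputable def lift (f : ℕ → G → N) (hf : Good f) : Lie R G →ₗ[R] N :=
  Submodule.liftQ _ (linearCombination R fun x : Gen G => f x.1.1 x.1.2) (Submodule.span_le.2 (by
    rintro _ (⟨i, g, h, hg, hh, rfl⟩ | ⟨x, hx, rfl⟩)
    · simp [hf.1 i g hg h hh]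
    · simp [hf.2 _ _ hx]))

theorem lift_E {f : ℕ → G → N} (hf : Good f) (hg : g ∈ γ G i) : lift f hf (E R i g) = f i g := by
  simp [E_of hg, lift]

theorem ext_E {f f' : Lie R G →ₗ[R] N} (h : ∀ i, ∀ g ∈ γ G i, f (E R i g) = f' (E R i g)) : f = f' :=
  Submodule.linearMap_qext _ (lhom_ext' fun x => LinearMap.ext_ring (by simpa [E_of x.2] using h _ _ x.2))

theorem good_right (hg : g ∈ γ G i) : Good fun j (h : G) => E R (i + j + 1) ⁅g, h⁆ :=
  ⟨fun j h hh k hk => by
    beta_reduce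
    rw [show ⁅g, h * k⁆ = ⁅g, h⁆ * (h * ⁅g, k⁆ * h⁻¹) by simp only [commutatorElement_def]; group,
      good_E.1 _ _ (γ_comm hg hh) _ (Normal.conj_mem inferInstance _ (γ_comm hg hk) h), good_E.conj (γ_comm hg hk)],
    fun j _ hh => good_E.2 _ _ (γ_comm (j := j + 1) hg hh)⟩

open Classical in
theorem good_left : Good fun i (g : G) => if hg : g ∈ γ G i then lift (R := R) _ (good_right (R := R) hg) else 0 :=
  ⟨fun i g hg h hh => by
    simp only [dif_pos hg, dif_pos hh, dif_pos (mul_mem hg hh)]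
    refine ext_E fun j k hk => ?_
    rw [LinearMap.add_apply, lift_E _ hk, lift_E _ hk, lift_E _ hk,
      show ⁅g * h, k⁆ = g * ⁅h, k⁆ * g⁻¹ * ⁅g, k⁆ by simp only [commutatorElement_def]; group,
      good_E.1 _ _ (Normal.conj_mem inferInstance _ (γ_comm hh hk) g) _ (γ_comm hg hk), good_E.conj (γ_comm hh hk),
      add_comm],
  fun i g hg => by
    simp only [dif_pos (γ_succ hg)]
    exact ext_E fun j k hk => (lift_E _ hk).trans (good_E.2 _ _ (add_right_comm i 1 j ▸ γ_comm hg hk))⟩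

variable (R G) in
/-- the bracket -/
noncomputable def bk : Lie R G →ₗ[R] Lie R G →ₗ[R] Lie R G := lift _ good_left

theorem bk_E (hg : g ∈ γ G i) (hh : h ∈ γ G j) : bk R G (E R i g) (E R j h) = E R (i + j + 1) ⁅g, h⁆ := by
  rw [bk, lift_E _ hg, dif_pos hg, lift_E _ hh]

theorem bk_skew (x y : Lie R G) : bk R G x y = -bk R G y x :=
  LinearMap.congr_fun₂ (ext_E (f := bk R G) (f' := -(bk R G).flip) fun i g hg => ext_E fun j h hh => by
    rw [LinearMap.neg_apply, LinearMap.neg_apply, LinearMap.flip_apply, bk_E hg hh, bk_E hh hg, add_comm j,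
      ← good_E.inv (add_comm j i ▸ γ_comm hh hg), commutatorElement_inv]) x y

theorem bk_leibniz (a y z : Lie R G) :
    bk R G (bk R G a y) z = bk R G (bk R G a z) y + bk R G a (bk R G y z) := by
  refine LinearMap.congr_fun (ext_E (f := (bk R G).flip z ∘ₗ (bk R G).flip y)
    (f' := (bk R G).flip y ∘ₗ (bk R G).flip z + (bk R G).flip (bk R G y z)) fun i a ha => ?_) a
  refine LinearMap.congr_fun (ext_E (f := (bk R G).flip z ∘ₗ bk R G (E R i a))
    (f' := bk R G (bk R G (E R i a) z) + bk R G (E R i a) ∘ₗ (bk R G).flip z) fun j y hy => ?_) y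
  refine LinearMap.congr_fun (ext_E (f := bk R G (bk R G (E R i a) (E R j y)))
    (f' := (bk R G).flip (E R j y) ∘ₗ bk R G (E R i a) + bk R G (E R i a) ∘ₗ bk R G (E R j y)) fun k z hz => ?_) z
  have c : ∀ {i j k} {a y z : G}, a ∈ γ G i → y ∈ γ G j → z ∈ γ G k → ⁅⁅a, y⁆, y * z * y⁻¹⁆ ∈ γ G (i + j + k + 2) ∧
      E R (i + j + k + 2) ⁅⁅a, y⁆, y * z * y⁻¹⁆ = bk R G (bk R G (E R i a) (E R j y)) (E R k z) :=
    fun {i j k a y z} ha hy hz => by
      have h := Normal.conj_mem inferInstance _ hz y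
      rw [show i + j + k + 2 = i + j + 1 + k + 1 by omega, ← good_E.conj hz y, bk_E ha hy, bk_E (γ_comm ha hy) h]
      exact ⟨γ_comm (γ_comm ha hy) h, rfl⟩
  obtain ⟨m1, e1⟩ := c ha hy hz
  obtain ⟨m2, e2⟩ := c hy hz ha
  obtain ⟨m3, e3⟩ := c hz ha hy
  rw [show j + k + i = i + j + k by omega] at m2 e2
  rw [show k + i + j = i + j + k by omega] at m3 e3
  have := (good_E (R := R)).1 _ _ (mul_mem m1 m2) _ m3
  rw [good_E.1 _ _ m1 _ m2, e1, e2, e3, show _ * _ * _ = (1 : G) by simp only [commutatorElement_def]; group,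
    good_E.2 _ _ (one_mem _), bk_skew _ (E R i a), bk_skew (E R k z), map_neg, LinearMap.neg_apply] at this
  change _ = bk R G (bk R G _ _) _ + bk R G _ (bk R G _ _)
  rw [← sub_eq_zero, this]; abel

omit [Module R N] in
theorem Good.eq_zero (l : R →+ ℤ) (hl : l 1 = 1) {D : ℕ → G → N} (hD : Good D) (hg : g ∈ γ G i) (h : E R i g = 0) :
    D i g = 0 := by
  let φ := liftAddHom fun x : Gen G => (zmultiplesHom _ (D x.1.1 x.1.2)).comp l
  have key : ∀ f ∈ Submodule.span R (rel R G), ∀ r : R, φ (r • f) = 0 := fun f hf => by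
    induction hf using Submodule.span_induction with
    | mem f hf =>
      obtain ⟨i, g, h, hg, hh, rfl⟩ | ⟨x, hx, rfl⟩ := hf
      · intro r; rw [smul_sub, smul_sub, map_sub, map_sub]; simp [φ, hD.1 i g hg h hh]
      · intro r; simp [φ, hD.2 _ _ hx]
    | zero => simp
    | add x y _ _ h1 h2 => intro r; rw [smul_add, map_add, h1, h2, add_zero]
    | smul a x _ h => intro r; rw [smul_smul, h]
  simpa [φ, hl] using key _ ((Submodule.Quotient.mk_eq_zero _).1 ((E_of hg).symm.trans h)) 1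

theorem mem_of_E (l : R →+ ℤ) (hl : l 1 = 1) (hg : g ∈ γ G i) (h : E R i g = 0) : g ∈ γ G (i + 1) := by
  classical
  letI : CommGroup (γ G i ⧸ (γ G (i + 1)).subgroupOf (γ G i)) :=
    { QuotientGroup.Quotient.group _ with
      mul_comm := (Normal.quotient_commutative_iff_commutator_le.2 (commutator_le.2 fun (a : γ G i) _ b _ =>
        show ⁅(a : G), (b : G)⁆ ∈ γ G (i + 1) from commutator_mem_commutator a.2 (mem_top _))).is_comm.comm }
  let D : ℕ → G → Additive (γ G i ⧸ (γ G (i + 1)).subgroupOf (γ G i)) := fun j x =>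
    if h : j = i ∧ x ∈ γ G i then Additive.ofMul (QuotientGroup.mk ⟨x, h.2⟩) else 0
  have h1 : ∀ x (hx : x ∈ γ G i), D i x = Additive.ofMul (QuotientGroup.mk ⟨x, hx⟩) := fun x hx => dif_pos ⟨rfl, hx⟩
  have h2 : ∀ j x, j ≠ i → D j x = 0 := fun j x e => dif_neg fun h => e h.1
  have hD : Good D := ⟨fun j x hx y hy => by
    by_cases e : j = i
    · subst e; rw [h1 x hx, h1 y hy, h1 _ (mul_mem hx hy)]; rfl
    · rw [h2 j _ e, h2 j _ e, h2 j _ e, add_zero], fun j x hx => by
    by_cases e : j = i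
    · subst e; rw [h1 x (γ_succ hx)]; exact (QuotientGroup.eq_one_iff (⟨x, γ_succ hx⟩ : γ G j)).2 hx
    · exact h2 j _ e⟩
  exact (QuotientGroup.eq_one_iff (⟨g, hg⟩ : γ G i)).1 ((h1 g hg).symm.trans (hD.eq_zero l hl hg h))

variable (R G) in
/-- the bracket as a biadditive map -/
noncomputable def bA : Lie R G →+ Lie R G →+ Lie R G := LinearMap.toAddMonoidHom'.comp (bk R G).toAddMonoidHom

theorem E_mem {n : ℕ} {A : ZMod n → AddSubgroup (Lie R G)} (hA : ⨆ i, A i = ⊤) (i : ℕ) :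
    ∀ g ∈ γ G i, E R i g ∈ ⨆ k, lcs (bA R G) A i k := by
  induction i with
  | zero => exact fun g _ => hA.ge (AddSubgroup.mem_top _)
  | succ i ih =>
    intro g hg
    induction hg using closure_induction with
    | mem g hg =>
      obtain ⟨a, ha, c, hc, rfl⟩ := hg
      exact (bk_E (R := R) (j := 0) ha hc) ▸ sup_br le_rfl (ih a ha) (hA.ge (AddSubgroup.mem_top _))
    | one => rw [good_E.2 _ _ (one_mem _)]; exact zero_mem _
    | mul x y hx hy h1 h2 => rw [good_E.1 (i + 1) x hx y hy]; exact add_mem h1 h2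
    | inv x hx h => rw [good_E.inv (i := i + 1) hx]; exact neg_mem h

theorem exists_grading [Finite G] {p : ℕ} [hp : Fact p.Prime] (ε : AddChar (ZMod p) R) (hε : ∑ i, ε i = 0)
    (α : MulAut G) (hα : α ^ p = 1) (hf : ∀ g, α g = g → g = 1) :
    ∃ A : ZMod p → AddSubgroup (Lie R G), br (bA R G) A A ≤ A ∧ A 0 = ⊥ ∧ ⨆ i, A i = ⊤ := by
  have hγ : ∀ i, ∀ g ∈ γ G i, α g ∈ γ G i := fun i g hg => characteristic_iff_le_comap.1 inferInstance α hg
  have gd : Good fun i g => E R i (α g) := ⟨fun i g hg h hh => by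
    beta_reduce; rw [map_mul, good_E.1 i _ (hγ i g hg) _ (hγ i h hh)], fun i g hg => good_E.2 i _ (hγ _ g hg)⟩
  let σ : Module.End R (Lie R G) := lift _ gd
  have s1 : ∀ i, ∀ g ∈ γ G i, σ (E R i g) = E R i (α g) := fun i g hg => lift_E gd hg
  have s2 : ∀ x y, σ (bk R G x y) = bk R G (σ x) (σ y) := LinearMap.congr_fun₂ (ext_E (f := (bk R G).compr₂ σ)
    (f' := (bk R G).compl₁₂ σ σ) fun i g hg => ext_E fun j h hh => by
      rw [LinearMap.compr₂_apply, LinearMap.compl₁₂_apply, bk_E hg hh, s1 _ _ (γ_comm hg hh), s1 i g hg, s1 j h hh,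
        bk_E (hγ i g hg) (hγ j h hh), map_commutatorElement])
  have s3 : ∀ k i, ∀ g ∈ γ G i, (α ^ k) g ∈ γ G i ∧ (σ ^ k) (E R i g) = E R i ((α ^ k) g) := fun k i g hg => by
    induction k with
    | zero => exact ⟨hg, rfl⟩
    | succ k ih => rw [pow_succ', pow_succ', Module.End.mul_apply, ih.2]; exact ⟨hγ i _ ih.1, s1 i _ ih.1⟩
  have s4 : σ ^ p = 1 := ext_E fun i g hg => by rw [(s3 p i g hg).2, hα]; rfl
  have s5 : ∑ k ∈ Finset.range p, σ ^ k = 0 := ext_E fun i g hg => by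
    obtain ⟨h, e⟩ := (Finite.injective_iff_surjective (f := fun h : γ G i =>
      (⟨(h : G)⁻¹ * α h, mul_mem (inv_mem h.2) (hγ i h h.2)⟩ : γ G i))).1 (fun a c e => Subtype.ext (mul_inv_eq_one.1
        (hf _ (by
          have e : (a : G)⁻¹ * α a = (c : G)⁻¹ * α c := congrArg Subtype.val e
          rw [map_mul, map_inv, ← mul_inv_cancel_left (a : G) (α a), e]; group)))) ⟨g, hg⟩
    have e' : E R i g = (σ - 1) (E R i h) := by
      rw [← show (h : G)⁻¹ * α h = g from congrArg Subtype.val e, good_E.1 i _ (inv_mem h.2) _ (hγ i h h.2),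
        good_E.inv h.2, LinearMap.sub_apply, s1 i h h.2, neg_add_eq_sub]; rfl
    rw [e', ← Module.End.mul_apply, geom_sum_mul, s4, sub_self]; rfl
  have s6 : ∀ m : Lie R G, Nat.card G • m = 0 := LinearMap.congr_fun (ext_E (f := Nat.card G • LinearMap.id) (f' := 0)
    fun i g hg => ((good_E.pow hg _).symm.trans (by rw [pow_card_eq_one', good_E.2 _ _ (one_mem _)]; rfl)))
  have s7 : (Nat.card G).Coprime p := by
    have := (IsPGroup.of_card (p := p) (n := (Nat.card (zpowers α)).factorization p) (G := zpowers α) (by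
      rw [Nat.card_zpowers]
      rcases (Nat.dvd_prime hp.out).1 (orderOf_dvd_of_pow_eq_one hα) with e | e <;> simp [e, hp.out])
      ).card_modEq_card_fixedPoints G
    rw [show MulAction.fixedPoints (zpowers α) G = {1} from Set.eq_singleton_iff_unique_mem.2
      ⟨fun a => map_one (a : MulAut G), fun g h => hf g (h ⟨α, mem_zpowers α⟩)⟩, Nat.card_coe_set_eq,
      Set.ncard_singleton] at this
    exact (Nat.coprime_of_mul_modEq_one 1 (by rwa [mul_one]))
  have s8 : ∀ m : Lie R G, ∃ u : ℕ, u • p • m = m := fun m => by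
    obtain ⟨u, hu⟩ := Nat.exists_mul_mod_eq_of_coprime 1 s7.symm Nat.card_pos.ne'
    refine ⟨u, ?_⟩
    rw [smul_smul, mul_comm, ← Nat.mod_add_div (p * u) (Nat.card G), hu.2, add_smul, mul_smul, s6, add_zero]
    conv_rhs => rw [← one_smul ℕ m, ← Nat.mod_add_div 1 (Nat.card G), add_smul, mul_smul, s6, add_zero]
  refine ⟨fun i => (Module.End.eigenspace σ (ε i)).toAddSubgroup, br_le.2 fun i j x hx y hy => ?_,
    eq_bot_iff.2 fun m hm => ?_, eq_top_iff.2 fun m _ => ?_⟩
  · refine Module.End.mem_eigenspace_iff.2 ((s2 x y).trans ?_)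
    rw [Module.End.mem_eigenspace_iff.1 hx, Module.End.mem_eigenspace_iff.1 hy, map_smul, map_smul,
      LinearMap.smul_apply, smul_smul, mul_comm, AddChar.map_add_eq_mul]
    rfl
  · have h := Module.End.mem_eigenspace_iff.1 hm
    rw [AddChar.map_zero_eq_one, one_smul] at h
    have := LinearMap.congr_fun s5 m
    rw [LinearMap.sum_apply, Finset.sum_congr rfl fun k _ => (Module.End.pow_apply σ k m).trans
      (Function.iterate_fixed h k), Finset.sum_const, Finset.card_range, LinearMap.zero_apply] at this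
    obtain ⟨u, hu⟩ := s8 m
    rw [← hu, this, smul_zero]
    exact zero_mem _
  · obtain ⟨u, hu⟩ := s8 m
    rw [← hu]
    refine nsmul_mem ?_ u
    have : p • m = ∑ i, ∑ j : ZMod p, ε (-(i * j)) • (σ ^ j.val) m := by
      rw [Finset.sum_comm, Finset.sum_eq_single 0 (fun j _ hj => by
        rw [← Finset.sum_smul, show ∑ i, ε (-(i * j)) = 0 from hε ▸ Equiv.sum_comp ((Equiv.mulRight₀ j hj).trans
          (Equiv.neg _)) ε, zero_smul]) (by simp)]
      simp
    rw [this]
    refine sum_mem fun i _ => AddSubgroup.mem_iSup_of_mem i (Module.End.mem_eigenspace_iff.2 ?_)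
    rw [map_sum, Finset.smul_sum, ← Equiv.sum_comp (Equiv.addRight 1) fun j => ε i • _]
    refine Finset.sum_congr rfl fun j _ => ?_
    rw [map_smul, Equiv.coe_addRight, smul_smul, ← AddChar.map_add_eq_mul, ZMod.val_add, ← pow_eq_pow_mod _ s4,
      ZMod.val_one, pow_succ', Module.End.mul_apply]
    congr 2
    ring

theorem hkk.{u} {G : Type u} [Group G] [Finite G] [Group.IsNilpotent G] {p : ℕ} [hp : Fact p.Prime] (α : MulAut G) (hα : α ^ p = 1)
    (hf : ∀ g, α g = g → g = 1) (c : ℕ) (h : ∀ {M : Type u} [AddCommGroup M] {b : M →+ M →+ M},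
      (∀ a y z, b (b a y) z = b (b a z) y + b a (b y z)) → ∀ {A : ZMod p → AddSubgroup M}, br b A A ≤ A → A 0 = ⊥ →
        ⨆ i, lcs b A c i ≤ ⊥) : γ G c = ⊥ := by
  have hm := Polynomial.cyclotomic.monic p ℤ
  have h0 : ∑ i ∈ Finset.range p, AdjoinRoot.root (Polynomial.cyclotomic p ℤ) ^ i = 0 := by
    have := AdjoinRoot.mk_self (f := Polynomial.cyclotomic p ℤ)
    rw [congrArg (AdjoinRoot.mk _) (Polynomial.cyclotomic_prime ℤ p)] at this
    simpa using this
  have h1 : AdjoinRoot.root (Polynomial.cyclotomic p ℤ) ^ p = 1 := by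
    rw [← sub_eq_zero, ← geom_sum_mul, h0, zero_mul]
  obtain ⟨A, a1, a2, a3⟩ := exists_grading (AddChar.zmodChar p h1) (by
    rw [← h0, Finset.sum_range]
    obtain ⟨k, rfl⟩ := Nat.exists_eq_succ_of_ne_zero hp.out.ne_zero
    rfl) α hα hf
  have key : γ G c ≤ γ G (c + 1) := fun g hg => mem_of_E ((Polynomial.lcoeff ℤ 0).comp
    (AdjoinRoot.modByMonicHom hm)).toAddMonoidHom (by
      change (AdjoinRoot.modByMonicHom hm (AdjoinRoot.mk _ 1)).coeff 0 = 1
      rw [AdjoinRoot.modByMonicHom_mk, (Polynomial.modByMonic_eq_self_iff hm).2 (by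
        rw [Polynomial.degree_one]; exact Polynomial.degree_cyclotomic_pos p ℤ hp.out.pos), Polynomial.coeff_one_zero])
    hg (h (b := bA _ G) bk_leibniz a1 a2 (E_mem a3 c g hg))
  obtain ⟨n, hn⟩ := Subgroup.nilpotent_iff_lowerCentralSeries.1 ‹Group.IsNilpotent G›
  suffices ∀ k, γ G c ≤ γ G (c + k) from le_bot_iff.1 ((this n).trans
    ((Subgroup.lowerCentralSeries_antitone _ (Nat.le_add_left n c)).trans hn.le))
  intro k
  induction k with
  | zero => exact le_rfl
  | succ k ih => exact key.trans (commutator_mono ih le_rfl)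

end H1.Kr
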