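import Cfsg.Agent.H1.SG2
import Cfsg.Agent.FT.B3a
import Cfsg.Agent.FT.B4a

/-! H1.Pq1: a Gauss sum on symplectic 2-sections; the exceptional configuration of Shult cannot carry more operators. -/

open Cfsg Module Subgroup H9
open scoped commutatorElement Pointwise

namespace H1

universe u v

theorem gauss_abs {K : Type*} [Group K] [Fintype K] (β : K → K → ℤ) (hl : ∀ x y w, β (x * y) w = β x w * β y w)
    (hs : ∀ x y, β x y = β y x) (h1 : ∀ x y, β x y = 1 ∨ β x y = -1) (c : K ≃* K)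
    (hc : ∀ x y, β (c x) (c y) = β x y) (R : Subgroup K) (hR : ∀ w, w ∈ R ↔ ∀ x, β x w = 1)
    (hf : ∀ z, c z * c.symm z ∈ R → z ∈ R) : (∑ x, β x (c x)) ^ 2 = Nat.card K * Nat.card R := by
  classical
  have hr : ∀ w x y, β w (x * y) = β w x * β w y := fun w x y => by rw [hs, hl, hs x, hs y]
  have h2 : ∀ x y, β x y * β x y = 1 := fun x y => by rcases h1 x y with e | e <;> simp [e]
  have h3 : ∀ w, ∑ x, β x w = if w ∈ R then (Nat.card K : ℤ) else 0 := fun w => by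
    split_ifs with h
    · simp [(hR w).1 h]
    · obtain ⟨b, hb⟩ := not_forall.1 (mt (hR w).2 h)
      have := (Equiv.sum_comp (Equiv.mulLeft b) fun x => β x w).symm
      simp only [Equiv.coe_mulLeft, hl, (h1 b w).resolve_left hb, neg_one_mul, Finset.sum_neg_distrib] at this
      omega
  have h4 : ∀ z ∈ R, c z ∈ R := fun z hz => (hR _).2 fun x => by
    rw [← c.apply_symm_apply x, hc]; exact (hR z).1 hz _
  have h5 : ∀ z ∈ R, c.symm z ∈ R := fun z hz => (hR _).2 fun x => by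
    rw [← hc, c.apply_symm_apply]; exact (hR z).1 hz _
  rw [sq, Finset.sum_mul_sum, Finset.sum_congr rfl fun x _ => (Equiv.sum_comp (Equiv.mulLeft x) _).symm,
    Finset.sum_comm, Finset.sum_congr rfl (g := fun z => if z ∈ R then (Nat.card K : ℤ) else 0) fun z _ => ?_]
  · rw [← Finset.sum_filter, Finset.sum_const, nsmul_eq_mul, mul_comm, Nat.card_eq_fintype_card (α := R),
      Fintype.card_subtype]
  rw [Finset.sum_congr rfl (g := fun x => β z (c z) * β x (c z * c.symm z)) fun x _ => ?_, ← Finset.mul_sum, h3]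
  · by_cases h : z ∈ R
    · rw [if_pos h, if_pos (R.mul_mem (h4 z h) (h5 z h)), hs, (hR z).1 h, one_mul]
    · rw [if_neg h, if_neg (mt (hf z) h), mul_zero]
  · simp only [Equiv.coe_mulLeft, map_mul, hl, hr]
    rw [← hc x (c.symm z), c.apply_symm_apply, hs (c x) z]
    linear_combination (β x (c z) * β z (c x) * β z (c z)) * h2 x (c x)

variable {G : Type u} [Group G] [Finite G]

theorem p_dvd_card_conj {p : ℕ} [Fact p.Prime] {P : Subgroup G} (hP : IsPGroup p P) (S : Set G)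
    (hS : ∀ h ∈ P, ∀ x ∈ S, h * x * h⁻¹ ∈ S) (hf : ∀ x ∈ S, x ∉ centralizer (P : Set G)) : p ∣ Nat.card S := by
  let _ : MulAction P S :=
    { smul := fun h x => ⟨h * x * (h : G)⁻¹, hS h h.2 x x.2⟩
      one_smul := fun x => Subtype.ext (by change (1 : G) * x * 1⁻¹ = x; simp)
      mul_smul := fun a b x => Subtype.ext (by
        change (a * b : G) * x * (a * b : G)⁻¹ = a * (b * x * (b : G)⁻¹) * (a : G)⁻¹; group) }
  haveI : IsEmpty (MulAction.fixedPoints P S) := ⟨fun x => hf x.1 x.1.2 fun g hg =>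
    mul_inv_eq_iff_eq_mul.1 (congrArg Subtype.val (x.2 ⟨g, hg⟩))⟩
  have := hP.card_modEq_card_fixedPoints S
  rwa [Nat.card_of_isEmpty (α := MulAction.fixedPoints P S), Nat.modEq_zero_iff_dvd] at this

theorem exc_gauss {K Y Z T : Subgroup G} {a : G} {p t N : ℕ} [hp : Fact p.Prime] [ht : Fact t.Prime]
    (hY : K ≤ normalizer (Y : Set G)) (hK' : ⁅K, K⁆ ≤ Z) (hZ : Z ≤ centralizer (K : Set G))
    (h2 : ∀ x ∈ Z, ∀ y ∈ Z, x ∉ Y → y ∉ Y → x * y ∈ Y) (aK : a ∈ normalizer (K : Set G))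
    (aY : a ∈ normalizer (Y : Set G)) (hf : ∀ z ∈ K, ⁅a * a, z⁆ ∈ cm hY → z ∈ cm hY) (hK : IsPGroup 2 K)
    (hN : N ^ 2 = (cm hY).relIndex K) (hN1 : N ≠ 1) (e : p = N + 1) (ha : IsPGroup p (zpowers a))
    (hT : IsPGroup t T) (t2 : t ≠ 2) (tp : t ≠ p) (TK : T ≤ normalizer (K : Set G))
    (TY : T ≤ normalizer (Y : Set G)) (Ta : T ≤ centralizer {a}) (hC : K ⊓ centralizer (T : Set G) ≤ cm hY) :
    False := by
  classical
  haveI := Fintype.ofFinite K
  let ε : G → ℤ := fun z => if z ∈ Y then 1 else -1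
  have e1 : ∀ x ∈ Z, ∀ y ∈ Z, ε (x * y) = ε x * ε y := fun x hx y hy => by
    by_cases h : x ∈ Y <;> by_cases h' : y ∈ Y
    · simp [ε, h, h', Y.mul_mem h h']
    · simp [ε, h, h', Y.mul_mem_cancel_left h]
    · simp [ε, h, h', Y.mul_mem_cancel_right h']
    · simp [ε, h, h', h2 x hx y hy h h']
  have e2 : ∀ z, ε z = 1 ↔ z ∈ Y := fun z => by by_cases h : z ∈ Y <;> simp [ε, h]
  have e3 : ∀ g ∈ normalizer (Y : Set G), ∀ x y : G, ε ⁅g * x * g⁻¹, g * y * g⁻¹⁆ = ε ⁅x, y⁆ := fun g hg x y => by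
    rw [← conjugate_commutatorElement]; simp only [ε, ← mem_normalizer_iff.1 hg]
  have cz : ∀ x y : K, ⁅(x : G), (y : G)⁆ ∈ Z := fun x y => hK' (commutator_mem_commutator x.2 y.2)
  have hl : ∀ x y w : K, ε ⁅((x * y : K) : G), (w : G)⁆ = ε ⁅(x : G), (w : G)⁆ * ε ⁅(y : G), (w : G)⁆ := fun x y w => by
    rw [mul_comm, ← e1 _ (cz _ _) _ (cz _ _), ← mul_inv_eq_iff_eq_mul.2 (hZ (cz y w) x x.2)]
    simp only [commutatorElement_def, coe_mul]; congr 1; group
  have hs : ∀ x y : G, ε ⁅x, y⁆ = ε ⁅y, x⁆ := fun x y => by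
    rw [← commutatorElement_inv]; simp only [ε, Subgroup.inv_mem_iff]
  have h1 : ∀ z, ε z = 1 ∨ ε z = -1 := fun z => by by_cases h : z ∈ Y <;> simp [ε, h]
  have aR := normalizer_cm hY (zpowers_le.2 aK) (zpowers_le.2 aY) (mem_zpowers a)
  have hg := gauss_abs (fun x y : K => ε ⁅(x : G), (y : G)⁆) hl (fun x y => hs x y) (fun x y => h1 _)
    (K.normalizerMonoidHom ⟨a, aK⟩) (fun x y => e3 a aY x y) ((cm hY).subgroupOf K)
    (fun w => ⟨fun h x => (e2 _).2 (h.2 x x.2), fun h => ⟨w.2, fun b hb => (e2 _).1 (h ⟨b, hb⟩)⟩⟩) fun z hz => by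
      refine hf z z.2 ?_
      have h3 : (z : G) * z ∈ cm hY := ⟨K.mul_mem z.2 z.2, fun b hb => (e2 _).1 (by
        rw [hs, ← coe_mul, hl z z ⟨b, hb⟩]; rcases h1 ⁅(z : G), b⁆ with e | e <;> simp [e])⟩
      have h4 := mul_mem ((mem_normalizer_iff.1 aR _).1 (show a * z * a⁻¹ * (a⁻¹ * z * a⁻¹⁻¹) ∈ cm hY from hz))
        (inv_mem h3)
      convert h4 using 1
      simp only [commutatorElement_def]; group
  let S : Set G := {x | x ∈ K ∧ ⁅x, a * x * a⁻¹⁆ ∉ Y}
  have s1 : ∑ x : K, ε ⁅(x : G), ((K.normalizerMonoidHom ⟨a, aK⟩ x : K) : G)⁆ = Nat.card K - 2 * Nat.card S := by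
    rw [Finset.sum_congr rfl (g := fun x : K => 1 - 2 * if (x : G) ∈ S then (1 : ℤ) else 0) fun x _ => by
      change ε ⁅(x : G), a * x * a⁻¹⁆ = _
      by_cases h : ⁅(x : G), a * x * a⁻¹⁆ ∈ Y <;> simp [ε, S, h], Finset.sum_sub_distrib, ← Finset.mul_sum,
      Finset.sum_boole, ← Fintype.card_subtype, ← Nat.card_eq_fintype_card, Nat.card_congr
        (Equiv.subtypeSubtypeEquivSubtype (p := (· ∈ K)) (q := (· ∈ S)) fun h => h.1)]
    simp
  have s2 : ∀ g ∈ normalizer (K : Set G), g ∈ normalizer (Y : Set G) → g ∈ centralizer {a} → ∀ x ∈ S,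
      g * x * g⁻¹ ∈ S := fun g g1 g2 g3 x hx => ⟨(mem_normalizer_iff.1 g1 x).1 hx.1, by
    rw [← e2, show a * (g * x * g⁻¹) * a⁻¹ = g * (a * x * a⁻¹) * g⁻¹ by
      rw [← mul_assoc, ← mul_assoc, ← mem_centralizer_singleton_iff.1 g3, mul_assoc _ g⁻¹, ← mul_inv_rev,
        ← mem_centralizer_singleton_iff.1 g3]; group, e3 g g2, e2]
    exact hx.2⟩
  have s3 := p_dvd_card_conj ha S (fun g hg => s2 g (zpowers_le.2 aK hg) (zpowers_le.2 aY hg)
    (zpowers_le.2 (mem_centralizer_singleton_iff.2 rfl) hg)) fun x hx h => hx.2 (by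
      rw [h a (mem_zpowers a)]; simpa using Y.one_mem)
  have s4 := p_dvd_card_conj hT S (fun g hg => s2 g (TK hg) (TY hg) (Ta hg)) fun x hx h => hx.2 (by
    rw [← commutatorElement_inv]; exact Y.inv_mem ((hC ⟨hx.1, h⟩).2 _ ((mem_normalizer_iff.1 aK x).1 hx.1)))
  have s5 : Nat.card K = N ^ 2 * Nat.card (cm hY) := by
    rw [hN, mul_comm, ← card_subgroupOf (cm_le hY), relIndex, card_mul_index]
  rw [s1, card_subgroupOf (cm_le hY)] at hg
  haveI : Fact (Nat.Prime 2) := ⟨Nat.prime_two⟩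
  have s6 : ∀ r : ℕ, r.Prime → r ∣ Nat.card (cm hY) * N → r = 2 := fun r hr h =>
    isPGroup_iff_isPiNum.1 hK r hr (h.trans ⟨N, by rw [s5]; ring⟩)
  have N0 : N ≠ 0 := fun h => by rw [h] at e; exact hp.out.ne_one e
  rw [s5] at hg
  generalize Nat.card (cm hY) = r at *
  generalize Nat.card S = s at *
  rcases sq_eq_sq_iff_eq_or_eq_neg.1 (hg.trans (show _ = ((r * N : ℕ) : ℤ) ^ 2 by push_cast; ring)) with h | h
  · obtain ⟨M, rfl⟩ := Nat.exists_eq_succ_of_ne_zero N0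
    have : 2 * s = r * (M + 1) * M := by zify at h ⊢; push_cast at h; linear_combination -h
    rcases hp.out.dvd_mul.1 (this ▸ s3.mul_left 2) with h | h
    · have := s6 p hp.out h; omega
    · have := Nat.le_of_dvd (by omega) h; omega
  · have : 2 * s = r * N * p := by rw [e]; zify at h ⊢; push_cast at h; linear_combination -h
    rcases ht.out.dvd_mul.1 (this ▸ s4.mul_left 2) with h | h
    · exact t2 (s6 t ht.out h)
    · exact tp ((Nat.prime_dvd_prime_iff_eq ht.out hp.out).1 h)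

theorem exc_wiel {Q T B R : Subgroup G} {N : ℕ} (hB : (Nat.card B).Prime) (e : Nat.card B = N + 1)
    (TQ : T ≤ normalizer (Q : Set G)) (BQ : B ≤ normalizer (Q : Set G)) (BT : B ≤ normalizer (T : Set G))
    (RQ : R ≤ Q) (hR : Q ⊔ (T ⊔ B) ≤ normalizer (R : Set G)) (hQ' : ⁅Q, Q⁆ ≤ R)
    (hT' : ⁅T, T⁆ ≤ centralizer (Q : Set G)) (c1 : CopA B Q) (c2 : CopA B T) (c3 : CopA T Q)
    (hN : R.relIndex ⁅Q, B⁆ ≤ N ^ 2) : R.relIndex (⁅Q, ⁅T, B⁆⁆ ⊓ centralizer (B : Set G)) ^ N ≤ N ^ 2 ∧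
      (⁅Q, ⁅T, B⁆⁆ ⊓ centralizer (B : Set G) ≤ R → ⁅Q, ⁅T, B⁆⁆ ≤ R) := by
  have hC : T ⊓ centralizer (Q : Set G) ≤ normalizer (R : Set G) :=
    inf_le_right.trans ((centralizer_le RQ).trans (centralizer_le_normalizer' R))
  have lQ : Q ≤ Q ⊔ (T ⊔ B) := le_sup_left
  have lT : T ≤ Q ⊔ (T ⊔ B) := le_sup_of_le_right le_sup_left
  have lB : B ≤ Q ⊔ (T ⊔ B) := le_sup_of_le_right le_sup_right
  obtain ⟨Γ, _, _, f, -, hf, -⟩ := exists_quot (X := Q ⊔ (T ⊔ B)) (N := R ⊔ T ⊓ centralizer (Q : Set G))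
    (sup_le (RQ.trans lQ) (inf_le_left.trans lT)) (sup_le (normalizer_sup (lQ.trans hR)
      ((le_centralizer_iff.1 inf_le_right).trans (centralizer_le_normalizer' _))) (normalizer_sup (le_sup_right.trans hR)
        (normalizer_inf (sup_le le_normalizer BT) (normalizer_centralizer (sup_le TQ BQ)))))
  have k1 : ∀ X ≤ Q, (kr f).relIndex X = R.relIndex X := fun X hX => by
    rw [← inf_relIndex_right, ← inf_eq_right.2 hX, ← inf_assoc, hf, H9.dedekind RQ (Or.inr hC),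
      le_bot_iff.1 ((inf_le_inf_right _ inf_le_left).trans c3.inf_eq_bot.le), sup_bot_eq, inf_eq_right.2 hX,
      inf_relIndex_right]
  have hD : ⁅T, B⁆ ≤ T := commutator_le_left' BT
  have hW : ⁅Q, ⁅T, B⁆⁆ ≤ Q := commutator_le_left' (hD.trans TQ)
  have BD : B ≤ normalizer (⁅T, B⁆ : Subgroup G) := normalizer_commutator BT le_normalizer
  have BW : B ≤ normalizer (⁅Q, ⁅T, B⁆⁆ : Subgroup G) := normalizer_commutator BQ BD
  have k2 : Nat.card (im f B) = N + 1 := by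
    rw [card_im_of_disjoint f lB, e]
    refine H1.inf_eq_bot_of_coprime (hf ▸ coprime_card_sup ?_ (coprime_of_le_left c1.cop.symm RQ)
      (coprime_of_le_left c2.cop.symm inf_le_left))
    exact (RQ.trans (le_centralizer_iff.1 inf_le_right)).trans (centralizer_le_normalizer' _)
  have aQ : IsMulCommutative (im f Q) := le_centralizer_iff_isMulCommutative.1
    ((im_le_centralizer_iff f lQ lQ).2 (hf ▸ le_sup_of_le_left hQ'))
  have aT : IsMulCommutative (im f T) := le_centralizer_iff_isMulCommutative.1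
    ((im_le_centralizer_iff f lT lT).2 (hf ▸ le_sup_of_le_right (le_inf (commutator_le_of_le le_rfl le_rfl) hT')))
  have k3 := FT.t3_10b (M := im f ⁅Q, ⁅T, B⁆⁆) (K := im f ⁅T, B⁆) (R := im f B)
    (isSolvable_of_le (im_mono f hW) (isSolvable_of_comm' aQ)) (im_le_normalizer f BD)
    (fpf_of_prime_card (by rwa [k2, ← e]) (eq_bot_iff.2 (le_trans (le_inf (inf_le_inf_right _ (im_mono f hD))
      (inf_le_left.trans (im_commutator f lT lB).le)) (cop_abelian_inf aT (im_le_normalizer f BT) (c2.im f).cop).le)))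
    (FT.ne_bot_of_card_prime (by rwa [k2, ← e])) (im_le_normalizer f (le_normalizer_commutator_right _ _))
    (im_le_normalizer f BW) ((c3.mono hD hW).im f).cop ((c1.mono le_rfl hW).im f).cop
    (eq_bot_iff.2 (le_trans (le_inf (inf_le_inf_right _ (im_mono f hW)) (inf_le_left.trans
      (im_commutator f lQ (hD.trans lT)).le)) (cop_abelian_inf aQ (im_le_normalizer f (hD.trans TQ))
        ((c3.mono hD le_rfl).im f).cop).le))
  have k4 := Nat.le_of_dvd (Nat.mul_pos Nat.card_pos Nat.card_pos) (H9.card_sup_dvd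
    (A := im f ⁅Q, ⁅T, B⁆⁆ ⊓ centralizer (im f B : Set Γ)) (B := ⁅im f ⁅Q, ⁅T, B⁆⁆, im f B⁆)
    (inf_le_left.trans (le_normalizer_commutator_left _ _)))
  rw [sup_comm, cop_commutator_sup (im_le_normalizer f BW) ((c1.mono le_rfl hW).im f)] at k4
  have k5 := card_le_of_le ((commutator_mono (im_mono f hW) le_rfl).trans (im_commutator f lQ lB).ge)
  rw [FT.card_im_eq f (commutator_le_of_le lQ lB), k1 _ (commutator_le_left' BQ)] at k5
  rw [← im_centralizer_cop f lB BW (c1.mono le_rfl (inf_le_right.trans hW)), FT.card_im_eq f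
    (inf_le_left.trans (hW.trans lQ)), k1 _ (inf_le_left.trans hW)] at k3 k4
  rw [k2] at k3
  refine ⟨?_, fun h => ?_⟩
  · rw [k3, pow_succ'] at k4
    exact (Nat.le_of_mul_le_mul_left k4 (Nat.pos_of_ne_zero index_ne_zero_of_finite)).trans (k5.trans hN)
  · rwa [relIndex_eq_one.2 h, one_pow, FT.card_im_eq f (hW.trans lQ), k1 _ hW, relIndex_eq_one] at k3

theorem inf_centralizer_le_of_comm {Q B Z : Subgroup G} (BQ : B ≤ normalizer (Q : Set G)) (c : CopA B Q)
    (h1 : ⁅Q, Q⁆ ≤ Z) (h2 : Z ≤ Q) (h3 : B ≤ normalizer (Z : Set G)) :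
    (⁅Q, B⁆ ⊔ Z) ⊓ centralizer (B : Set G) ≤ Z := by
  obtain ⟨Γ, _, _, f, -, hf, -⟩ := exists_quot (X := Q ⊔ B) (N := Z) (h2.trans le_sup_left)
    (sup_le (H9.le_normalizer_of_commutator_le h1 h2) h3)
  have h4 : ⁅Q, B⁆ ⊔ Z ≤ Q := sup_le (commutator_le_left' BQ) h2
  rw [← hf, ← im_eq_bot_iff f (inf_le_left.trans ((hf ▸ h4).trans le_sup_left)), eq_bot_iff]
  refine le_trans (le_inf (le_inf (im_mono f (inf_le_left.trans (hf ▸ h4))) (im_le_centralizer f inf_le_right))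
    ((im_mono f inf_le_left).trans ?_)) (cop_abelian_inf (le_centralizer_iff_isMulCommutative.1
      ((im_le_centralizer_iff f le_sup_left le_sup_left).2 (hf ▸ h1))) (im_le_normalizer f BQ) (c.im f).cop).le
  rw [im_sup_kr f (commutator_le_of_le le_sup_left le_sup_right), im_commutator f le_sup_left le_sup_right]

variable {F : Type*} [Field F] {V : Type*} [AddCommGroup V] [Module F V] {ρ : G →* End F V}

theorem pq_step [IsAlgClosed F] [FiniteDimensional F V] {Q T B : Subgroup G} {W : Submodule F V} {q t : ℕ}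
    [hq : Fact q.Prime] [ht : Fact t.Prime] (qt : q ≠ t) (hQ : IsPGroup q Q) (hT : IsPGroup t T)
    (hB : (Nat.card B).Prime) (TQ : T ≤ normalizer (Q : Set G)) (BQ : B ≤ normalizer (Q : Set G))
    (BT : B ≤ normalizer (T : Set G)) (c1 : CopA B Q) (c2 : CopA B T)
    (hW : ∀ g ∈ Q ⊔ (T ⊔ B), ∀ w ∈ W, ρ g w ∈ W) (hZ : ∀ z ∈ ⁅Q, Q⁆, ∃ c : F, ∀ w ∈ W, ρ z w = c • w)
    (hZc : ⁅Q, Q⁆ ≤ centralizer (Q : Set G)) (hΦ : L.Phi Q ≤ ⁅Q, Q⁆) (hC : Q ⊓ centralizer (T : Set G) ≤ ⁅Q, Q⁆)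
    (hT' : ⁅T, T⁆ ≤ centralizer (Q : Set G)) (hQ0 : (Nat.card Q : F) ≠ 0) (hB0 : (Nat.card B : F) ≠ 0)
    (h0 : ∀ w ∈ W, w ∈ fix ρ B → w = 0) (hY : Q ≤ normalizer (ptw ρ W : Set G)) : ⁅Q, B⁆ ≤ cm hY := by
  have lQ : Q ≤ Q ⊔ (T ⊔ B) := le_sup_left
  have lT : T ≤ Q ⊔ (T ⊔ B) := le_sup_of_le_right le_sup_left
  have lB : B ≤ Q ⊔ (T ⊔ B) := le_sup_of_le_right le_sup_right
  have hle : ⁅Q, Q⁆ ≤ Q := commutator_le_of_le le_rfl le_rfl
  have nY := normalizer_ptw hW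
  have nQ : Q ⊔ (T ⊔ B) ≤ normalizer (Q : Set G) := sup_le le_normalizer (sup_le TQ BQ)
  have nR := normalizer_cm hY nQ nY
  have c3 : CopA T Q := copA_of_p hT (cop_of_isPGroup_ne qt hQ)
  have a1 : ⁅⁅Q, Q⁆, Q ⊔ (T ⊔ B)⁆ ≤ ptw ρ W := commutator_comm (Q ⊔ (T ⊔ B)) _ ▸ commutator_le.2 fun g hg z hz => by
    obtain ⟨c, hc⟩ := hZ z hz
    exact comm_mem_ptw (hW _ (inv_mem hg)) hc (hW _ (inv_mem (lQ (hle hz))))
  have a2 : ⁅Q, Q⁆ ≤ cm hY := (le_cm hY).2 ⟨hle, commutator_comm ⁅Q, Q⁆ _ ▸ (commutator_mono le_rfl lQ).trans a1⟩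
  have a3 : ∀ X ≤ Q ⊔ (T ⊔ B), ⁅⁅Q, X⁆, Q ⊓ centralizer (X : Set G)⁆ ≤ ptw ρ W := fun X hX =>
    three_subgroups hY (hX.trans nY) (inf_le_left.trans hY) (by
      rw [commutator_eq_bot_iff_le_centralizer.2 (le_centralizer_iff.1 inf_le_right), commutator_bot_left]
      exact bot_le) ((commutator_mono (commutator_mono inf_le_left le_rfl) hX).trans a1)
  have hK : ⁅Q, B⁆ ⊔ ⁅Q, Q⁆ ≤ Q := sup_le (commutator_le_left' BQ) hle
  have hY1 := hK.trans hY
  have a4 : cm hY1 ≤ cm hY := (le_cm hY).2 ⟨(cm_le hY1).trans hK, (commutator_mono (cop_commutator_sup BQ c1).ge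
    le_rfl).trans (H9.commutator_sup_le (le_sup_left.trans hY1) (inf_le_left.trans hY) ((commutator_mono le_sup_left
      le_rfl).trans ((le_cm hY1).1 le_rfl).2) ((commutator_mono le_rfl (cm_le hY1)).trans (comm_sup_le'
        (le_sup_left.trans hY1) (hle.trans hY) (commutator_comm ⁅Q, B⁆ _ ▸ a3 B lB) (commutator_comm ⁅Q, Q⁆ _ ▸
          (commutator_mono le_rfl (inf_le_left.trans lQ)).trans a1))))⟩
  have a5 : cm hY1 = (⁅Q, B⁆ ⊔ ⁅Q, Q⁆) ⊓ cm hY := le_antisymm (le_inf (cm_le hY1) a4)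
    ((le_cm hY1).2 ⟨inf_le_left, (commutator_mono hK inf_le_right).trans ((le_cm hY).1 le_rfl).2⟩)
  have nK : ∀ X ≤ T ⊔ B, X ≤ normalizer (B : Set G) → X ≤ normalizer ((⁅Q, B⁆ ⊔ ⁅Q, Q⁆ : Subgroup G) : Set G) :=
    fun X h1 h2 => have := h1.trans (le_sup_right.trans nQ)
      normalizer_sup (normalizer_commutator this h2) (normalizer_commutator this this)
  have a6 := inf_centralizer_le_of_comm BQ c1 le_rfl hle (normalizer_commutator BQ BQ)
  by_contra hne
  have T0 : T ≠ ⊥ := by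
    rintro rfl
    exact hne ((commutator_le_left' BQ).trans (((le_inf le_rfl (le_centralizer_iff.1 bot_le)).trans hC).trans a2))
  have a7 : ¬ ⁅Q, B⁆ ⊔ ⁅Q, Q⁆ ≤ cm hY1 := fun h => hne (le_sup_left.trans (h.trans a4))
  obtain ⟨N, n1, n2⟩ := rad_index (D := B) (fun g hg => hW g (sup_le (hK.trans lQ) lB hg))
    (nK B le_sup_right le_normalizer) le_sup_right (commutator_mono hK hK) hZ (FT.isCyclic_of_card_prime hB) le_rfl
    (fun a ha a1 => (FT.eq_zpowers_of_card_prime hB ha a1).ge) a6 (c1.mono le_rfl hK)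
    (natCast_ne_zero_of_dvd hQ0 (card_dvd_of_le hK)) hB0 h0 (fun h => a7 ((le_cm hY1).2 ⟨le_rfl, h⟩)) hY1
  have n3 : N ≠ 1 := fun e => a7 (relIndex_eq_one.1 (by rw [← n1, e, one_pow]))
  obtain ⟨k, hk⟩ := L.exists_relIndex_eq_pow (N := cm hY1) (hQ.to_le hK)
  obtain ⟨rfl, -⟩ := eq_two_pow_add_one hq.out hB (n1.trans hk) n3 n2
  obtain ⟨w1, w2⟩ := exc_wiel hB n2 TQ BQ BT (cm_le hY) nR a2 hT' c1 c2 c3 (by
    rw [n1, a5, inf_relIndex_left]; exact relIndex_le_of_le_right le_sup_left index_ne_zero_of_finite)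
  have hD : ⁅T, B⁆ ≤ T := commutator_le_left' BT
  have hW1 : ⁅Q, ⁅T, B⁆⁆ ≤ Q := commutator_le_left' (hD.trans TQ)
  have b1 : ⁅Q, ⁅T, B⁆⁆ ≤ cm hY := by
    refine w2 ?_
    set W0 := ⁅Q, ⁅T, B⁆⁆ ⊓ centralizer (B : Set G) with hW0
    have b0 : W0 ≤ Q := inf_le_left.trans hW1
    obtain ⟨j, hj⟩ := L.exists_relIndex_eq_pow (N := cm hY) (hQ.to_le b0)
    rcases j with _ | _ | j
    · exact relIndex_eq_one.1 hj
    swap
    · rw [hj, ← pow_mul, mul_comm, pow_mul] at w1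
      have := Nat.pow_le_pow_right (Nat.two_pow_pos N) (show 2 ≤ j + 1 + 1 by omega)
      exact absurd (pow_le_pow_left₀ (Nat.zero_le _) (Nat.lt_two_pow_self (n := N)) 2) (by nlinarith)
    refine (le_cm hY).2 ⟨b0, (commutator_mono (cop_commutator_sup (hD.trans TQ) (c3.mono hD le_rfl)).ge le_rfl).trans
      (H9.commutator_sup_le (hW1.trans hY) (inf_le_left.trans hY) ((commutator_mono (cop_commutator_sup
        (normalizer_commutator BQ (normalizer_commutator BT le_normalizer)) (c1.mono le_rfl hW1)).ge le_rfl).trans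
          (H9.commutator_sup_le (((commutator_mono hW1 le_rfl).trans (commutator_le_left' BQ)).trans hY) (b0.trans hY)
            ((commutator_mono (commutator_mono hW1 le_rfl) (inf_le_inf_right _ hW1)).trans (a3 B lB))
            (commutator_le.2 fun x hx y hy => ?_)))
        (commutator_comm W0 _ ▸ (commutator_mono inf_le_left le_rfl).trans (a3 _ (hD.trans lT))))⟩
    by_cases h1 : y ∈ cm hY
    · exact h1.2 x (b0 hx)
    by_cases h2 : x ∈ cm hY
    · rw [← commutatorElement_inv]; exact inv_mem (h2.2 y (b0 hy))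
    have h3 : x⁻¹ * y ∈ cm hY := (mul_mem_iff_of_index_two (H := (cm hY).subgroupOf W0) hj
      (a := ⟨x, hx⟩⁻¹) (b := ⟨y, hy⟩)).2 (iff_of_false (fun h => h2 ((Subgroup.inv_mem_iff _).1 h)) h1)
    have := (mem_normalizer_iff.1 (hY (b0 hx)) _).1 (h3.2 x (b0 hx))
    convert this using 1
    simp only [commutatorElement_def]; group
  obtain ⟨a, ha, a0⟩ := (bot_or_exists_ne_one _).resolve_left (FT.ne_bot_of_card_prime hB)
  have e := FT.eq_zpowers_of_card_prime hB ha a0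
  haveI := Fact.mk hB
  have nT := nK (T ⊓ centralizer (B : Set G)) (le_sup_of_le_left inf_le_left)
    (inf_le_right.trans (centralizer_le_normalizer' B))
  refine exc_gauss (T := T ⊓ centralizer (B : Set G)) hY1 (commutator_mono hK hK) (hZc.trans (centralizer_le hK))
    (fun x hx y hy h1 h2 w hw => ?_) (nK B le_sup_right le_normalizer ha) (nY (lB ha)) (fun z hz h => ?_)
    (hQ.to_le hK) n1 n3 n2 (e ▸ FT.isPGroup_of_card_prime rfl) (hT.to_le inf_le_left) qt.symm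
    (fun e => hB.ne_one (Nat.eq_one_of_dvd_coprimes c2.cop dvd_rfl (e ▸ H9.dvd_card_of_isPGroup hT T0))) nT
    (inf_le_left.trans (lT.trans nY)) (inf_le_right.trans (centralizer_le (Set.singleton_subset_iff.2 ha)))
    fun x hx => ?_
  · have : ∀ x ∈ ⁅Q, Q⁆, x ∉ ptw ρ W → ∀ w ∈ W, ρ x w = -w := fun x hx h w hw => by
      obtain ⟨c, hc⟩ := hZ x hx
      by_cases w0 : w = 0
      · simp [w0]
      have h2 : ρ (x ^ 2) w = w := by rw [L.commutator_exp_of_Phi hQ (hΦ.trans hZc) hx, map_one]; rfl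
      rw [sq, rho_mul, hc w hw, map_smul, hc w hw, smul_smul] at h2
      rcases mul_self_eq_one_iff.1 (smul_left_injective F w0 (h2.trans (one_smul F w).symm)) with e | e
      · exact absurd (fun u hu => by rw [hc u hu, e, one_smul]) h
      · rw [hc w hw, e, neg_one_smul]
    rw [rho_mul, this y hy h2 w hw, map_neg, this x hx h1 w hw, neg_neg]
  · refine mem_of_commutator_mem hB (normalizer_cm hY1 (nK B le_sup_right le_normalizer) (lB.trans nY))
      (normalizer_cm hY1 le_normalizer hY1) (coprime_of_le_right c1.cop ((cm_le hY1).trans hK)) (cm_le hY1)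
      (a6.trans (a5 ▸ le_inf le_sup_right a2)) (mul_mem ha ha) (fun h2 => n3 ?_) hz (by
        rw [← commutatorElement_inv]; exact inv_mem h)
    have := orderOf_dvd_of_pow_eq_one ((sq a).trans h2)
    rw [← Nat.card_zpowers, e] at this
    have := (Nat.prime_dvd_prime_iff_eq hB Nat.prime_two).1 this
    omega
  · rw [a5]
    obtain ⟨d, hd, e⟩ := cop_fixed (lT.trans nR) (c3.mono le_rfl (cm_le hY)) (x := x) fun g hg =>
      H9.commutator_sup_le (C := zpowers x) (hD.trans (lT.trans nR)) (inf_le_left.trans (lT.trans nR))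
        (commutator_comm (zpowers x) _ ▸ (commutator_mono (zpowers_le.2 (hK hx.1)) le_rfl).trans b1) (by
          rw [commutator_eq_bot_iff_le_centralizer.2 (le_centralizer_iff.1 (zpowers_le.2 hx.2))]; exact bot_le)
        (commutator_mem_commutator ((cop_commutator_sup BT c2).ge hg) (mem_zpowers x))
    exact ⟨hx.1, (mul_mem_cancel_left hd).1 (a2 (hC ⟨mul_mem (cm_le hY hd) (hK hx.1), e⟩))⟩

end H1
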