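import Cfsg.Agent.H1.Pq1

/-! H1.Pq2: noncyclic fixed-point-free operator groups whose proper subgroups have prime order: Fitting height two. -/

open Cfsg Module Subgroup H9
open scoped commutatorElement Pointwise

namespace H1

universe u v

variable {G : Type u} [Group G] [Finite G] {F : Type*} [Field F]

omit [Finite G] in
theorem Wt.prod_apply {ι : Type*} {A : Subgroup G} (s : Finset ι) (f : ι → Wt F A) (b : A) :
    (∏ i ∈ s, f i) b = ∏ i ∈ s, f i b := by
  classical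
  induction s using Finset.induction_on with
  | empty => rfl
  | insert i s hi ih => rw [Finset.prod_insert hi, Finset.prod_insert hi, Wt.mul_apply, ih]

theorem prod_wt {Z A : Subgroup G} [Z.Normal] (c : CopA A Z) (hf : Z ⊓ centralizer (A : Set G) = ⊥) (χ : Wt F Z)
    (y : Z) (h : ∀ g ∈ A, g • χ ≠ χ → (g • χ) y = 1) : χ y = 1 := by
  classical
  haveI := Fintype.ofFinite A
  have h1 : (∏ g : A, (g : G) • χ) y = 1 := Wt.apply_eq_one_of_smul_eq (P := A) (fun a ha => Wt.ext fun b => by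
    rw [Wt.smul_apply, Wt.prod_apply, Wt.prod_apply]
    simp only [← Wt.smul_apply, smul_smul]
    exact Equiv.prod_comp (Equiv.mulLeft (⟨a, ha⟩ : A)) fun g : A => ((g : G) • χ) b) (by
      have := cop_commutator_sup le_normalizer_of_normal c
      rw [hf, sup_bot_eq, commutator_comm] at this
      exact this.ge y.2)
  rw [Wt.prod_apply, ← Finset.prod_filter_mul_prod_filter_not Finset.univ fun g : A => (g : G) • χ = χ,
    Finset.prod_eq_one (s := Finset.filter (fun g : A => ¬ (g : G) • χ = χ) _) fun g hg => h g g.2 (Finset.mem_filter.1 hg).2, mul_one,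
    Finset.prod_congr rfl (g := fun _ => χ y) fun g hg => by rw [(Finset.mem_filter.1 hg).2], Finset.prod_const,
    ← Fintype.card_subtype, ← Nat.card_eq_fintype_card] at h1
  exact orderOf_eq_one_iff.1 (Nat.eq_one_of_dvd_coprimes c.cop ((orderOf_dvd_of_pow_eq_one h1).trans
    (card_subgroup_dvd_card ((MulAction.stabilizer G χ).subgroupOf A)))
    (orderOf_dvd_of_pow_eq_one (by rw [← map_pow, pow_card_eq_one', map_one])))

omit [Finite G] in
theorem sup_eq_of_pq {A B X : Subgroup G} (hA : ∀ B < A, B ≠ ⊥ → (Nat.card B).Prime) (hB : B ≤ A) (B0 : B ≠ ⊥)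
    (hX : X ≤ A) (h : ¬ X ≤ B) : B ⊔ X = A := by_contra fun e => h (le_sup_right.trans
  ((FT.eq_bot_or_eq_of_card_prime (hA _ (lt_of_le_of_ne (sup_le hB hX) e) fun e => B0 (le_bot_iff.1
    (le_sup_left.trans e.le))) le_sup_left).resolve_left B0).ge)

theorem pq_fin {Q T A B R : Subgroup G} (hA : ∀ B < A, B ≠ ⊥ → (Nat.card B).Prime) (hnc : ¬ IsCyclic A)
    (TQ : T ≤ normalizer (Q : Set G)) (AQ : A ≤ normalizer (Q : Set G)) (AT : A ≤ normalizer (T : Set G))
    (c1 : CopA A Q) (c2 : CopA A T) (c3 : CopA T Q) (sQ : Group.IsSolvable Q)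
    (fQ : Q ⊓ centralizer (A : Set G) = ⊥) (fT : T ⊓ centralizer (A : Set G) = ⊥)
    (mT : ∀ X < T, A ≤ normalizer (X : Set G) → X ≤ centralizer (Q : Set G)) (hne : ¬ Q ≤ centralizer (T : Set G))
    (h2 : ⁅Q, T⁆ = Q) (h4 : ∀ X < Q, T ⊔ A ≤ normalizer (X : Set G) → X ≤ ⁅Q, Q⁆)
    (hC : Q ⊓ centralizer (T : Set G) ≤ ⁅Q, Q⁆) (hB : B < A) (B0 : B ≠ ⊥) (r1 : ⁅Q, Q⁆ ≤ R) (r2 : ⁅Q, B⁆ ≤ R)
    (r3 : ⁅Q, ⁅T, B⁆⁆ ≤ R) : ∃ Q0 ≤ Q, Q ≤ R ⊔ Q0 ∧ ∀ g ∈ A, g ∉ B → Q0 ≤ cj g R := by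
  have BT := hB.le.trans AT
  have hD : ⁅T, B⁆ ≤ T := commutator_le_left' BT
  by_cases hn : A ≤ normalizer (B : Set G)
  · refine ⟨⊥, bot_le, le_sup_of_le_left ?_, fun _ _ _ => bot_le⟩
    by_cases e : ⁅T, B⁆ = T
    · rwa [e, h2] at r3
    have e1 : T ≤ centralizer (B : Set G) := by_contra fun e1 => hne (le_centralizer_iff.1
      ((cop_commutator_sup BT (c2.mono hB.le le_rfl)).ge.trans (sup_le (mT _ (lt_of_le_of_ne hD e)
        (normalizer_commutator AT hn)) (mT _ (lt_of_le_of_ne inf_le_left fun e => e1 (inf_eq_left.1 e))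
          (normalizer_inf AT (normalizer_centralizer hn))))))
    refine (cop_commutator_sup (hB.le.trans AQ) (c1.mono hB.le le_rfl)).ge.trans (sup_le r2 ((h4 _
      (lt_of_le_of_ne inf_le_left fun e2 => hne ?_) (normalizer_inf (sup_le TQ AQ) (normalizer_centralizer
        (sup_le (e1.trans (centralizer_le_normalizer' B)) hn)))).trans r1))
    obtain ⟨x, hx, hxB⟩ := SetLike.not_le_iff_exists.1 hB.not_ge
    have x1 := zpowers_le.2 hx
    have x2 := sup_eq_of_pq hA hB.le B0 x1 (mt zpowers_le.1 hxB)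
    have x3 : ∀ X, X ≤ centralizer (B : Set G) → X ⊓ centralizer (A : Set G) = ⊥ →
        X ⊓ centralizer (zpowers x : Set G) = ⊥ := fun X h1 h2 => eq_bot_iff.2 (le_trans (le_inf inf_le_left (by
      rw [← x2, H9.centralizer_sup]; exact inf_le_inf_right _ h1)) h2.le)
    exact le_centralizer_iff.1 (FT.t3_3 sQ (x1.trans AT) (fpf_of_prime_card (hA _ (lt_of_le_of_ne x1 fun e =>
      hnc (e ▸ inferInstance)) fun e => hxB ((zpowers_eq_bot.1 e) ▸ B.one_mem)) (x3 T e1 fT)) TQ (x1.trans AQ)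
      c3.cop (c1.mono x1 le_rfl).cop (x3 Q (inf_eq_left.1 e2) fQ))
  refine ⟨Q ⊓ centralizer (⁅T, B⁆ : Subgroup G), inf_le_left, (cop_commutator_sup (hD.trans TQ)
    (c3.mono hD le_rfl)).ge.trans (sup_le_sup_right r3 _), fun g hg gB => ?_⟩
  have g1 : cj g B ≤ A := (cj_mono g hB.le).trans (mem_normalizer_iff_cj.1 (le_normalizer hg)).le
  have g2 := sup_eq_of_pq hA hB.le B0 g1 fun h => hn ((sup_eq_of_pq hA hB.le B0 (zpowers_le.2 hg)
    (mt zpowers_le.1 gB)).ge.trans (sup_le le_normalizer (zpowers_le.2 (mem_normalizer_of_cj_le h))))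
  have g3 : ⁅T, cj g B⁆ ≤ T := commutator_le_left' (g1.trans AT)
  have g4 : T ≤ ⁅T, B⁆ ⊔ ⁅T, cj g B⁆ := by
    have := cop_commutator_sup AT c2
    rw [fT, sup_bot_eq, ← g2] at this
    exact this.ge.trans (comm_sup_le' (H9.le_normalizer_of_commutator_le le_sup_left (sup_le hD g3))
      (H9.le_normalizer_of_commutator_le le_sup_right (sup_le hD g3)) le_sup_left le_sup_right)
  refine (cop_commutator_sup (g3.trans (normalizer_inf TQ (normalizer_centralizer
    (le_normalizer_commutator_left T B)))) (c3.mono g3 inf_le_left)).ge.trans (sup_le ?_ ?_)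
  · rw [cj_comm_left (AT hg)]
    exact (commutator_mono inf_le_left le_rfl).trans ((cj_comm_left (AQ hg)).le.trans (cj_mono g r3))
  · refine le_trans (le_trans ?_ hC) ((mem_normalizer_iff_cj.1 (normalizer_commutator AQ AQ hg)).ge.trans (cj_mono g r1))
    rw [inf_assoc, ← H9.centralizer_sup]
    exact inf_le_inf_left _ (centralizer_le g4)

variable {V : Type*} [AddCommGroup V] [Module F V] {ρ : G →* End F V}

omit [Finite G] in
theorem mem_ptw_wt {Z : Subgroup G} {χ : Wt F Z} (h : wt ρ χ ≠ ⊥) (z : Z) : (z : G) ∈ ptw ρ (wt ρ χ) ↔ χ z = 1 := by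
  obtain ⟨w, hw, w0⟩ := (Submodule.ne_bot_iff _).1 h
  exact ⟨fun h => Units.ext (smul_left_injective F w0 ((hw z).symm.trans ((h w hw).trans (one_smul F w).symm))),
    fun h u hu => by rw [hu z, h]; simp⟩

theorem prod_ptw {Z A : Subgroup G} [Z.Normal] (c : CopA A Z) (hf : Z ⊓ centralizer (A : Set G) = ⊥) {χ : Wt F Z}
    (h0 : wt ρ χ ≠ ⊥) {X : Subgroup G} (hX : X ≤ Z)
    (h : ∀ g ∈ A, g ∉ A ⊓ MulAction.stabilizer G χ → X ≤ cj g (ptw ρ (wt ρ χ))) : X ≤ ptw ρ (wt ρ χ) :=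
  fun y hy => (mem_ptw_wt h0 ⟨y, hX hy⟩).2 (prod_wt c hf χ _ fun g hg e => by
    rw [Wt.smul_apply, ← mem_ptw_wt h0]
    exact mem_cj.1 (h g hg (fun h => e h.2) hy))

theorem stab_lt {Z A : Subgroup G} [Z.Normal] (c : CopA A Z) (hf : Z ⊓ centralizer (A : Set G) = ⊥) {χ : Wt F Z}
    {z : Z} (h : χ z ≠ 1) {g : G} : ¬ cj g A ≤ MulAction.stabilizer G χ := fun e => h (by
  have := cop_commutator_sup le_normalizer_of_normal c
  rw [hf, sup_bot_eq, commutator_comm] at this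
  refine Wt.apply_eq_one_of_smul_eq e ?_
  have e := congrArg (cj g) this
  rw [cj_commutator, cj_eq_of_normal g Z] at e
  exact e.ge z.2)

theorem pq_core [IsAlgClosed F] [FiniteDimensional F V] {Q T A : Subgroup G} [Q.Normal] {q t : ℕ}
    [hq : Fact q.Prime] [ht : Fact t.Prime] (qt : q ≠ t) (hQ : IsPGroup q Q) (hT : IsPGroup t T)
    (hA : ∀ B < A, B ≠ ⊥ → (Nat.card B).Prime) (hnc : ¬ IsCyclic A) (AT : A ≤ normalizer (T : Set G))
    (c1 : CopA A Q) (c2 : CopA A T) (fQ : Q ⊓ centralizer (A : Set G) = ⊥) (fT : T ⊓ centralizer (A : Set G) = ⊥)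
    (mT : ∀ X < T, A ≤ normalizer (X : Set G) → X ≤ centralizer (Q : Set G))
    (mQ : ∀ X < Q, T ⊔ A ≤ normalizer (X : Set G) → X ≤ centralizer (T : Set G))
    (hQ0 : (Nat.card Q : F) ≠ 0) (hA0 : (Nat.card A : F) ≠ 0) (h0 : fix ρ A = ⊥) (hf : Q ⊓ ρ.ker = ⊥) :
    Q ≤ centralizer (T : Set G) := by
  by_contra hne
  have c3 : CopA T Q := copA_of_p hT (cop_of_isPGroup_ne qt hQ)
  have sQ : Group.IsSolvable Q := isSolvable_of_isPGroup hQ
  have nT : T ⊔ A ≤ normalizer (T : Set G) := sup_le le_normalizer AT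
  obtain ⟨-, h2, h3, h4⟩ := min_action le_sup_left le_normalizer_of_normal nT
    ⟨sup_comm A T ▸ coprime_card_sup AT c1.cop c3.cop, Or.inr sQ⟩ mQ hne
  have hC := h4 _ (lt_of_le_of_ne inf_le_left fun e => hne (inf_eq_left.1 e))
    (normalizer_inf le_normalizer_of_normal (normalizer_centralizer nT))
  have fin := fun B R => pq_fin (B := B) (R := R) hA hnc le_normalizer_of_normal le_normalizer_of_normal AT c1 c2 c3
    sQ fQ fT mT hne h2 h4 hC
  have hle : ⁅Q, Q⁆ ≤ Q := commutator_le_of_le le_rfl le_rfl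
  have Q0 : Q ≠ ⊥ := fun e => hne (e ▸ bot_le)
  have T0 : T ≠ ⊥ := fun e => hne (le_centralizer_iff.1 (e ▸ bot_le))
  have ex : ∀ (Z : Subgroup G) [Z.Normal], Z ≤ Q → Z ≠ ⊥ → ⁅Z, Z⁆ = ⊥ → ∃ χ : Wt F Z, wt ρ χ ≠ ⊥ ∧
      (∃ z, χ z ≠ 1) ∧ A ⊓ MulAction.stabilizer G χ < A ∧ A ⊓ MulAction.stabilizer G χ ≠ ⊥ := fun Z _ z1 z2 z3 => by
    obtain ⟨a, ha, ha1⟩ := (bot_or_exists_ne_one _).resolve_left z2
    have hZ0 := natCast_ne_zero_of_dvd hQ0 (card_dvd_of_le z1)
    have := mt (rho_eq_one_of_wt (ρ := ρ) hZ0 (z3.le.trans bot_le) ⟨a, ha⟩) fun e => ha1 (mem_bot.1 (hf.le ⟨z1 ha, e⟩))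
    push Not at this
    obtain ⟨χ, w1, w2⟩ := this
    obtain ⟨b, b1, b2, b3⟩ := exists_stab hZ0 hA0 h0 w1
    exact ⟨χ, w1, ⟨_, w2⟩, lt_of_le_of_ne inf_le_left fun e => stab_lt (g := 1) (c1.mono le_rfl z1)
      (eq_bot_iff.2 ((inf_le_inf_right _ z1).trans fQ.le)) w2 (by simpa using inf_eq_left.1 e),
      fun e => b2 (mem_bot.1 (e.le ⟨b1, b3⟩))⟩
  by_cases h6 : ⁅Q, Q⁆ = ⊥
  · obtain ⟨χ, w1, ⟨z, w2⟩, w3, w4⟩ := ex Q le_rfl Q0 h6
    set S := MulAction.stabilizer G χ with hS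
    have k1 : ∀ P ≤ S, ⁅Q, P⁆ ≤ ptw ρ (wt ρ χ) := fun P hP y hy => (mem_ptw_wt w1
      ⟨y, commutator_le_left Q P hy⟩).2 (Wt.apply_eq_one_of_smul_eq hP (commutator_comm Q P ▸ hy))
    have k2 : A ⊓ (T ⊔ S ⊓ (T ⊔ A)) ≠ A := fun e => by
      obtain ⟨n, -, hn⟩ := glauberman S AT c2.cop c2.sol fun b hb => by
        obtain ⟨n, hn, m, hm, e⟩ := (mem_sup_of_le_normalizer_left (inf_le_right.trans nT)).1 (inf_eq_left.1 e hb)
        exact ⟨n, hn, m, hm.1, e.symm⟩
      exact stab_lt c1 fQ w2 hn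
    have k3 := hA _ (lt_of_le_of_ne inf_le_left k2) fun e => w4 (eq_bot_iff.2 (le_trans (le_inf inf_le_left
      (le_sup_of_le_right (le_inf inf_le_right (le_sup_of_le_right inf_le_left)))) e.le))
    obtain ⟨Q0, q1, q2, q3⟩ := fin _ _ w3 w4 (h6.le.trans bot_le) (k1 _ inf_le_right) (k1 _ (commutator_le.2
      fun x hx b hb => by
        obtain ⟨a, a1, a2, a3⟩ := exists_stab hQ0 hA0 h0 (wt_smul_ne_bot w1 x⁻¹)
        have a4 : x * a * x⁻¹ ∈ S := by
          rw [MulAction.mem_stabilizer_iff, mul_smul, mul_smul, a3, smul_inv_smul]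
        have a5 : a ∈ A ⊓ (T ⊔ S ⊓ (T ⊔ A)) := ⟨a1, by
          have := mul_mem (mul_mem (mem_sup_left (inv_mem hx)) (mem_sup_right (S := T) (show _ ∈ S ⊓ (T ⊔ A) from ⟨a4,
            mul_mem (mul_mem (mem_sup_left hx) (mem_sup_right a1)) (mem_sup_left (inv_mem hx))⟩))) (mem_sup_left hx)
          simpa [mul_assoc] using this⟩
        obtain ⟨k, rfl⟩ := (FT.eq_zpowers_of_card_prime k3 a5 a2).ge
          (⟨hb.1, mem_sup_right ⟨hb.2, mem_sup_right hb.1⟩⟩ : b ∈ A ⊓ (T ⊔ S ⊓ (T ⊔ A)))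
        exact S.mul_mem (by simpa only [conj_zpow] using S.zpow_mem a4 k) (S.inv_mem hb.2)))
    exact w2 ((mem_ptw_wt w1 z).1 ((q2.trans (sup_le le_rfl (prod_ptw c1 fQ w1 q1 q3))) z.2))
  have hZc := h3.trans (centralizer_le (le_sup_left : Q ≤ Q ⊔ T))
  obtain ⟨χ, w1, ⟨z, w2⟩, w3, w4⟩ := ex _ hle h6 (commutator_eq_bot_iff_le_centralizer.2 (hZc.trans (centralizer_le hle)))
  set B := A ⊓ MulAction.stabilizer G χ with hB
  have c4 : Q ⊔ (T ⊔ B) ≤ MulAction.stabilizer G χ := by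
    rw [← sup_assoc]
    exact sup_le (fun g hg => smul_wt_of_centralizer (le_centralizer_iff.1 h3 hg) χ) inf_le_right
  have c6 : ∀ g ∈ Q ⊔ (T ⊔ B), ∀ u ∈ wt ρ χ, ρ g u ∈ wt ρ χ := fun g hg u hu => (c4 hg : g • χ = χ) ▸ rho_mem_wt hu g
  have hY := le_sup_left.trans (normalizer_ptw c6)
  have nR := normalizer_cm hY (le_normalizer_of_normal (K := Q ⊔ (T ⊔ B))) (normalizer_ptw c6)
  have k1 := pq_step qt hQ hT (hA _ w3 w4) le_normalizer_of_normal le_normalizer_of_normal (w3.le.trans AT)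
    (c1.mono w3.le le_rfl) (c2.mono w3.le le_rfl) c6 (fun z hz => ⟨_, fun u hu => hu ⟨z, hz⟩⟩) hZc
    (h4 _ (lt_of_le_of_ne (L.Phi_le Q) fun e => Q0 (le_bot_iff.1 (le_of_Phi_sup bot_le (le_sup_of_le_left e.ge))))
      (L.normalizer_Phi le_normalizer_of_normal)) hC (mT _ (commutator_lt_of_p hT hT le_normalizer T0)
        (normalizer_commutator AT AT)) hQ0 (natCast_ne_zero_of_dvd hA0 (card_dvd_of_le w3.le))
    (fun u hu h => orb (natCast_ne_zero_of_dvd hQ0 (card_dvd_of_le hle)) hA0 h0 hu fun b hb hb' => h b ⟨hb, hb'⟩) hY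
  have k2 : ⁅Q, Q⁆ ≤ cm hY := (le_cm hY).2 ⟨hle, by
    rw [commutator_comm, commutator_eq_bot_iff_le_centralizer.2 hZc]; exact bot_le⟩
  obtain ⟨Q0, q1, q2, q3⟩ := fin _ _ w3 w4 k2 k1 (commutator_comm ⁅T, B⁆ _ ▸ three_subgroups
    (le_sup_of_le_right le_sup_left |>.trans nR) (le_sup_of_le_right le_sup_right |>.trans nR) (le_sup_left.trans nR)
    ((commutator_mono (commutator_comm Q B ▸ k1) le_rfl).trans (commutator_le_left'
      (le_sup_of_le_right le_sup_left |>.trans nR))) ((commutator_mono h2.le le_rfl).trans k1))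
  refine w2 ((mem_ptw_wt w1 z).1 (((le_cm hY).1 (q2.trans (sup_le le_rfl ((le_cm hY).2 ⟨q1, prod_ptw
    (c1.mono le_rfl hle) (eq_bot_iff.2 ((inf_le_inf_right _ hle).trans fQ.le)) w1 (commutator_mono le_rfl q1)
      fun g hg gB => (commutator_mono le_rfl (q3 g hg gB)).trans ?_⟩)))).2 z.2))
  rw [cj_comm_left (le_normalizer_of_normal (K := ⊤) trivial)]
  exact cj_mono g ((le_cm hY).1 le_rfl).2

theorem pq_lin [IsAlgClosed F] [FiniteDimensional F V] {A K : Subgroup G} (hA : ∀ B < A, B ≠ ⊥ → (Nat.card B).Prime)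
    (hnc : ¬ IsCyclic A) (h : Lin ρ A K) : Group.IsNilpotent K := by
  haveI := h.nrm
  have cop : ∀ X ≤ K, CopA A X := fun X hX => ⟨coprime_of_le_right h.cop hX, Or.inr (isSolvable_of_le hX h.sol)⟩
  have fp : ∀ X ≤ K, X ⊓ centralizer (A : Set G) = ⊥ := fun X hX =>
    eq_bot_iff.2 ((inf_le_inf_right _ hX).trans h.fpf.le)
  suffices K ≤ Fit K from le_antisymm (Fit_le K) this ▸ Fit_nil K
  refine FT.le_Fit_of_Ores h.sol le_rfl le_normalizer fun q _ => Ores_le_iff.2 fun P p1 p2 =>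
    le_of_forall_syl fun t _ => ?_
  obtain ⟨S, hS⟩ := exists_syl (p := t) P
  refine ⟨S, hS, ?_⟩
  by_cases qt : q = t
  · rw [le_bot_iff.1 ((le_inf le_rfl le_rfl).trans (H1.inf_eq_bot_of_coprime (isPGroup_coprime hS.isP
      (qt ▸ p2.coprime_dvd_left (card_dvd_of_le hS.le)))).le)]
    exact bot_le
  suffices ∀ T ≤ K, IsPGroup t T → A ≤ normalizer (T : Set G) → T ≤ centralizer (Op q K : Set G) by
    obtain ⟨T, hT, AT⟩ := cop_exists_syl le_normalizer_of_normal (cop K le_rfl) t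
    obtain ⟨g, hg, e⟩ := hT.exists_le_cj hS.isP (hS.le.trans p1)
    exact e.trans ((cj_mono g (this T hT.le hT.isP AT)).trans
      (mem_normalizer_iff_cj.1 (normalizer_centralizer (le_normalizer_Op q K) hg)).le)
  intro T
  induction T using WellFoundedLT.induction with | ind T ihT
  intro TK hT AT
  suffices ∀ Q ≤ Op q K, T ⊔ A ≤ normalizer (Q : Set G) → Q ≤ centralizer (T : Set G) from
    le_centralizer_iff.1 (this _ le_rfl (normalizer_Op le_normalizer_of_normal))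
  intro Q
  induction Q using WellFoundedLT.induction with | ind Q ihQ
  intro QO nQ
  have QK := QO.trans (Op_le q K)
  let L := Q ⊔ (T ⊔ A)
  have lQ : Q ≤ L := le_sup_left
  have lT : T ≤ L := le_sup_of_le_right le_sup_left
  have lA : A ≤ L := le_sup_of_le_right le_sup_right
  haveI := normal_subgroupOf' (sup_le le_normalizer nQ : L ≤ _)
  have fp' : ∀ X ≤ K, X.subgroupOf L ⊓ centralizer (A.subgroupOf L : Set L) = ⊥ := fun X hX => by
    rw [← subgroupOf_centralizer lA, subgroupOf, subgroupOf, ← comap_inf, fp X hX]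
    exact bot_subgroupOf L
  have := pq_core (ρ := ρ.comp L.subtype) (Q := Q.subgroupOf L) (T := T.subgroupOf L) (A := A.subgroupOf L) qt
    (((Op_p q K).to_le QO).comap_of_injective _ L.subtype_injective) (hT.comap_of_injective _ L.subtype_injective)
    (fun B b1 b2 => by
      rw [← card_map_of_injective L.subtype_injective]
      exact hA _ (lt_of_le_of_ne (map_le_iff_le_comap.2 b1.le) fun e => b1.ne (by
        rw [← subgroupOf_map_subtype' _ B, e])) fun e => b2 ((map_eq_bot_iff_of_injective _ L.subtype_injective).1 e))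
    (fun e => hnc (isCyclic_of_surjective _ (subgroupOfEquivOfLe lA).surjective)) (subgroupOf_le_normalizer AT)
    (cop Q QK).subgroupOf (cop T TK).subgroupOf (fp' Q QK) (fp' T TK)
    (min_subgroupOf lT lQ lA fun X x1 x2 => (ihT X x1 (x1.le.trans TK) (hT.to_le x1.le) x2).trans (centralizer_le QO))
    (subgroupOf_sup lT lA ▸ min_subgroupOf lQ lT le_sup_right fun X x1 => ihQ X x1 (x1.le.trans QO))
    (by rw [card_subgroupOf lQ]; exact natCast_ne_zero_of_dvd h.hF (card_dvd_of_le (QO.trans (Op_le_Fit K))))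
    (by rw [card_subgroupOf lA]; exact h.hA) (by rw [fix_subgroupOf lA, h.fixA])
    (eq_bot_iff.2 fun x hx => Subtype.ext (h.ker.le ⟨QK hx.1, hx.2⟩))
  rw [← subgroupOf_centralizer lT] at this
  exact fun x hx => this (show (⟨x, lQ hx⟩ : L) ∈ _ from hx)

theorem pq_fh {G : Type u} [Group G] [Finite G] (hG : Group.IsSolvable G) {A : Type v} [Group A] [Finite A]
    (φ : A →* MulAut G) (hc : (Nat.card A).Coprime (Nat.card G) ∨ ∃ p, p.Prime ∧ IsPGroup p A)
    (hfpf : ∀ g, (∀ a, φ a g = g) → g = 1) {p q : ℕ} (hp : p.Prime) (hq : q.Prime) (hA : Nat.card A = p * q)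
    (hnc : ¬ IsCyclic A) : FH 2 (⊥ : Subgroup G) ⊤ := by
  obtain ⟨Γ, _, _, i, j, hi, hj, h⟩ := exists_fpa hG φ hc hfpf
  haveI := h.nrm
  obtain ⟨n, hn⟩ := WellFoundedLT.antitone_chain_condition (Subgroup.lowerCentralSeries_antitone i.range)
  have hX := Subgroup.lowerCentralSeries_antitone i.range n.zero_le
  refine (FH.cons (n := 1) (X := i.range.lowerCentralSeries n) ⟨![i.range.lowerCentralSeries n, i.range], rfl, rfl,
    Fin.monotone_iff_le_succ.2 fun k => by fin_cases k; exact hX,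
    fun k => by fin_cases k; exacts [lowerCentralSeries_normal i.range n, h.nrm],
    fun k => by fin_cases k; exact ⟨n, le_rfl⟩⟩ ?_).of_range hi
  refine fpa_red (fun Δ _ K => Group.IsNilpotent K) (fun Δ _ _ j K F _ _ W _ _ _ ρ hj h => pq_lin (fun B b1 b2 => ?_)
    (fun e => hnc (isCyclic_of_surjective _ (MonoidHom.ofInjective hj).symm.surjective)) h) Γ j _ hj h _ hX
    inferInstance fun Δ _ f hf => ?_
  · have e := card_dvd_of_le b1.le
    have e' := card_lt_of_lt b1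
    rw [← Nat.card_congr (MonoidHom.ofInjective hj).toEquiv, hA] at e e'
    obtain ⟨a, b, ha, hb, e⟩ := (Nat.dvd_mul).1 e
    rcases (Nat.dvd_prime hp).1 ha with e1 | e1 <;> rcases (Nat.dvd_prime hq).1 hb with e2 | e2 <;> rw [e1, e2] at e
    · exact absurd (card_eq_one.1 e.symm) b2
    · rwa [← e, one_mul]
    · rwa [← e, mul_one]
    · exact absurd e e'.ne'
  · obtain ⟨m, hm⟩ := (isNilpotent_iff_lowerCentralSeries _).1 hf
    rw [← map_lowerCentralSeries, Subgroup.map_eq_bot_iff] at hm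
    exact (hn _ (le_max_left n m)).le.trans ((Subgroup.lowerCentralSeries_antitone _ (le_max_right n m)).trans hm)

end H1
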