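import Cfsg.Agent.H1.KJ
import Cfsg.Agent.H1.Extra

/-! H1.Q6: fixed points of elements of order `p` on elementary abelian `p`-groups. -/

open Pointwise Cfsg Subgroup H9 Module
open scoped commutatorElement

namespace H1

universe u

theorem finrank_ker_pow {F V : Type*} [Field F] [AddCommGroup V] [Module F V] [FiniteDimensional F V] (f : End F V) :
    ∀ k, finrank F (LinearMap.ker (f ^ k)) ≤ k * finrank F (LinearMap.ker f)
  | 0 => by simp [End.one_eq_id]
  | k + 1 => by
    rw [← LinearMap.finrank_range_add_finrank_ker (f.domRestrict _), LinearMap.ker_domRestrict,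
      ← Submodule.finrank_map_subtype_eq, add_mul, one_mul]
    exact add_le_add ((Submodule.finrank_mono (by rintro _ ⟨x, rfl⟩; simpa [pow_succ] using x.2)).trans
      (finrank_ker_pow f k)) (Submodule.finrank_mono (Submodule.map_comap_le _ _))

variable {G : Type u} [Group G] [Finite G] {p : ℕ} [hp : Fact p.Prime]

theorem card_le_fix_pow {V : Subgroup G} (hV : IsElementaryAbelian p V) {a : G} (ha : a ∈ normalizer (V : Set G))
    (h : a ^ p = 1) : Nat.card V ≤ Nat.card (V ⊓ centralizer {a} : Subgroup G) ^ p := by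
  obtain ⟨W, _, _, _, ρ, -, e⟩ := exists_rep_zmod hV (le_refl (normalizer (V : Set G)))
  have e0 := e ⊥ bot_le
  have e1 := e _ (zpowers_le.2 ha)
  rw [bot_subgroupOf, fix_bot, inf_eq_left.2 fun g _ x hx => by rw [mem_bot.1 hx]; simp] at e0
  rw [H9.centralizer_zpowers] at e1
  have k : fix ρ ((zpowers a).subgroupOf _) = LinearMap.ker (ρ ⟨a, ha⟩ - 1) := by
    ext v
    have : (zpowers a).subgroupOf (normalizer (V : Set G)) = zpowers ⟨a, ha⟩ :=
      map_injective (subtype_injective _) (by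
        rw [MonoidHom.map_zpowers, subgroupOf_map_subtype, inf_eq_left.2 (zpowers_le.2 ha)]
        rfl)
    rw [this, mem_fix_zpowers, LinearMap.mem_ker, LinearMap.sub_apply, sub_eq_zero]; rfl
  rw [e0, e1, k, ← pow_mul, mul_comm]
  refine Nat.pow_le_pow_right hp.out.pos (le_trans (le_of_eq ?_) (finrank_ker_pow _ p))
  cases subsingleton_or_nontrivial W
  · rw [Subsingleton.elim ((ρ ⟨a, ha⟩ - 1) ^ p) 0, LinearMap.ker_zero]
  have : CharP (End (ZMod p) W) p := charP_of_injective_algebraMap (algebraMap (ZMod p) _).injective p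
  rw [sub_pow_char_of_commute _ (Commute.one_right _), ← map_pow, show (⟨a, ha⟩ : normalizer (V : Set G)) ^ p = 1 from
    Subtype.ext h, map_one, one_pow, sub_self, LinearMap.ker_zero]

theorem pow_le_fix {V : Subgroup G} (hV : IsElementaryAbelian p V) {a : G} (ha : a ∈ normalizer (V : Set G))
    (h : a ^ p = 1) {k : ℕ} (hk : p ^ (k * p) < Nat.card V) : ∃ F, FT.El p (k + 1) F (V ⊓ centralizer {a}) := by
  obtain ⟨n, hn⟩ := FT.exists_el_of_elem (el_le hV (inf_le_left (b := centralizer {a}))) le_rfl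
  have := hk.trans_le (card_le_fix_pow hV ha h)
  rw [hn.card, ← pow_mul, Nat.pow_lt_pow_iff_right hp.out.one_lt] at this
  obtain ⟨F, -, hF⟩ := hn.exists_le (Nat.lt_of_mul_lt_mul_right this)
  exact ⟨F, hF⟩

theorem el_ext {n m : ℕ} {A F H K : Subgroup G} (hA : FT.El p n A H) (hF : FT.El p m F K) (h : m ≤ n)
    (hc : F ≤ centralizer (A : Set G)) : ∃ B, FT.El p n B (A ⊔ F) ∧ F ≤ B ∧ B ≤ centralizer (A : Set G) := by
  have c : A ⊔ F ≤ centralizer ((A ⊔ F : Subgroup G) : Set G) := sup_le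
    (le_centralizer_iff.1 (sup_le hA.le_centralizer hc)) (le_centralizer_iff.1 (sup_le (le_centralizer_iff.1 hc) hF.le_centralizer))
  have cm := L.comm_of_le_centralizer c
  obtain ⟨k, hk⟩ := FT.exists_el_of_elem (p := p) (A := A ⊔ F) ⟨cm, fun g hg => L.omegaOne_exp_of_comm cm
    (sup_le (hA.of_le le_sup_left).le_omegaOne (hF.of_le le_sup_right).le_omegaOne hg)⟩ le_rfl
  obtain ⟨B, b1, b2, b3⟩ := hk.exists_between (hF.of_le le_sup_right) le_sup_right h (hA.le_of_le hk le_sup_left)
  exact ⟨B, b3, b1, b2.trans (c.trans (centralizer_anti le_sup_left))⟩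

theorem el_succ {n : ℕ} {B F H K : Subgroup G} (hB : FT.El p (n + 1) B H) (hF : FT.El p n F K) (h : F ≤ B) :
    ∃ c ∈ B, F ⊔ zpowers c = B := by
  obtain ⟨c, hc, c1⟩ := exists_not_mem_of_card (A := F) (B := B) (by
    rw [hF.card, hB.card]; exact Nat.pow_lt_pow_right hp.out.one_lt n.lt_succ_self)
  refine ⟨c, hc, eq_of_le_of_card_ge (sup_le h (zpowers_le.2 hc)) ?_⟩
  rw [card_sup_zp hB.isP h hc (le_normalizer_of_le_comm hB.comm le_rfl h hc) (hB.pow hc ▸ one_mem _) c1, hF.card, hB.card,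
    pow_succ]

theorem exists_el_central {E : Subgroup G} [E.Normal] (hG : IsPGroup p G) (h : p ≤ Nat.card E) :
    ∃ Z, FT.El p 1 Z E ∧ ∀ A : Subgroup G, Z ≤ centralizer (A : Set G) := by
  obtain ⟨Z, z1, z2, z3⟩ := L.exists_normal_card' (hG.to_subgroup ⊤) le_top (nrm ⊤ E) 1 (by rwa [pow_one])
  rw [pow_one] at z3
  exact ⟨Z, FT.el_one_iff.2 ⟨z1, z3⟩, fun A => (L.le_centralizer_of_card_prime (hG.to_subgroup ⊤) le_top z2
    (z3 ▸ hp.out)).trans (centralizer_le le_top)⟩

omit [Finite G] in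
theorem rt_of_base {R : Subgroup G → Subgroup G → Prop} (hs : ∀ A B, R A B → R B A) {A B N : Subgroup G}
    (h1 : Relation.ReflTransGen R A N) (h2 : Relation.ReflTransGen R B N) : Relation.ReflTransGen R A B := by
  refine h1.trans ?_
  induction h2 using Relation.ReflTransGen.head_induction_on with
  | refl => exact .refl
  | head h _ ih => exact ih.tail (hs _ _ h)

omit [Finite G] in
theorem sup_zp_le_cent {F D : Subgroup G} {c : G} (h1 : F ≤ centralizer (D : Set G)) (h2 : D ≤ centralizer {c}) :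
    F ⊔ zpowers c ≤ centralizer (D : Set G) :=
  sup_le h1 (zpowers_le.2 fun _ hd => mem_centralizer_singleton_iff.1 (h2 hd))

end H1
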