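import Cfsg.Agent.H1.TIH
import Cfsg.Agent.H1.FC

/-! A quaternion group acting with the central involution inverting: the order is a square. -/

namespace H1
open Subgroup Cfsg
open scoped Pointwise

theorem exists_sq_add_sq {p : ℕ} (hp : p.Prime) : ∃ a b c : ℤ, a ^ 2 + b ^ 2 + 1 = p * c := by
  haveI := Fact.mk hp
  obtain ⟨a, b, h⟩ := ZMod.sq_add_sq p (-1)
  have : ((a.val : ℤ) ^ 2 + (b.val : ℤ) ^ 2 + 1 : ℤ) = (0 : ZMod p) := by
    push_cast
    simp [h]
  obtain ⟨c, hc⟩ := (ZMod.intCast_zmod_eq_zero_iff_dvd _ _).1 this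
  exact ⟨_, _, c, hc⟩

section
variable {M : Type*} [AddCommGroup M] [Finite M] {α β : M →+ M}

theorem sq_card_prime (ha : ∀ x, α (α x) = -x) (hb : ∀ x, β (β x) = -x)
    (hab : ∀ x, α (β x) = -β (α x)) {p : ℕ} (hp : p.Prime) (hodd : Odd p) (V : AddSubgroup M)
    (h1 : ∀ x ∈ V, α x ∈ V) (h2 : ∀ x ∈ V, β x ∈ V) (hV : ∀ x ∈ V, (p : ℤ) • x = 0) :
    IsSquare (Nat.card V) := by
  obtain ⟨a, b, c, habc⟩ := exists_sq_add_sq hp
  obtain ⟨k, hk⟩ := hodd
  let u : M →+ M := a • α + b • β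
  have hu : ∀ x, u x = a • α x + b • β x := fun x => rfl
  have huV : ∀ x ∈ V, u x ∈ V := fun x hx => V.add_mem (V.zsmul_mem (h1 x hx) _) (V.zsmul_mem (h2 x hx) _)
  have huu : ∀ x ∈ V, u (u x) = x := fun x hx => by
    have e : u (u x) = x - (a ^ 2 + b ^ 2 + 1) • x := by
      simp only [hu, map_add, map_zsmul, ha, hb, hab]
      module
    rw [e, habc, mul_comm, mul_smul, hV x hx, smul_zero, sub_zero]
  have hh : ∀ x ∈ V, (k + 1 : ℤ) • (x + x) = x := fun x hx => by
    have e : (k + 1 : ℤ) • (x + x) = x + (p : ℤ) • x := by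
      rw [hk]; push_cast; module
    rw [e, hV x hx, add_zero]
  have hγ : ∀ x, u (α (β x)) = -α (β (u x)) := fun x => by
    simp only [hu, map_add, map_zsmul, ha, hb, hab, map_neg]
    module
  have hγi : Function.Injective fun x => α (β x) := fun x y h => by
    have := congrArg (fun z => β (α z)) h
    simpa [ha, hb] using this
  let P := {x // x ∈ V ∧ u x = x}
  let Q := {x // x ∈ V ∧ u x = -x}
  have e1 : Nat.card P = Nat.card Q := by
    apply le_antisymm
    · exact Nat.card_le_card_of_injective (β := Q)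
        (fun x : P => ⟨α (β x.1), h1 _ (h2 _ x.2.1), by rw [hγ, x.2.2]⟩)
        fun x y h => Subtype.ext (hγi (congrArg Subtype.val h))
    · exact Nat.card_le_card_of_injective (β := P)
        (fun x : Q => ⟨α (β x.1), h1 _ (h2 _ x.2.1), by rw [hγ, x.2.2]; simp⟩)
        fun x y h => Subtype.ext (hγi (congrArg Subtype.val h))
  have e2 : Nat.card (P × Q) = Nat.card V := by
    refine Nat.card_eq_of_bijective (fun y => ⟨y.1.1 + y.2.1, V.add_mem y.1.2.1 y.2.2.1⟩) ⟨?_, ?_⟩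
    · rintro ⟨⟨y, hy, hy'⟩, ⟨z, hz, hz'⟩⟩ ⟨⟨y1, hy1, hy1'⟩, ⟨z1, hz1, hz1'⟩⟩ h
      have h3 : y + z = y1 + z1 := congrArg Subtype.val h
      have h4 := congrArg u h3
      rw [map_add, map_add, hy', hz', hy1', hz1'] at h4
      have h5 : y = y1 := by
        rw [← hh y hy, ← hh y1 hy1]
        congr 1
        calc y + y = (y + z) + (y + -z) := by abel
          _ = _ := by rw [h3, h4]; abel
      subst h5
      have h6 : z = z1 := add_left_cancel h3
      subst h6
      rfl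
    · rintro ⟨x, hx⟩
      refine ⟨⟨⟨(k + 1 : ℤ) • (x + u x), V.zsmul_mem (V.add_mem hx (huV x hx)) _, ?_⟩,
        ⟨(k + 1 : ℤ) • (x - u x), V.zsmul_mem (V.sub_mem hx (huV x hx)) _, ?_⟩⟩, Subtype.ext ?_⟩
      · rw [map_zsmul, map_add, huu x hx, add_comm (u x)]
      · rw [map_zsmul, map_sub, huu x hx, ← smul_neg, neg_sub]
      · show (k + 1 : ℤ) • (x + u x) + (k + 1 : ℤ) • (x - u x) = x
        conv_rhs => rw [← hh x hx]
        module
  rw [← e2, Nat.card_prod, e1]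
  exact ⟨_, rfl⟩

theorem sq_card_add (ha : ∀ x, α (α x) = -x) (hb : ∀ x, β (β x) = -x)
    (hab : ∀ x, α (β x) = -β (α x)) (hodd : Odd (Nat.card M)) (n : ℕ) : ∀ (W : AddSubgroup M),
    Nat.card W = n → (∀ x ∈ W, α x ∈ W) → (∀ x ∈ W, β x ∈ W) → IsSquare n := by
  induction n using Nat.strong_induction_on with
  | _ n ih =>
  intro W hW h1 h2
  by_cases hn : n = 1
  · rw [hn]; exact IsSquare.one
  obtain ⟨p, hp, hd⟩ := Nat.exists_prime_and_dvd hn
  haveI := Fact.mk hp
  have hpo : Odd p := hodd.of_dvd_nat (hd.trans (hW ▸ W.card_addSubgroup_dvd_card))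
  let f : M →+ M := zsmulAddGroupHom p
  have hf : ∀ x, f x = (p : ℤ) • x := fun x => rfl
  have e : Nat.card (f.ker ⊓ W : AddSubgroup M) * Nat.card (W.map f) = n := by
    rw [← hW, ← (f.domRestrict W).ker.card_mul_index, AddSubgroup.index_ker, AddMonoidHom.domRestrict_range,
      AddMonoidHom.ker_domRestrict, ← AddSubgroup.inf_addSubgroupOf_right]
    congr 1
    exact Nat.card_congr (AddSubgroup.addSubgroupOfEquivOfLe inf_le_right).toEquiv.symm
  have s1 : IsSquare (Nat.card (f.ker ⊓ W : AddSubgroup M)) :=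
    sq_card_prime ha hb hab hp hpo _
      (fun x hx => ⟨by
        have : (p : ℤ) • x = 0 := hx.1
        show (p : ℤ) • α x = 0
        rw [← map_zsmul, this, map_zero], h1 x hx.2⟩)
      (fun x hx => ⟨by
        have : (p : ℤ) • x = 0 := hx.1
        show (p : ℤ) • β x = 0
        rw [← map_zsmul, this, map_zero], h2 x hx.2⟩) fun x hx => hx.1
  have h3 : 1 < Nat.card (f.ker ⊓ W : AddSubgroup M) := by
    obtain ⟨x, hx⟩ := exists_prime_addOrderOf_dvd_card' (G := W) p (hW ▸ hd)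
    rw [Finite.one_lt_card_iff_nontrivial]
    refine ⟨⟨⟨x, ?_, x.2⟩, 0, fun h => ?_⟩⟩
    · show (p : ℤ) • (x : M) = 0
      rw [natCast_zsmul, ← hx]
      exact congrArg Subtype.val (addOrderOf_nsmul_eq_zero x)
    · have : x = 0 := Subtype.ext (congrArg (fun z : (f.ker ⊓ W : AddSubgroup M) => (z : M)) h)
      rw [this, addOrderOf_zero] at hx
      exact hp.one_lt.ne hx
  have s2 := ih (Nat.card (W.map f)) (by
      rw [← e]
      exact lt_mul_left Nat.card_pos h3) (W.map f) rfl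
    (by rintro _ ⟨x, hx, rfl⟩; exact ⟨α x, h1 x hx, by rw [hf, hf, map_zsmul]⟩)
    (by rintro _ ⟨x, hx, rfl⟩; exact ⟨β x, h2 x hx, by rw [hf, hf, map_zsmul]⟩)
  rw [← e]
  exact s1.mul s2

end

variable {G : Type*} [Group G] [Finite G]

theorem isSquare_of_quat {N : Subgroup G} {i j : G} (hi : i ∈ normalizer (N : Set G))
    (hj : j ∈ normalizer (N : Set G)) (hodd : Odd (Nat.card N))
    (hz : ∀ x ∈ N, i * i * x * (i * i)⁻¹ = x⁻¹) (h2 : j * j = i * i) (h : j * i * j⁻¹ = i⁻¹) :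
    IsSquare (Nat.card N) := by
  haveI := isMulCommutative_of_conj_eq_inv hz
  letI : CommGroup N := { mul_comm := fun a b => mul_comm' a b }
  let α : Additive N →+ Additive N := MonoidHom.toAdditive (N.normalizerMonoidHom ⟨i, hi⟩).toMonoidHom
  let β : Additive N →+ Additive N := MonoidHom.toAdditive (N.normalizerMonoidHom ⟨j, hj⟩).toMonoidHom
  refine sq_card_add (α := α) (β := β) ?_ ?_ ?_ hodd _ ⊤ (AddSubgroup.card_top) (fun _ _ => trivial)
    fun _ _ => trivial
  · intro x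
    apply Subtype.ext
    show i * (i * (x.toMul : G) * i⁻¹) * i⁻¹ = (x.toMul : G)⁻¹
    rw [← hz _ x.toMul.2]; group
  · intro x
    apply Subtype.ext
    show j * (j * (x.toMul : G) * j⁻¹) * j⁻¹ = (x.toMul : G)⁻¹
    rw [← hz _ x.toMul.2, ← h2]; group
  · intro x
    apply Subtype.ext
    show i * (j * (x.toMul : G) * j⁻¹) * i⁻¹ = (j * (i * (x.toMul : G) * i⁻¹) * j⁻¹)⁻¹
    rw [← hz _ (conj_mem_of_mem_normalizer hj (conj_mem_of_mem_normalizer hi x.toMul.2))]
    have e : j * i = i⁻¹ * j := by rw [← h]; group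
    calc _ = i * i * ((i⁻¹ * j) * (x.toMul : G) * (i⁻¹ * j)⁻¹) * (i * i)⁻¹ := by group
      _ = _ := by rw [← e]; group

theorem kernel_odd_square {H : Subgroup G} (hF : IsFrobeniusComplement H) {p : ℕ} [Fact p.Prime]
    {P : Subgroup G} (hP : IsPGroup p P) (hPH : P ≤ H) (hc : ¬ IsCyclic P) :
    Odd (Nat.card (frobeniusKernel H)) ∧ IsSquare (Nat.card (frobeniusKernel H)) := by
  obtain ⟨N, hN, hNk, -, hf, h0, -⟩ := IsFrob.exists_kernel hF
  have hpq := pq_of_fpf h0 le_normalizer_of_normal hf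
  obtain ⟨rfl, n, a, b, h, hb, hba⟩ := (hpq.pgroup hP hPH).resolve_left hc
  rw [← hNk]
  have hodd : Odd (Nat.card N) := by
    have h1 := hf.coprime le_normalizer_of_normal
    have h2 : 2 ∣ Nat.card H := by
      rw [← h.oz]; exact orderOf_dvd_card_of_mem (hPH (h.le MC.z_mem))
    exact Nat.odd_iff.2 (Nat.two_dvd_ne_zero.1 fun e =>
      absurd (Nat.eq_one_of_dvd_coprimes h1 h2 e) (by decide))
  refine ⟨hodd, ?_⟩
  obtain ⟨m, rfl⟩ := Nat.exists_eq_add_of_le' h.pos
  have e : a ^ 2 ^ m * a ^ 2 ^ m = a ^ 2 ^ (m + 1) := by rw [← pow_add, pow_succ, mul_two]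
  have hz1 : a ^ 2 ^ (m + 1) ≠ 1 := fun e => by simpa [e] using h.oz
  refine isSquare_of_quat (i := a ^ 2 ^ m) (j := b) (le_normalizer_of_normal (mem_top _))
    (le_normalizer_of_normal (mem_top _)) hodd (fun x hx => ?_) (by rw [e, ← hb, pow_two]) ?_
  · rw [e]
    refine conj_eq_inv_of_fpf (le_normalizer_of_normal (mem_top _)) (hf _ (hPH (h.le MC.z_mem)) hz1) ?_ hx
    have := pow_orderOf_eq_one (a ^ 2 ^ (m + 1))
    rw [h.oz, pow_two] at this
    rw [this]; exact one_mem _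
  · rw [← conj_pow, hba, inv_pow]

end H1
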