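import Cfsg.Agent.H1.CW
import Cfsg.Agent.H1.Primitive

/-! H1.R2: fixed-point-free `3`-elements on `2`-groups of rank two. -/

open Subgroup Cfsg
open scoped commutatorElement

namespace H1

variable {G : Type*} [Group G] [Finite G]

theorem dvd_card_of_cent (K : Subgroup G) (S : Set G) (m : ℕ)
    (hS : ∀ k ∈ K, ∀ x ∈ S, k * x * k⁻¹ ∈ S) (hD : ∀ x ∈ S, m ∣ (centralizer {x}).relIndex K) :
    m ∣ Nat.card S := by
  classical
  let _ : MulAction K S :=
    { smul := fun h x => ⟨h * x * (h : G)⁻¹, hS h h.2 x x.2⟩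
      one_smul := fun x => Subtype.ext (by change (1 : G) * x * 1⁻¹ = x; simp)
      mul_smul := fun a b x => Subtype.ext (by
        change (a * b : G) * x * (a * b : G)⁻¹ = a * (b * x * (b : G)⁻¹) * (a : G)⁻¹; group) }
  haveI := Fintype.ofFinite S
  haveI := Fintype.ofFinite (MulAction.orbitRel.Quotient K S)
  rw [Nat.card_congr (MulAction.selfEquivSigmaOrbits K S), Nat.card_sigma]
  refine Finset.dvd_sum fun ω _ => ?_
  rw [Nat.card_congr (MulAction.orbitEquivQuotientStabilizer K ω.out), ← Subgroup.index]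
  refine (hD ω.out.1 ω.out.2).trans (Eq.dvd ?_)
  unfold relIndex; congr 1; ext k
  exact ⟨fun h => Subtype.ext (mul_inv_eq_iff_eq_mul.2 (mem_centralizer_singleton_iff.1 h)),
    fun h => mem_centralizer_singleton_iff.2 (mul_inv_eq_iff_eq_mul.1 (congrArg Subtype.val h))⟩

theorem mem_zpowers_symm {p : ℕ} [hp : Fact p.Prime] {x y : G} (hx : x ^ p = 1) (hy : y ≠ 1)
    (h : y ∈ zpowers x) : x ∈ zpowers y := by
  have h1 : zpowers y ≤ zpowers x := zpowers_le_of_mem h
  have h3 := orderOf_dvd_of_pow_eq_one hx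
  have h2 : Nat.card (zpowers y) ∣ p := (card_dvd_of_le h1).trans (by rwa [Nat.card_zpowers])
  rcases (Nat.dvd_prime hp.out).1 h2 with e | e
  · exact absurd (by rwa [Nat.card_zpowers, orderOf_eq_one_iff] at e) hy
  · rw [eq_of_le_of_card_ge h1 (by rw [e, Nat.card_zpowers]; exact Nat.le_of_dvd hp.out.pos h3)]
    exact mem_zpowers x

theorem card_four {W : Subgroup G} (hW : IsPGroup 2 W) (h0 : W ≠ ⊥) (h4 : Nat.card W ≤ 4) {d : G}
    (hd : IsPGroup 3 (zpowers d)) (hn : d ∈ normalizer (W : Set G)) (hf : W ⊓ centralizer {d} = ⊥) :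
    Nat.card W = 4 := by
  haveI : Fact (Nat.Prime 2) := ⟨Nat.prime_two⟩
  haveI : Fact (Nat.Prime 3) := ⟨Nat.prime_three⟩
  have h1 := card_modEq_card_inf_centralizer hd (zpowers_le_of_mem hn)
  rw [centralizer_zpowers, hf, card_bot] at h1
  have := (one_lt_card_iff_ne_bot W).2 h0
  unfold Nat.ModEq at h1
  omega

/-- all involutions lie in an elementary abelian central subgroup of order four. -/
theorem mem_of_rank_two {P Z : Subgroup G} (hr : ∀ V ≤ P, IsElementaryAbelian 2 V → Nat.card V ≤ 4)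
    (hZ : IsElementaryAbelian 2 Z) (hZP : Z ≤ P) (h4 : Nat.card Z = 4) {x : G} (hx : x ∈ P)
    (hc : x ∈ centralizer (Z : Set G)) (h2 : x ^ 2 = 1) : x ∈ Z := by
  have h3 := L.isMulCommutative_sup_zpowers hZ.1 hc
  have := hr _ (sup_le hZP (zpowers_le_of_mem hx)) ⟨h3, fun a ha => L.omegaOne_exp_of_comm h3
    (sup_le (fun b hb => L.mem_omegaOne (mem_sup_left hb) (hZ.2 b hb)) (zpowers_le_of_mem
      (L.mem_omegaOne (mem_sup_right (mem_zpowers x)) h2)) ha)⟩
  exact (eq_of_le_of_card_ge (le_sup_left : Z ≤ Z ⊔ zpowers x) (h4 ▸ this)).ge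
    (mem_sup_right (mem_zpowers x))

theorem cube_cent {d : G} (hd : IsPGroup 3 (zpowers d)) (P : Subgroup G) (hP : IsPGroup 2 P)
    (hn : d ∈ normalizer (P : Set G)) (hf : P ⊓ centralizer {d} = ⊥)
    (hr : ∀ V ≤ P, IsElementaryAbelian 2 V → Nat.card V ≤ 4) : d ^ 3 ∈ centralizer (P : Set G) := by
  haveI : Fact (Nat.Prime 2) := ⟨Nat.prime_two⟩
  haveI : Fact (Nat.Prime 3) := ⟨Nat.prime_three⟩
  set A := zpowers (d ^ 3) with hA
  have Ad : A ≤ zpowers d := zpowers_le_of_mem (pow_mem (mem_zpowers d) 3)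
  have hA2 : (Nat.card A).Coprime 2 := isPGroup_coprime' (hd.to_le Ad) (by norm_num)
  refine le_centralizer_iff.1 (show P ≤ centralizer (A : Set G) from ?_) (mem_zpowers _)
  replace hn := zpowers_le_of_mem hn
  induction P using WellFoundedLT.induction with
  | ind P ih =>
  have ih' : ∀ H < P, zpowers d ≤ normalizer (H : Set G) → H ≤ centralizer (A : Set G) :=
    fun H h h1 => ih H h (hP.to_le h.le) (eq_bot_iff.2 ((inf_le_inf_right _ h.le).trans hf.le))
      (fun V h2 => hr V (h2.trans h.le)) h1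
  have hc := H9.copA_of_p' hP hA2
  rcases (H9.commutator_le_left' (Ad.trans hn)).lt_or_eq with h1 | h1
  · exact H9.cop_le_centralizer (Ad.trans hn) hc le_rfl (ih' _ h1 (le_normalizer_commutator hn
      (le_normalizer_of_abelian inferInstance Ad)))
  by_cases hb : P = ⊥
  · rw [hb]; exact bot_le
  exfalso
  have h2 := ih' _ (map_frattini_lt hb) (L.normalizer_Phi hn)
  have h3 := le_centralizer_iff.1 (L.le_centralizer_of_three h1 h2 (L.normalizer_Phi le_normalizer))
  have h4 : P ⊓ centralizer (A : Set G) ≤ ⁅P, P⁆ := fun x hx =>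
    L.centralizer_inf_commutator_le (Ad.trans hn) (H9.card_cop_of_p hP hA2).symm ⟨hx, h1.ge hx.1⟩
  have h5 : ∀ x ∈ L.Phi P, x ^ 2 = 1 := fun x hx =>
    L.commutator_exp_of_Phi hP h3 (h4 ⟨L.Phi_le P hx, h2 hx⟩)
  set Z := omegaOne 2 (P ⊓ centralizer (P : Set G))
  have z1 := L.isElem_omegaOne_of_comm (n := 2) (L.isMulCommutative_inf_centralizer P)
  have z2 : Z ≤ P ⊓ centralizer (P : Set G) := L.omegaOne_le _ _
  have z3 : Nat.card Z = 4 := card_four (hP.to_le (z2.trans inf_le_left)) (L.omegaOne_ne_bot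
    (((hP.to_le inf_le_left).card_eq_or_dvd).resolve_left fun e => nilpotent_inf_centralizer_ne_bot
      hP.isNilpotent le_rfl le_normalizer hb (card_eq_one.1 e))) (hr _ (z2.trans inf_le_left) z1) hd
    (L.normalizer_omegaOne (le_normalizer_inf hn (le_normalizer_centralizer hn)) (mem_zpowers d))
    (eq_bot_iff.2 ((inf_le_inf_right _ (z2.trans inf_le_left)).trans hf.le))
  have h6 := cw (N := Z) hP h3 (L.Phi_le P) h5 (fun x hx => L.pow_mem_Phi hP hx)
    (fun x => ⟨fun h => ⟨(z2 h).1, z1.2 x h⟩, fun h => mem_of_rank_two hr z1 (z2.trans inf_le_left) z3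
      h.1 (le_centralizer_iff.1 (z2.trans inf_le_right) h.1) h.2⟩) z2
  have h7 : Nat.card (L.Phi P) ≤ 4 := hr _ (L.Phi_le P)
    ⟨L.comm_of_le_centralizer (h3.trans (H9.centralizer_anti (L.Phi_le P))), h5⟩
  have h8 := dvd_card_of_cent (zpowers d) ((P : Set G) \ L.Phi P) 9
    (fun k hk x hx => ⟨H9.conj_mem_of_le_normalizer hn hk hx.1, fun h =>
      hx.2 ((mem_normalizer_iff.1 (L.normalizer_Phi hn hk) x).2 h)⟩) fun x hx => by
      obtain ⟨j, hj⟩ := L.exists_relIndex_eq_pow (N := centralizer {x}) hd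
      rw [hj]
      refine pow_dvd_pow 3 (show 2 ≤ j from ?_)
      by_contra h
      have e1 : d ^ 3 ^ j ∈ centralizer {x} := by
        have := ((centralizer {x}).subgroupOf (zpowers d)).pow_index_mem ⟨d, mem_zpowers d⟩
        rwa [← relIndex, hj] at this
      have e2 : d ^ 3 ∈ centralizer {x} := by
        obtain rfl | rfl : j = 0 ∨ j = 1 := by omega
        · exact pow_mem (by simpa using e1) 3
        · simpa using e1
      refine hx.2 (L.commutator_le_Phi hP (h4 ⟨hx.1, ?_⟩))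
      rw [hA, centralizer_zpowers]
      exact mem_centralizer_singleton_iff.2 (mem_centralizer_singleton_iff.1 e2).symm
  rw [Nat.card_coe_set_eq, Set.ncard_diff (L.Phi_le P)] at h8
  change 9 ∣ Nat.card P - Nat.card (L.Phi P) at h8
  have h9 := L.mul_card_le_of_lt hP (map_frattini_lt hb)
  obtain ⟨a, ha⟩ := L.exists_card_eq_pow hP
  obtain ⟨b, hb⟩ := L.exists_card_eq_pow (hP.to_le (L.Phi_le P))
  change 2 * Nat.card (L.Phi P) ≤ _ at h9
  rw [z3, ha, hb] at h6
  rw [ha, hb] at h8 h9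
  rw [hb] at h7
  have b2 : b ≤ 2 := (Nat.pow_le_pow_iff_right (by norm_num : 1 < 2)).1 h7
  have a6 : a ≤ 6 := (Nat.pow_le_pow_iff_right (by norm_num : 1 < 2)).1 (by nlinarith)
  interval_cases b <;> interval_cases a <;> omega

end H1
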