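import Cfsg.Agent.H1.HB7

/-! H1.SG1: radicals of commutator forms on homogeneous components; Shult's exceptional case. -/

open Cfsg Module Subgroup H9
open scoped commutatorElement Pointwise

namespace H1

universe u v

variable {F : Type*} [Field F] {G : Type*} [Group G]

/-- elements of `K` centralizing `K` modulo `Y` -/
def cm {K Y : Subgroup G} (h : K ≤ normalizer (Y : Set G)) : Subgroup G where
  carrier := {g | g ∈ K ∧ ∀ b ∈ K, ⁅b, g⁆ ∈ Y}
  mul_mem' := fun {a c} ha hc => ⟨K.mul_mem ha.1 hc.1, fun b hb => by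
    rw [show ⁅b, a * c⁆ = ⁅b, a⁆ * (a * ⁅b, c⁆ * a⁻¹) by simp only [commutatorElement_def]; group]
    exact Y.mul_mem (ha.2 b hb) ((mem_normalizer_iff.1 (h ha.1) _).1 (hc.2 b hb))⟩
  one_mem' := ⟨K.one_mem, fun b _ => by simpa using Y.one_mem⟩
  inv_mem' := fun {a} ha => ⟨K.inv_mem ha.1, fun b hb => by
    rw [show ⁅b, a⁻¹⁆ = a⁻¹ * ⁅b, a⁆⁻¹ * a⁻¹⁻¹ by simp only [commutatorElement_def]; group]
    exact (mem_normalizer_iff.1 (h (K.inv_mem ha.1)) _).1 (Y.inv_mem (ha.2 b hb))⟩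

theorem cm_le {K Y : Subgroup G} (h : K ≤ normalizer (Y : Set G)) : cm h ≤ K := fun _ hx => hx.1

theorem le_cm {K Y X : Subgroup G} (h : K ≤ normalizer (Y : Set G)) : X ≤ cm h ↔ X ≤ K ∧ ⁅K, X⁆ ≤ Y :=
  ⟨fun hX => ⟨hX.trans (cm_le h), commutator_le.2 fun b hb _ hg => (hX hg).2 b hb⟩,
    fun hX _ hg => ⟨hX.1 hg, fun _ hb => hX.2 (commutator_mem_commutator hb hg)⟩⟩

theorem normalizer_cm [Finite G] {K Y X : Subgroup G} (h : K ≤ normalizer (Y : Set G))
    (h1 : X ≤ normalizer (K : Set G)) (h2 : X ≤ normalizer (Y : Set G)) : X ≤ normalizer (cm h : Set G) :=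
  fun g hg => mem_normalizer_of_cj_le ((le_cm h).2 ⟨(cj_mono g (cm_le h)).trans (mem_normalizer_iff_cj.1 (h1 hg)).le, by
    rw [cj_comm_left (h1 hg)]
    exact (cj_mono g ((le_cm h).1 le_rfl).2).trans (mem_normalizer_iff_cj.1 (h2 hg)).le⟩)

theorem sup_eq_of_relIndex_le [Finite G] {K D R : Subgroup G} (hD : D ≤ K) (hR : R ≤ K)
    (hn : K ≤ normalizer (R : Set G)) (h : R.relIndex K ≤ R.relIndex D) : D ⊔ R = K := by
  haveI := normal_subgroupOf' hn
  have e1 := relIndex_sup_right (D.subgroupOf K) (R.subgroupOf K)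
  rw [← subgroupOf_sup hD hR, relIndex_subgroupOf (sup_le hD hR), relIndex_subgroupOf hD] at e1
  have e2 := relIndex_mul_relIndex R (D ⊔ R) K le_sup_right (sup_le hD hR)
  have e3 : R.relIndex D ≠ 0 := index_ne_zero_of_finite
  have e4 : (D ⊔ R).relIndex K ≠ 0 := index_ne_zero_of_finite
  refine le_antisymm (sup_le hD hR) (relIndex_eq_one.1 ?_)
  rw [e1] at e2
  by_contra e5
  nlinarith [Nat.mul_le_mul_left (R.relIndex D) (show 2 ≤ (D ⊔ R).relIndex K by omega), Nat.pos_of_ne_zero e3]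

variable {V : Type*} [AddCommGroup V] [Module F V] {ρ : G →* End F V}

theorem normalizer_ptw [Finite G] {W : Submodule F V} {L : Subgroup G} (h : ∀ g ∈ L, ∀ w ∈ W, ρ g w ∈ W) :
    L ≤ normalizer (ptw ρ W : Set G) := fun g hg => mem_normalizer_of_cj_le (H := ptw ρ W) fun a ha w hw => by
  have := mem_cj.1 ha _ (h _ (inv_mem hg) w hw)
  rw [rho_mul, rho_mul, rho_rho_inv] at this
  rw [← rho_rho_inv (ρ := ρ) g (ρ a w), this, rho_rho_inv]

theorem comm_mem_ptw {W : Submodule F V} {g z : G} (h : ∀ w ∈ W, ρ g⁻¹ w ∈ W) {c : F} (hz : ∀ w ∈ W, ρ z w = c • w)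
    (hz' : ∀ w ∈ W, ρ z⁻¹ w ∈ W) : ⁅g, z⁆ ∈ ptw ρ W := fun w hw => by
  rw [commutatorElement_def, rho_mul, rho_mul, rho_mul, hz _ (h _ (hz' w hw)), map_smul, rho_rho_inv,
    ← hz _ (hz' w hw), rho_rho_inv]

theorem rad_index [IsAlgClosed F] [FiniteDimensional F V] [Finite G] {K Z H D : Subgroup G} {W : Submodule F V}
    (hW : ∀ g ∈ K ⊔ H, ∀ w ∈ W, ρ g w ∈ W) (hn : H ≤ normalizer (K : Set G)) (hZK : Z ≤ K) (hK' : ⁅K, K⁆ ≤ Z)
    (hZ : ∀ z ∈ Z, ∃ c : F, ∀ w ∈ W, ρ z w = c • w) (hH : IsCyclic H) (hD : D ≤ H)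
    (hD' : ∀ a ∈ H, a ≠ 1 → D ≤ zpowers a) (hC : K ⊓ centralizer (D : Set G) ≤ Z) (hc : CopA H K)
    (hK : (Nat.card K : F) ≠ 0) (hH' : (Nat.card H : F) ≠ 0) (h0 : ∀ w ∈ W, w ∈ fix ρ H → w = 0)
    (hne : ¬ ⁅K, K⁆ ≤ ptw ρ W) (hY : K ≤ normalizer (ptw ρ W : Set G)) :
    ∃ N, N ^ 2 = (cm hY).relIndex K ∧ Nat.card H = N + 1 := by
  let L := K ⊔ H
  obtain ⟨U, hU, u1, u2, u3⟩ := exists_simple (ρ := ρ.comp L.subtype) (W := W)
    (fun e => hne fun _ _ w hw => by rw [(Submodule.mem_bot F).1 (e.le hw), map_zero]) fun g => hW g g.2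
  haveI := Submodule.nontrivial_iff_ne_bot.2 u2
  let τ := sub (ρ.comp L.subtype) U hU
  have t1 : ∀ g : L, τ g = 1 ↔ (g : G) ∈ ptw ρ U := fun g =>
    ⟨fun h u hu => congrArg Subtype.val (LinearMap.congr_fun h ⟨u, hu⟩),
      fun h => LinearMap.ext fun u => Subtype.ext (h u u.2)⟩
  have a1 : ptw ρ W ≤ ptw ρ U := fun g hg u hu => hg u (u1 hu)
  have a2 : Z ⊓ ptw ρ U ≤ ptw ρ W := fun z hz w hw => by
    obtain ⟨c, hc⟩ := hZ z hz.1
    obtain ⟨u, hu, u0⟩ := (Submodule.ne_bot_iff _).1 u2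
    rw [hc w hw, smul_left_injective F u0 ((hc u (u1 hu)).symm.trans ((hz.2 u hu).trans (one_smul F u).symm)), one_smul]
  have nK : L ≤ normalizer (K : Set G) := sup_le le_normalizer hn
  have nU : L ≤ normalizer (ptw ρ U : Set G) := normalizer_ptw fun g hg => hU ⟨g, hg⟩
  have nR : L ≤ normalizer (cm hY : Set G) := normalizer_cm hY nK (normalizer_ptw hW)
  have a3 : ∀ g ∈ L, ∀ z ∈ Z, ⁅g, z⁆ ∈ ptw ρ W := fun g hg z hz => by
    obtain ⟨c, hc⟩ := hZ z hz
    exact comm_mem_ptw (hW _ (inv_mem hg)) hc (hW _ (inv_mem (mem_sup_left (hZK hz))))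
  have a4 : Z ≤ cm hY := fun z hz => ⟨hZK hz, fun b hb => a3 b (mem_sup_left hb) z hz⟩
  have a5 : K ⊓ ptw ρ U ≤ cm hY := fun g hg => ⟨hg.1, fun b hb => a2 ⟨hK' (commutator_mem_commutator hb hg.1),
    commutator_le_right' (le_sup_left.trans nU) (commutator_mem_commutator hb hg.2)⟩⟩
  have hRL : cm hY ≤ L := (cm_le hY).trans le_sup_left
  have a6 : cm hY ≤ Z ⊔ K ⊓ ptw ρ U := by
    have := comm_le_ker_of_min (ρ := τ) (B := (cm hY).subgroupOf L) (A := H.subgroupOf L) (D := D.subgroupOf L)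
      (subgroupOf_le_normalizer (le_sup_right.trans nR))
      (by rw [card_subgroupOf hRL]; exact natCast_ne_zero_of_dvd hK (card_dvd_of_le (cm_le hY)))
      (by rwa [card_subgroupOf le_sup_right])
      (eq_bot_iff.2 fun u hu => Subtype.ext (h0 _ (u1 u.2) fun a ha =>
        congrArg Subtype.val (hu ⟨a, mem_sup_right ha⟩ ha)))
      (by
        rw [← H9.subgroupOf_commutator hRL hRL]
        exact fun x hx => (t1 x).2 (a1 (((le_cm hY).1 le_rfl).2 (commutator_mono (cm_le hY) le_rfl hx))))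
      (comap_mono hD) fun a ha a1 x hx => by
        obtain ⟨k, hk⟩ := hD' a ha (fun e => a1 (Subtype.ext e)) hx
        exact ⟨k, Subtype.ext hk⟩
    rw [← H9.subgroupOf_commutator (hD.trans le_sup_right) hRL, commutator_comm] at this
    have n1 := hD.trans (le_sup_right.trans nR)
    rw [← cop_commutator_sup n1 (hc.mono hD (cm_le hY))]
    refine sup_le (le_sup_of_le_right fun x hx => ⟨cm_le hY (commutator_le_left' n1 hx),
      (t1 ⟨x, hRL (commutator_le_left' n1 hx)⟩).1 (this hx)⟩)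
      (le_sup_of_le_left ((inf_le_inf_right _ (cm_le hY)).trans hC))
  haveI := normal_subgroupOf' (normalizer_inf nK nU)
  let f := QuotientGroup.mk' ((K ⊓ ptw ρ U).subgroupOf L)
  let σ := QuotientGroup.lift ((K ⊓ ptw ρ U).subgroupOf L) τ fun x hx => (t1 x).2 hx.2
  have f1 : kr f = K ⊓ ptw ρ U := by
    rw [kr_mk', map_subgroupOf_eq_of_le (inf_le_left.trans le_sup_left)]
  have fs : Function.Surjective f := QuotientGroup.mk'_surjective _
  have f2 : pre f (im f (cm hY)) = cm hY := by rw [pre_im f hRL, f1, sup_eq_left.2 a5]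
  haveI : (im f K).Normal := normalizer_eq_top_iff.1 (top_le_iff.1 (im_self f fs ▸ im_le_normalizer f nK))
  have f3 : Nat.card (im f H) = Nat.card H := card_im_of_disjoint f le_sup_right (by
    rw [f1, inf_comm]; exact (hc.mono le_rfl inf_le_left).inf_eq_bot)
  have := extra_simple (ρ := σ) (P := im f K) (Z := im f (cm hY)) (H := im f H)
    (by rw [← im_sup f le_sup_left le_sup_right, im_self f fs]) (im_mono f (cm_le hY))
    (((im_le_im_iff f hRL (hZK.trans le_sup_left)).2 (by rw [f1]; exact a6)).trans (by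
      rintro _ ⟨z, hz, rfl⟩
      refine mem_center_iff.2 fun g => ?_
      obtain ⟨g, rfl⟩ := fs g
      rw [← commutatorElement_eq_one_iff_mul_comm, ← map_commutatorElement]
      exact (coe_mem_kr f).1 (f1.ge ⟨commutator_le_right' nK (commutator_mem_commutator g.2 (hZK hz)),
        a1 (a3 g g.2 z hz)⟩)))
    (by rw [← im_commutator f le_sup_left le_sup_left]; exact im_mono f (hK'.trans a4))
    (fun T hT => u3 T fun g => hT (f g)) (by
      rintro _ ⟨a, ha, rfl⟩ h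
      by_contra h1; push Not at h1
      refine h (mem_im_of_mem f ⟨ha, fun b hb => a2 ⟨hK' (commutator_mem_commutator hb ha),
        (t1 ⁅(⟨b, mem_sup_left hb⟩ : L), a⁆).1 ?_⟩⟩)
      have := h1 _ (mem_im_of_mem f (x := ⟨b, mem_sup_left hb⟩) hb)
      rwa [← map_commutatorElement] at this)
    (isCyc_im f hH) (by
      rintro _ ⟨h, hh, rfl⟩ h1 _ ⟨a, ha, rfl⟩ e
      rw [← map_commutatorElement, ← coe_mem_pre, f2] at e
      have e1 := commutator_zpowers_le (nR a.2) (nR h.2) e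
      obtain ⟨d, hd, e2⟩ := cop_fixed (hD.trans (le_sup_right.trans nR)) (hc.mono hD (cm_le hY)) (x := a)
        fun b hb => e1 (commutator_comm (zpowers (h : G)) _ ▸ commutator_mem_commutator
          (hD' h hh (fun e => h1 (by rw [show h = 1 from Subtype.ext e, map_one])) hb) (mem_zpowers _))
      exact mem_im_of_mem f ((mul_mem_cancel_left hd).1 (a4 (hC ⟨K.mul_mem (cm_le hY hd) ha, e2⟩))))
    (fun h => hne ((le_cm hY).1 (f2 ▸ (im_le_iff f le_sup_left).1 h)).2)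
    (natCast_ne_zero_of_dvd hK (card_im_dvd f K)) (f3 ▸ hH')
  rw [relIndex_im f _ le_sup_left, f2, f3] at this
  refine ⟨_, this.1, this.2.2 (eq_bot_iff.2 fun u hu => Subtype.ext (h0 _ (u1 u.2) fun a ha => ?_))⟩
  exact congrArg Subtype.val (hu _ (mem_im_of_mem f (x := ⟨a, mem_sup_right ha⟩) ha))

theorem nt_gross {p q N m j k d : ℕ} [hp : Fact p.Prime] (hp2 : p ≠ 2) (hq : 1 < q) (hN : N = q ^ m) (hm : 0 < m)
    (e : p ^ (j + 1) = N + 1) (hd : 0 < d) (h : p ^ (j + 1 + k) ∣ q ^ d - 1) : (N ^ 2) ^ p ^ k ≤ q ^ d := by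
  have h1 : N + 1 ∣ q ^ d - 1 := e ▸ (pow_dvd_pow p (by omega)).trans h
  have hN1 : 1 < N := hN ▸ Nat.one_lt_pow hm.ne' hq
  have m1 : q ^ d ≡ 1 [MOD N + 1] := ((Nat.modEq_iff_dvd' (Nat.one_le_pow _ _ (by omega))).2 h1).symm
  have m2 : N ^ 2 ≡ 1 [MOD N + 1] := ((Nat.modEq_iff_dvd' (Nat.one_le_pow _ _ (by omega))).2
    ⟨N - 1, by simpa using Nat.sq_sub_sq N 1⟩).symm
  obtain ⟨t, rfl⟩ : 2 * m ∣ d := by
    rw [← Nat.div_add_mod d (2 * m), pow_add, pow_mul, mul_comm 2 m, pow_mul, ← hN] at m1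
    have m3 : q ^ (d % (m * 2)) ≡ 1 [MOD N + 1] := by
      simpa using ((m2.pow (d / (m * 2))).mul_right _).symm.trans m1
    have r1 := Nat.mod_lt d (show 0 < m * 2 by omega)
    rw [mul_comm]
    refine Nat.dvd_of_mod_eq_zero (by_contra fun r0 => ?_)
    rcases le_or_gt (d % (m * 2)) m with r | r
    · have := Nat.pow_le_pow_right (by omega : 0 < q) r
      have h2 := Nat.one_lt_pow r0 hq
      have := Nat.le_of_dvd (by omega) ((Nat.modEq_iff_dvd' h2.le).1 m3.symm)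
      omega
    · obtain ⟨i, hi⟩ := Nat.exists_eq_add_of_lt r
      rw [hi, add_assoc, pow_add, ← hN] at m3
      have h2 : N + 1 ∣ q ^ (i + 1) + 1 := by
        have : (N + 1) * q ^ (i + 1) ≡ 1 + q ^ (i + 1) [MOD N + 1] := by
          rw [add_mul, one_mul]; exact m3.add_right _
        rw [add_comm (q ^ (i + 1)) 1]
        exact (Nat.modEq_zero_iff_dvd).1 (this.symm.trans (Nat.modEq_zero_iff_dvd.2 (dvd_mul_right _ _)))
      have := Nat.le_of_dvd (by positivity) h2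
      have := Nat.pow_lt_pow_right hq (show i + 1 < m by omega)
      omega
  have t0 : t ≠ 0 := by rintro rfl; simp at hd
  rw [mul_comm 2 m, pow_mul, pow_mul, ← hN] at h ⊢
  have d1 : p ∣ N + 1 := e ▸ dvd_pow_self p j.succ_ne_zero
  have d2 : ¬ p ∣ N := fun h => hp.out.not_dvd_one ((Nat.dvd_add_right h).1 d1)
  have d3 : ¬ p ∣ N - 1 := fun h => hp2 ((Nat.prime_dvd_prime_iff_eq hp.out Nat.prime_two).1 (by
    have := Nat.dvd_sub d1 h
    rwa [show N + 1 - (N - 1) = 2 by omega] at this))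
  have e2 : N ^ 2 - 1 = p ^ (j + 1) * (N - 1) := by rw [e]; simpa using Nat.sq_sub_sq N 1
  have := padicValNat.pow_sub_pow (p := p) (hp.out.odd_of_ne_two hp2) (x := N ^ 2) (y := 1) (by nlinarith)
    (e2 ▸ (dvd_pow_self p j.succ_ne_zero).mul_right _) (fun h => d2 (hp.out.dvd_of_dvd_pow h)) t0
  rw [one_pow, e2, padicValNat.mul (pow_pos hp.out.pos _).ne' (by omega), padicValNat.prime_pow,
    padicValNat.eq_zero_of_not_dvd d3] at this
  have h3 := (padicValNat_dvd_iff_le (Nat.sub_pos_of_lt (Nat.one_lt_pow t0 (by nlinarith))).ne').1 h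
  exact Nat.pow_le_pow_right (by positivity) (Nat.le_of_dvd (by omega) ((padicValNat_dvd_iff_le t0).2 (by omega)))

end H1
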