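import Cfsg.Agent.H1.SG1

/-! H1.SG2: the theorem of Shult and Gross. -/

open Cfsg Module Subgroup
open scoped commutatorElement Pointwise

namespace H1

universe u v

theorem fpa_red' {A : Type v} [Group A] (𝒳 : ∀ (Δ : Type u) [Group Δ], (A →* Δ) → Subgroup Δ → Prop)
    (core : ∀ (Γ : Type u) [Group Γ] [Finite Γ] (j : A →* Γ) (K : Subgroup Γ) (F : Type) [Field F] [IsAlgClosed F]
      (W : Type u) [AddCommGroup W] [Module F W] [FiniteDimensional F W] (ρ : Γ →* End F W),
      Function.Injective j → Lin ρ j.range K → 𝒳 Γ j K)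
    (Γ : Type u) [Group Γ] [Finite Γ] : ∀ (j : A →* Γ) (K : Subgroup Γ), Function.Injective j → Fpa j.range K →
      ∀ X ≤ K, X.Normal → (∀ (Δ : Type u) [Group Δ] (f : Γ →* Δ), 𝒳 Δ (f.comp j) (K.map f) → X ≤ f.ker) →
        Group.IsNilpotent X := by
  revert Γ
  apply group_induction
  intro Γ _ _ ih j K hj h X hX hXn hf
  haveI := h.nrm
  have hinj : ∀ (N : Subgroup Γ) [N.Normal], N ≤ K → Function.Injective ((QuotientGroup.mk' N).comp j) :=
    fun N _ hN => (injective_iff_map_eq_one _).2 fun a ha => hj (((H1.inf_eq_bot_of_coprime h.cop).le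
      ⟨⟨a, rfl⟩, hN ((QuotientGroup.eq_one_iff _).1 ha)⟩).trans (map_one j).symm)
  by_cases hK : K = ⊥
  · rw [show X = ⊥ from le_bot_iff.1 (hK ▸ hX)]; infer_instance
  obtain ⟨V, l, hl, v1, v2, v3, v4, v5, v6, v7⟩ := exists_minimal_normal_elementary K h.sol hK
  haveI := Fact.mk hl
  refine isNilpotent_of_map_of_le_centralizer (QuotientGroup.mk' V) (ih _ (card_quotient_lt v2)
    ((QuotientGroup.mk' V).comp j) _ (hinj V v3) (by rw [MonoidHom.range_comp]; exact h.quot v3) _ (map_mono hX)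
    (hXn.map _ (QuotientGroup.mk'_surjective V)) fun Δ _ f h1 => ?_) ?_
  · rw [map_map] at h1
    rintro _ ⟨x, hx, rfl⟩
    exact hf Δ (f.comp (QuotientGroup.mk' V)) h1 hx
  rw [QuotientGroup.ker_mk']
  obtain ⟨W, _, _, _, ρ, r1, r2⟩ := exists_rep_normal (V := V) ⟨v4, v5⟩
  have hlA : ¬ l ∣ Nat.card j.range := fun e => hl.ne_one (Nat.eq_one_of_dvd_coprimes h.cop e
    ((H9.dvd_card_of_isPGroup v6 v2).trans (card_dvd_of_le v3)))
  set N := K ⊓ centralizer (V : Set Γ) with hN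
  let σ : Γ ⧸ N →* End (AlgebraicClosure (ZMod l)) W := QuotientGroup.lift N ρ fun x hx => by
    rw [r1]; exact hx.2
  have hσ : σ.comp (QuotientGroup.mk' N) = ρ := rfl
  have hq := h.quot (N := N) inf_le_left
  have hcm : ∀ Y : Subgroup (Γ ⧸ N), Y ≤ K.map (QuotientGroup.mk' N) → Y.comap (QuotientGroup.mk' N) ≤ K :=
    fun Y hY => (comap_mono hY).trans (by rw [comap_map_eq, QuotientGroup.ker_mk', sup_eq_left.2 inf_le_left])
  have hbot : ∀ Y : Subgroup (Γ ⧸ N), Y ≤ K.map (QuotientGroup.mk' N) →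
      Y.comap (QuotientGroup.mk' N) ≤ centralizer (V : Set Γ) → Y = ⊥ := fun Y h1 h2 => by
    rw [← map_comap_eq_self_of_surjective (QuotientGroup.mk'_surjective N) Y, Subgroup.map_eq_bot_iff,
      QuotientGroup.ker_mk']
    exact le_inf (hcm Y h1) h2
  have hO : ∀ Y : Subgroup (Γ ⧸ N), Y.Normal → Y ≤ K.map (QuotientGroup.mk' N) → IsPGroup l Y → Y = ⊥ :=
    fun Y h1 h2 h3 => hbot Y h2 (le_centralizer_of_isPGroup_map v6 v7 (by
      have h4 := h3.map (QuotientGroup.map N (centralizer (V : Set Γ)) (MonoidHom.id Γ) inf_le_right)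
      rw [← map_comap_eq_self_of_surjective (QuotientGroup.mk'_surjective N) Y, map_map] at h4
      exact h4))
  refine (hf _ (QuotientGroup.mk' N) (core _ ((QuotientGroup.mk' N).comp j) _ _ W σ (hinj N inf_le_left) ?_)).trans
    (by rw [QuotientGroup.ker_mk']; exact inf_le_right)
  rw [MonoidHom.range_comp]
  refine ⟨hq, natCast_ne_zero_closure fun e => hlA (e.trans (card_map_dvd _ _)),
    natCast_ne_zero_closure fun e => ?_, hbot _ inf_le_left fun x hx => r1 ▸ hx.2, ?_, fun Y y1 y2 y3 => ?_, ?_⟩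
  · haveI := hq.nrm
    obtain ⟨S, hS⟩ := exists_isSylowIn (p := l) (H9.Fit (K.map (QuotientGroup.mk' N)))
    exact hS.eq_bot_iff.1 (hO S (normalizer_eq_top_iff.1 (top_le_iff.1 ((H9.normalizer_Fit
      le_normalizer_of_normal).trans (hS.normalizer_le_of_nilpotent (H9.Fit_nil _))))) (hS.le.trans (H9.Fit_le _))
      hS.isPGroup) e
  · rw [fix_map, hσ, r2 _ hlA]
    exact eq_bot_iff.2 ((inf_le_inf_right _ v3).trans h.fpf.le)
  · obtain ⟨Y', q, hq', w1, w2, w3, -, -, w4, -⟩ := exists_minimal_normal_elementary Y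
      (isSolvable_of_le y2 hq.sol) y3
    haveI := Fact.mk hq'
    refine eq_bot_iff.2 ((fix_anti w3).trans (le_of_eq ?_))
    obtain ⟨B, hB⟩ := exists_isSylowIn (p := q) (Y'.comap (QuotientGroup.mk' N))
    have e := (hB.map (QuotientGroup.mk' N)).eq_of_isPGroup
      (by rwa [map_comap_eq_self_of_surjective (QuotientGroup.mk'_surjective N)])
    rw [map_comap_eq_self_of_surjective (QuotientGroup.mk'_surjective N)] at e
    have hql : q ≠ l := by rintro rfl; exact w2 (hO Y' w1 (w3.trans y2) w4)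
    rw [← e, fix_map, hσ, r2 B fun hd => hql (isPGroup_iff_isPiNum.1 hB.isPGroup l hl hd).symm]
    have e2 : Y'.comap (QuotientGroup.mk' N) = B ⊔ N := by rw [← e, comap_map_eq, QuotientGroup.ker_mk']
    have e3 : V ⊓ centralizer (B : Set Γ) = V ⊓ centralizer (Y'.comap (QuotientGroup.mk' N) : Set Γ) := by
      refine le_antisymm (le_inf inf_le_left (le_centralizer_iff.1 ?_)) (inf_le_inf_left _ (centralizer_le hB.le))
      rw [e2]
      exact sup_le (le_centralizer_iff.1 inf_le_right) (inf_le_right.trans (centralizer_le inf_le_left))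
    rw [e3]
    refine (v7 _ inferInstance inf_le_left).resolve_right fun e4 => w2 (hbot Y' (w3.trans y2) ?_)
    exact le_centralizer_iff.1 (inf_eq_left.1 e4)
  · by_contra hW
    rw [not_nontrivial_iff_subsingleton] at hW
    have := (r2 ⊥ (by rw [card_bot]; exact hl.not_dvd_one)).1 (Subsingleton.elim _ _)
    exact v2 (by rwa [inf_eq_left.2 (le_centralizer_iff.1 bot_le)] at this)

open H9

variable {F : Type*} [Field F] {G : Type*} [Group G] [Finite G]

theorem mem_of_comm_mem' {K R D : Subgroup G} {a g : G} (ha : a ∈ K) (h1 : R ≤ K) (h2 : K ≤ normalizer (R : Set G))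
    (h3 : g ∈ normalizer (R : Set G)) (hD : D ≤ zpowers g) (hc : CopA D R) (hC : K ⊓ centralizer (D : Set G) ≤ R)
    (e : ⁅a, g⁆ ∈ R) : a ∈ R := by
  obtain ⟨d, hd, e2⟩ := cop_fixed (hD.trans (zpowers_le.2 h3)) hc (x := a) fun b hb =>
    commutator_zpowers_le (h2 ha) h3 e (commutator_comm (zpowers g) _ ▸ commutator_mem_commutator (hD hb) (mem_zpowers _))
  exact (mul_mem_cancel_left hd).1 (hC ⟨K.mul_mem (h1 hd) ha, e2⟩)

omit [Finite G] in
theorem min_subgroupOf {K A B L : Subgroup G} (hK : K ≤ L) (hA : A ≤ L) (hB : B ≤ L)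
    (hm : ∀ X < K, B ≤ normalizer (X : Set G) → X ≤ centralizer (A : Set G)) :
    ∀ X < K.subgroupOf L, B.subgroupOf L ≤ normalizer (X : Set L) → X ≤ centralizer (A.subgroupOf L : Set L) :=
  fun X hX hn => by
    rw [← subgroupOf_centralizer hA]
    refine map_le_iff_le_comap.1 (hm _ (lt_of_le_of_ne (map_le_iff_le_comap.2 hX.le) fun e => hX.ne (by
      rw [← subgroupOf_map_subtype' _ X, e])) ?_)
    exact (map_subgroupOf_eq_of_le hB).ge.trans ((map_mono hn).trans (Subgroup.le_normalizer_map _))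

omit [Finite G] in
theorem zpowers_mk {L : Subgroup G} {y : G} (hy : y ∈ L) : zpowers (⟨y, hy⟩ : L) = (zpowers y).subgroupOf L := by
  rw [← subgroupOf_map_subtype' _ (zpowers _), MonoidHom.map_zpowers]; rfl

variable {V : Type*} [AddCommGroup V] [Module F V] {ρ : G →* End F V} [IsAlgClosed F] [FiniteDimensional F V]

theorem gross_core {p q n : ℕ} [hp : Fact p.Prime] [hq : Fact q.Prime] (hp2 : p ≠ 2) {K : Subgroup G} [K.Normal]
    {s : G} (hs : s ^ p ^ (n + 1) = 1) (hK : IsPGroup q K) (hc : CopA (zpowers s) K) (hK0 : (Nat.card K : F) ≠ 0)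
    (hA : (Nat.card (zpowers s) : F) ≠ 0) (h0 : fix ρ (zpowers s) = ⊥) (hf : K ⊓ ρ.ker = ⊥)
    (hfp : K ⊓ centralizer {s} = ⊥)
    (hm : ∀ X < K, zpowers s ≤ normalizer (X : Set G) → X ≤ centralizer (zpowers (s ^ p ^ n) : Set G)) :
    K ≤ centralizer (zpowers (s ^ p ^ n) : Set G) := by
  by_contra hne
  have hyx : zpowers (s ^ p ^ n) ≤ zpowers s := zpowers_le.2 (pow_mem (mem_zpowers s) _)
  have hny : zpowers s ≤ normalizer (zpowers (s ^ p ^ n) : Set G) :=
    le_normalizer_of_le_centralizer ((le_centralizer _).trans (centralizer_le hyx))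
  obtain ⟨-, h2, h3, h4⟩ := min_action hyx le_normalizer_of_normal hny hc hm hne
  have hle : ⁅K, K⁆ ≤ K := commutator_le_of_le le_rfl le_rfl
  have hK1 : K ≠ ⊥ := fun e => hne (e ▸ bot_le)
  have hlt := commutator_lt_of_p hK hK le_normalizer hK1
  by_cases h6 : ⁅K, K⁆ = ⊥
  · have := comm_le_ker_of_min le_normalizer_of_normal hK0 hA h0 (h6.le.trans bot_le) hyx
      fun a ha a1 => zpowers_le.2 (top_mem_zpowers hs ha a1)
    rw [commutator_comm, h2] at this
    exact hK1 (eq_bot_iff.2 ((le_inf le_rfl this).trans hf.le))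
  have hZ0 := natCast_ne_zero_of_dvd hK0 (card_dvd_of_le hle)
  obtain ⟨a, ha, ha1⟩ := (bot_or_exists_ne_one _).resolve_left h6
  have := mt (rho_eq_one_of_wt (ρ := ρ) hZ0 ((commutator_eq_bot_iff_le_centralizer.2
    (h3.trans (centralizer_le (hle.trans le_sup_left)))).le.trans bot_le) ⟨a, ha⟩)
    fun e => ha1 (mem_bot.1 (hf.le ⟨hle ha, e⟩))
  push Not at this
  obtain ⟨χ, c1, c2⟩ := this
  have c3 : K ⊔ zpowers (s ^ p ^ n) ≤ MulAction.stabilizer G χ := fun g hg =>
    smul_wt_of_centralizer (le_centralizer_iff.1 h3 hg) χ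
  obtain ⟨w, hw, w0⟩ := (Submodule.ne_bot_iff _).1 c1
  have c4 : ∀ z : (⁅K, K⁆ : Subgroup G), (z : G) ∈ ptw ρ (wt ρ χ) ↔ χ z = 1 := fun z =>
    ⟨fun h => Units.ext (smul_left_injective F w0 ((hw z).symm.trans ((h w hw).trans (one_smul F w).symm))),
      fun h u hu => by rw [hu z, h]; simp⟩
  obtain ⟨k, -, e⟩ := (Nat.dvd_prime_pow hp.out).1 (MulAction.pow_smul_eq_iff_period_dvd.1
    (show s ^ p ^ (n + 1) • χ = χ by rw [hs, one_smul]))
  obtain ⟨j, rfl⟩ : ∃ j, n = k + j := Nat.exists_eq_add_of_le ((Nat.pow_dvd_pow_iff_le_right hp.out.one_lt).1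
    (e ▸ MulAction.pow_smul_eq_iff_period_dvd.1 (c3 (mem_sup_right (mem_zpowers _)))))
  have c5 : K ⊔ zpowers (s ^ p ^ k) ≤ MulAction.stabilizer G χ := sup_le (le_sup_left.trans c3)
    (zpowers_le.2 (MulAction.pow_smul_eq_iff_period_dvd.2 (e ▸ dvd_rfl)))
  have c6 : ∀ g ∈ K ⊔ zpowers (s ^ p ^ k), ∀ u ∈ wt ρ χ, ρ g u ∈ wt ρ χ := fun g hg u hu =>
    (c5 hg : g • χ = χ) ▸ rho_mem_wt hu g
  have hx : zpowers (s ^ p ^ k) ≤ zpowers s := zpowers_le.2 (pow_mem (mem_zpowers s) _)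
  have hC := h4 _ (lt_of_le_of_ne inf_le_left fun e => hne (inf_eq_left.1 e))
    (normalizer_inf le_normalizer_of_normal (normalizer_centralizer hny))
  have y1 : s ^ p ^ (k + j) ≠ 1 := fun e => hne (by rw [e, zpowers_one_eq_bot]; exact le_centralizer_iff.1 bot_le)
  have e1 : s ^ p ^ (k + j) = (s ^ p ^ k) ^ p ^ j := by rw [← pow_mul, ← pow_add]
  have e2 : (s ^ p ^ k) ^ p ^ (j + 1) = 1 := by rw [← pow_mul, ← pow_add]; exact hs
  have hY := le_sup_left.trans (normalizer_ptw c6)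
  obtain ⟨N, n1, n2⟩ := rad_index c6 le_normalizer_of_normal hle le_rfl (fun z hz => ⟨_, fun u hu => hu ⟨z, hz⟩⟩)
    inferInstance (zpowers_le.2 (e1 ▸ pow_mem (mem_zpowers _) _))
    (fun a ha a1 => zpowers_le.2 (e1 ▸ top_mem_zpowers e2 ha a1)) hC (hc.mono hx le_rfl) hK0
    (natCast_ne_zero_of_dvd hA (card_dvd_of_le hx)) (fun u hu h => orb hZ0 hA h0 hu fun b hb hb' => h b (by
      obtain ⟨i, rfl⟩ := mem_powers_iff_mem_zpowers.2 hb
      obtain ⟨l, rfl⟩ := e ▸ MulAction.pow_smul_eq_iff_period_dvd.1 hb'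
      simp only [pow_mul]; exact pow_mem (mem_zpowers _) l)) (fun h => c2 ((c4 _).1 (h ha))) hY
  rw [Nat.card_zpowers, orderOf_eq_prime_pow (e1 ▸ y1) e2] at n2
  obtain ⟨l, hl⟩ := L.exists_relIndex_eq_pow (N := cm hY) hK
  obtain ⟨m, -, hm'⟩ := (Nat.dvd_prime_pow hq.out).1 ((n1.trans hl) ▸ dvd_pow_self _ two_ne_zero : N ∣ q ^ l)
  obtain ⟨d, hd⟩ := L.exists_relIndex_eq_pow (N := ⁅K, K⁆) hK
  have n3 : 2 < p ^ (j + 1) := (lt_of_le_of_ne hp.out.two_le hp2.symm).trans_le (Nat.le_self_pow j.succ_ne_zero p)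
  have n4 : (N ^ 2) ^ p ^ k ≤ ⁅K, K⁆.relIndex K := by
    rw [hd]
    refine nt_gross hp2 hq.out.one_lt hm' (Nat.pos_of_ne_zero fun e => by rw [e, pow_zero] at hm'; omega) n2
      (Nat.pos_of_ne_zero fun e => hlt.not_ge (relIndex_eq_one.1 (by rw [hd, e, pow_zero]))) ?_
    let π := QuotientGroup.mk' ⁅K, K⁆
    haveI := Normal.map ‹K.Normal› π (QuotientGroup.mk'_surjective _)
    have := Fpf.card_dvd (H := (zpowers s).map π) (K := K.map π) (fpf_iff.2 (by
      rintro _ ⟨h, hh, rfl⟩ _ ⟨x, hx, rfl⟩ e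
      refine or_iff_not_imp_left.2 fun h1 => (QuotientGroup.eq_one_iff x).2 (mem_of_comm_mem' hx hle
        le_normalizer_of_normal (le_normalizer_of_normal (K := ⊤) trivial) (zpowers_le.2 (top_mem_zpowers hs hh
          fun e => h1 (by rw [e, map_one]))) (hc.mono hyx hle) hC ((QuotientGroup.eq_one_iff _).1 ?_))
      change π _ = 1
      rw [map_commutatorElement, commutatorElement_eq_one_iff_mul_comm, e])) le_normalizer_of_normal
    rwa [card_map_mk2, card_map_mk2, hd, ← inf_relIndex_right, inf_comm, (hc.mono le_rfl hle).inf_eq_bot,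
      relIndex_bot_left, Nat.card_zpowers, orderOf_eq_prime_pow y1 hs, show k + j + 1 = j + 1 + k by omega] at this
  obtain ⟨t, ht⟩ : ∃ t, p ^ k = t + 1 := ⟨p ^ k - 1, (Nat.sub_add_cancel (Nat.one_le_pow _ _ hp.out.pos)).symm⟩
  have r0 : ¬ K ≤ cm hY := fun h => c2 ((c4 _).1 (((le_cm hY).1 h).2 ha))
  have r1 : s ^ (t + 1) ∈ normalizer (cm hY : Set G) := ht ▸ normalizer_cm hY le_normalizer_of_normal
    (le_sup_right.trans (normalizer_ptw c6)) (mem_zpowers _)
  let D := K ⊓ ⨅ i : Fin t, cj (s ^ (i + 1 : ℕ)) (cm hY)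
  have d1 : cm hY ⊓ D ≤ ⁅K, K⁆ := by
    refine le_trans ?_ (h4 (⨅ i : ℕ, cj (s ^ i) (cm hY)) (lt_of_le_of_ne ((iInf_le _ 0).trans (by simpa using cm_le hY))
      fun e => r0 (e.ge.trans ((iInf_le _ 0).trans (by simp)))) (zpowers_le.2 ((Subgroup.inv_mem_iff _).1
        (mem_normalizer_of_cj_le (le_iInf fun i => cj_le_iff.2 ((iInf_le _ (i + 1)).trans (by
          rw [inv_inv, ← cj_mul, pow_succ'])))))))
    refine le_iInf fun i => ?_
    rw [← Nat.mod_add_div i (t + 1), pow_add, pow_mul, cj_mul, mem_normalizer_iff_cj.1 (pow_mem r1 _)]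
    rcases h : i % (t + 1) with _ | i'
    · simp
    · exact inf_le_right.trans (inf_le_right.trans (iInf_le _ (⟨i', by
        have := Nat.mod_lt i (show 0 < t + 1 by omega); omega⟩ : Fin t)))
  have d2 : D.relIndex K ≤ (N ^ 2) ^ t := by
    rw [inf_relIndex_left]
    refine (relIndex_iInf_le _).trans (le_of_eq ?_)
    rw [Finset.prod_congr rfl (g := fun _ => N ^ 2) fun i _ => by
      rw [n1, ← relIndex_cj (s ^ (i + 1 : ℕ)) (cm hY) K, cj_eq_of_normal _ K], Finset.prod_const, Finset.card_univ,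
      Fintype.card_fin]
  have d3 : D ⊔ cm hY = K := by
    refine sup_eq_of_relIndex_le inf_le_left (cm_le hY) (normalizer_cm hY le_normalizer hY) ?_
    have e1 := relIndex_inf_mul_relIndex (cm hY) D K
    have e2 := relIndex_le_of_le_left d1 (L := K) index_ne_zero_of_finite
    rw [inf_eq_left.2 (inf_le_left : D ≤ K)] at e1
    rw [ht, pow_succ', n1] at n4
    refine Nat.le_of_mul_le_mul_right (n4.trans (e2.trans (e1.ge.trans (Nat.mul_le_mul_left _ (n1 ▸ d2))))) ?_
    exact pow_pos (Nat.pos_of_ne_zero index_ne_zero_of_finite) _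
  obtain ⟨z, hz, z1⟩ : ∃ z ∈ ⁅D, D⁆, z ∉ ptw ρ (wt ρ χ) := SetLike.not_le_iff_exists.1 fun h => r0 (by
    refine d3.ge.trans (sup_le ((le_cm hY).2 ⟨inf_le_left, ?_⟩) le_rfl)
    rw [commutator_comm]
    exact (commutator_mono le_rfl d3.ge).trans (comm_sup_le' (inf_le_left.trans hY) ((cm_le hY).trans hY) h
      ((commutator_mono inf_le_left le_rfl).trans ((le_cm hY).1 le_rfl).2)))
  have hz' : z ∈ ⁅K, K⁆ := commutator_mono inf_le_left inf_le_left hz
  have z2 : ∀ i < t, (s ^ (i + 1) • χ) ⟨z, hz'⟩ = 1 := fun i hi => by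
    rw [Wt.smul_apply, ← c4]
    refine mem_cj.1 (cj_mono _ ((le_cm hY).1 le_rfl).2 ?_)
    rw [← cj_comm_left (V := K) (le_normalizer_of_normal (K := ⊤) trivial)]
    have d4 : D ≤ cj (s ^ (i + 1)) (cm hY) :=
      inf_le_right.trans (iInf_le (fun i : Fin t => cj (s ^ (i + 1 : ℕ)) (cm hY)) ⟨i, hi⟩)
    exact commutator_mono (inf_le_left : D ≤ K) d4 hz
  have hev : ∀ (f : ℕ → Wt F ⁅K, K⁆) (i : ℕ) (b : (⁅K, K⁆ : Subgroup G)), (∏ x ∈ Finset.range i, f x) b =
      ∏ x ∈ Finset.range i, f x b := fun f i b => by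
    induction i with
    | zero => rfl
    | succ i ih => rw [Finset.prod_range_succ, Finset.prod_range_succ, Wt.mul_apply, ih]
  have := Wt.eq_one_of_smul_eq (g := s) (χ := ∏ i ∈ Finset.range (t + 1), s ^ i • χ) (Wt.ext fun b => by
    rw [Wt.smul_apply, hev, hev, Finset.prod_range_succ, Finset.prod_range_succ', pow_zero, one_smul]
    simp only [← Wt.smul_apply, smul_smul, ← pow_succ']
    rw [← ht, show s ^ p ^ k • χ = χ from c5 (mem_sup_right (mem_zpowers _))]) (eq_bot_iff.2 ((inf_le_inf_right _ hle).trans hfp.le))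
  have := DFunLike.congr_fun this ⟨z, hz'⟩
  rw [hev, Finset.prod_range_succ', Finset.prod_eq_one fun i hi => z2 i (Finset.mem_range.1 hi), one_mul, pow_zero,
    one_smul] at this
  exact z1 ((c4 ⟨z, hz'⟩).2 this)

theorem gross_lin {p n : ℕ} [hp : Fact p.Prime] (hp2 : p ≠ 2) {K : Subgroup G} {s : G} (hs : s ^ p ^ (n + 1) = 1)
    (h : Lin ρ (zpowers s) K) : K ≤ centralizer (zpowers (s ^ p ^ n) : Set G) := by
  haveI := h.nrm
  have hD : zpowers (s ^ p ^ n) ≤ zpowers s := zpowers_le.2 (pow_mem (mem_zpowers s) _)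
  refine le_centralizer_iff.1 (le_centralizer_of_Fit h.sol le_normalizer_of_normal (coprime_of_le_left h.cop hD)
    (le_centralizer_iff.1 ?_))
  suffices ∀ X ≤ Fit K, zpowers s ≤ normalizer (X : Set G) → X ≤ centralizer (zpowers (s ^ p ^ n) : Set G) from
    this _ le_rfl (normalizer_Fit le_normalizer_of_normal)
  intro X
  induction X using WellFoundedLT.induction with | ind X ih
  intro hX hn
  have hXK := hX.trans (Fit_le K)
  have hm := fun Y (hY : Y < X) => ih Y hY (hY.le.trans hX)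
  by_contra hne
  obtain ⟨⟨q, hq, hXq⟩, -⟩ := min_action hD hn (le_normalizer_of_le_centralizer
    ((le_centralizer _).trans (centralizer_le hD))) ⟨coprime_of_le_right h.cop hXK, Or.inl (isSolvable_zpowers s)⟩ hm hne
  haveI := Fact.mk hq
  let L := X ⊔ zpowers s
  have hsL : s ∈ L := mem_sup_right (mem_zpowers s)
  haveI := normal_subgroupOf' (sup_le le_normalizer hn : L ≤ _)
  have e1 : Nat.card (zpowers (⟨s, hsL⟩ : L)) = Nat.card (zpowers s) := by
    rw [zpowers_mk, card_subgroupOf le_sup_right]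
  have e2 : zpowers ((⟨s, hsL⟩ : L) ^ p ^ n) = (zpowers (s ^ p ^ n)).subgroupOf L := zpowers_mk (pow_mem hsL _)
  have := gross_core (ρ := ρ.comp L.subtype) (q := q) hp2 (K := X.subgroupOf L) (s := ⟨s, hsL⟩) (n := n)
    (Subtype.ext hs) (hXq.comap_of_injective _ L.subtype_injective)
    ⟨by rw [e1, card_subgroupOf le_sup_left]; exact coprime_of_le_right h.cop hXK, Or.inl (isSolvable_zpowers _)⟩
    (by rw [card_subgroupOf le_sup_left]; exact natCast_ne_zero_of_dvd h.hF (card_dvd_of_le hX))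
    (by rw [e1]; exact h.hA) (by rw [zpowers_mk, fix_subgroupOf le_sup_right, h.fixA])
    (eq_bot_iff.2 fun x hx => Subtype.ext (h.ker.le ⟨hXK hx.1, hx.2⟩))
    (eq_bot_iff.2 fun x hx => Subtype.ext (h.fpf.le ⟨hXK hx.1, by
      rw [centralizer_zpowers]
      exact mem_centralizer_singleton_iff.2 (congrArg Subtype.val (mem_centralizer_singleton_iff.1 hx.2))⟩))
    (by rw [e2, zpowers_mk]; exact min_subgroupOf le_sup_left (hD.trans le_sup_right) le_sup_right hm)
  rw [e2, ← subgroupOf_centralizer (hD.trans le_sup_right)] at this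
  exact hne fun x hx => this (show (⟨x, mem_sup_left hx⟩ : L) ∈ _ from hx)

/-- a normal series from `X` to `K` with `n` nilpotent factors -/
def FH (n : ℕ) {G : Type*} [Group G] (X K : Subgroup G) : Prop :=
  ∃ F : Fin (n + 1) → Subgroup G, F 0 = X ∧ F (Fin.last n) = K ∧ Monotone F ∧ (∀ i, (F i).Normal) ∧
    ∀ i : Fin n, ∃ k : ℕ, (F i.succ).lowerCentralSeries k ≤ F i.castSucc

omit [Finite G] in
theorem FH.pull {n : ℕ} {H : Type*} [Group H] (f : G →* H) {K : Subgroup G} [K.Normal] {X : Subgroup H}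
    (h : FH n X (K.map f)) : FH n (K ⊓ X.comap f) K := by
  obtain ⟨F, h1, h2, h3, h4, h5⟩ := h
  refine ⟨fun i => K ⊓ (F i).comap f, by simp only [h1], by simp only [h2, inf_eq_left.2 (le_comap_map f K)],
    fun i j hij => inf_le_inf_left _ (comap_mono (h3 hij)), fun i => inferInstance, fun i => ?_⟩
  obtain ⟨k, hk⟩ := h5 i
  refine ⟨k, le_inf ((Subgroup.lowerCentralSeries_antitone _ k.zero_le).trans inf_le_left) (map_le_iff_le_comap.1 ?_)⟩
  rw [map_lowerCentralSeries]
  exact (lowerCentralSeries_mono k (map_le_iff_le_comap.2 inf_le_right)).trans hk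

omit [Finite G] in
theorem FH.cons {n : ℕ} {X K : Subgroup G} (h : FH n X K) (hX : Group.IsNilpotent X) : FH (n + 1) ⊥ K := by
  obtain ⟨F, h1, h2, h3, h4, h5⟩ := h
  refine ⟨Fin.cons ⊥ F, rfl, by rw [← Fin.succ_last, Fin.cons_succ, h2], Fin.monotone_iff_le_succ.2 fun i => ?_,
    fun i => ?_, fun i => ?_⟩
  · cases i using Fin.cases with
    | zero => exact bot_le
    | succ i => exact h3 i.castSucc_le_succ
  · cases i using Fin.cases with
    | zero => exact normal_bot
    | succ i => exact h4 i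
  · cases i using Fin.cases with
    | zero => exact ((isNilpotent_iff_lowerCentralSeries _).1 (h1 ▸ hX : Group.IsNilpotent (F 0))).imp fun _ h => h.le
    | succ i => exact h5 i

omit [Finite G] in
theorem FH.zero : FH 0 (⊥ : Subgroup G) ⊥ :=
  ⟨fun _ => ⊥, rfl, rfl, monotone_const, fun _ => normal_bot, fun i => i.elim0⟩

omit [Finite G] in
theorem FH.of_range {n : ℕ} {H : Type*} [Group H] {f : G →* H} (hf : Function.Injective f) (h : FH n ⊥ f.range) :
    FH n (⊥ : Subgroup G) ⊤ := by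
  have := FH.pull f (K := ⊤) (X := ⊥) (by rwa [← MonoidHom.range_eq_map])
  rwa [top_inf_eq, MonoidHom.comap_bot, (MonoidHom.ker_eq_bot_iff f).2 hf] at this

theorem Fpa.quotA {A K N : Subgroup G} (h : Fpa A K) [N.Normal] (hN : N ≤ A) :
    Fpa (A.map (QuotientGroup.mk' N)) (K.map (QuotientGroup.mk' N)) :=
  ⟨h.nrm.map _ (QuotientGroup.mk'_surjective N), isSolvable_map _ h.sol,
    (h.cop.coprime_dvd_left (card_map_dvd _ _)).coprime_dvd_right (card_map_dvd _ _), eq_bot_iff.2 (by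
      rintro _ ⟨⟨x, hx, rfl⟩, e⟩
      rw [h.fpf.le ⟨hx, fun a ha => commutatorElement_eq_one_iff_mul_comm.1 ((H1.inf_eq_bot_of_coprime h.cop).le
        ⟨hN ((QuotientGroup.eq_one_iff _).1 ((map_commutatorElement (QuotientGroup.mk' N) a x).trans
          (commutatorElement_eq_one_iff_mul_comm.2 (e _ (mem_map_of_mem _ ha))))), ?_⟩)⟩, map_one]
      · exact one_mem _
      · exact K.mul_mem (h.nrm.conj_mem x hx a) (K.inv_mem hx)),
    by rw [← Subgroup.map_sup, h.top, map_top_of_surjective _ (QuotientGroup.mk'_surjective N)]⟩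

omit [Finite G] in
theorem range_zpowers {Δ : Type*} [Group Δ] {s : G} (j : zpowers s →* Δ) :
    j.range = zpowers (j ⟨s, mem_zpowers s⟩) := by
  rw [← MonoidHom.map_zpowers, MonoidHom.range_eq_map]
  congr 1
  exact (eq_top_iff.2 (by rintro ⟨_, k, rfl⟩ -; exact ⟨k, rfl⟩)).symm

theorem shult_gross {p : ℕ} [hp : Fact p.Prime] (hp2 : p ≠ 2) (n : ℕ) : ∀ (Γ : Type u) [Group Γ] [Finite Γ]
    (K : Subgroup Γ) (s : Γ), s ^ p ^ n = 1 → Fpa (zpowers s) K → FH n ⊥ K := by
  induction n with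
  | zero =>
    intro Γ _ _ K s hs h
    rw [pow_zero, pow_one] at hs
    rw [le_bot_iff.1
      ((le_inf le_rfl (le_centralizer_iff.1 (by rw [hs, zpowers_one_eq_bot]; exact bot_le))).trans h.fpf.le)]
    exact FH.zero
  | succ n ih =>
    intro Γ _ _ K s hs h
    haveI := h.nrm
    have hD : zpowers (s ^ p ^ n) ≤ zpowers s := zpowers_le.2 (pow_mem (mem_zpowers s) _)
    haveI : (⁅K, zpowers (s ^ p ^ n)⁆).Normal := normal_of_sup_eq_top h.top (le_normalizer_commutator_left _ _)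
      (normalizer_commutator le_normalizer_of_normal
        (le_normalizer_of_le_centralizer ((le_centralizer _).trans (centralizer_le hD))))
    have hX : ⁅K, zpowers (s ^ p ^ n)⁆ ≤ K := commutator_le_left _ _
    have h1 := fpa_red' (fun Δ _ j K => K ≤ centralizer (zpowers (j ⟨s, mem_zpowers s⟩ ^ p ^ n) : Set Δ))
      (fun Δ _ _ j K F _ _ W _ _ _ ρ _ h => gross_lin hp2 (by
        rw [← map_pow, show (⟨s, mem_zpowers s⟩ : zpowers s) ^ p ^ (n + 1) = 1 from Subtype.ext hs, map_one])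
        (range_zpowers j ▸ h)) Γ (zpowers s).subtype K (subtype_injective _) (by rwa [range_subtype]) _ hX this
      fun Δ _ f hf => by
        rw [← Subgroup.map_eq_bot_iff, map_commutator, MonoidHom.map_zpowers, map_pow]
        exact commutator_eq_bot_iff_le_centralizer.2 hf
    have h2 := h.quot hX
    set π := QuotientGroup.mk' ⁅K, zpowers (s ^ p ^ n)⁆ with hπ
    haveI := h2.nrm
    haveI : ((zpowers (s ^ p ^ n)).map π).Normal := normal_of_sup_eq_top h2.top (le_normalizer_of_le_centralizer (by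
      rw [← commutator_eq_bot_iff_le_centralizer, ← map_commutator, Subgroup.map_eq_bot_iff, QuotientGroup.ker_mk']))
      ((map_mono (le_normalizer_of_le_centralizer ((le_centralizer _).trans (centralizer_le hD)))).trans
        (Subgroup.le_normalizer_map _))
    have h3 := h2.quotA (map_mono hD)
    rw [MonoidHom.map_zpowers π s, MonoidHom.map_zpowers _ (π s)] at h3
    have h4 := (ih _ _ _ (by
      rw [← map_pow, ← map_pow]; exact (QuotientGroup.eq_one_iff _).2 (mem_map_of_mem _ (mem_zpowers _))) h3).pull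
    rw [MonoidHom.comap_bot, QuotientGroup.ker_mk', inf_comm,
      H1.inf_eq_bot_of_coprime (coprime_of_le_left h2.cop (map_mono hD))] at h4
    have h5 := h4.pull
    rw [MonoidHom.comap_bot, QuotientGroup.ker_mk', inf_eq_right.2 hX] at h5
    exact h5.cons h1

theorem exists_fpa {G : Type u} [Group G] [Finite G] (hG : Group.IsSolvable G) {A : Type v} [Group A] [Finite A]
    (φ : A →* MulAut G) (hc : (Nat.card A).Coprime (Nat.card G) ∨ ∃ p, p.Prime ∧ IsPGroup p A)
    (hfpf : ∀ g, (∀ a, φ a g = g) → g = 1) : ∃ (Γ : Type (max u v)) (_ : Group Γ) (_ : Finite Γ) (i : G →* Γ)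
      (j : A →* Γ), Function.Injective i ∧ Function.Injective j ∧ Fpa j.range i.range := by
  obtain ⟨Γ, _, _, i, j, hi, hj, hij, -, h2, h3⟩ := exists_ambient φ
  have hfp : i.range ⊓ centralizer (j.range : Set Γ) = ⊥ := eq_bot_iff.2 (by
    rintro _ ⟨⟨x, rfl⟩, hx⟩
    rw [hfpf x ((mem_centralizer_range_iff hi hij).1 hx), map_one]
    exact one_mem _)
  refine ⟨Γ, _, ‹_›, i, j, hi, hj, h3, isSolvable_range, ?_, hfp, sup_comm j.range _ ▸ h2⟩
  rcases hc with hc | ⟨p, hp, hA⟩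
  · rwa [← Nat.card_congr (MonoidHom.ofInjective hi).toEquiv, ← Nat.card_congr (MonoidHom.ofInjective hj).toEquiv]
  haveI := Fact.mk hp
  have hA : IsPGroup p j.range := hA.of_equiv (MonoidHom.ofInjective hj)
  refine isPGroup_coprime' hA fun h => ?_
  obtain ⟨T, hT, hAT⟩ := exists_isSylowIn_ge (L := ⊤) hA le_top
  have h5 := hT.inf_normal (K := i.range) le_top le_normalizer_of_normal
  refine H1.inf_centralizer_ne_bot_of_isPGroup h5.isPGroup hA (le_normalizer_inf (hAT.trans le_normalizer)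
    le_normalizer_of_normal) (fun e => h5.eq_bot_iff.1 e h) (eq_bot_iff.2 ?_)
  exact (inf_le_inf_right _ inf_le_right).trans hfp.le

end H1
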